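import Mathlib

/-!
Weight spaces of commuting involutions (helper7).
-/

set_option autoImplicit false

namespace H7.B4

open Module

variable {F V : Type*} [Field F] [AddCommGroup V] [Module F V] {A : Type*}

/-- weight space -/
def wt (x : A → End F V) (χ : A → F) : Submodule F V := ⨅ a, (x a).eigenspace (χ a)

theorem mem_wt {x : A → End F V} {χ : A → F} {v : V} : v ∈ wt x χ ↔ ∀ a, x a v = χ a • v := by
  simp [wt, Submodule.mem_iInf]

theorem wt_indep (x : A → End F V) (h : ∀ a b, Commute (x a) (x b)) : iSupIndep (wt x) :=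
  (End.independent_iInf_maxGenEigenspace_of_forall_mapsTo x
    fun i j φ => End.mapsTo_maxGenEigenspace_of_comm (h j i) φ).mono fun _ =>
      iInf_mono fun _ => End.eigenspace_le_maxGenEigenspace

theorem li_wt (x : A → End F V) (h : ∀ a b, Commute (x a) (x b)) {ι : Type*} {χ : ι → A → F}
    (inj : Function.Injective χ) {v : ι → V} (hv : ∀ i, v i ∈ wt x (χ i)) (h0 : ∀ i, v i ≠ 0) :
    LinearIndependent F v :=
  ((wt_indep x h).comp inj).linearIndependent _ hv h0

theorem sum_finrank_wt [FiniteDimensional F V] (x : A → End F V) (h : ∀ a b, Commute (x a) (x b))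
    {ι : Type*} [Fintype ι] {χ : ι → A → F} (inj : Function.Injective χ) :
    ∑ i, finrank F (wt x (χ i)) ≤ finrank F V := by
  classical
  have := LinearMap.finrank_le_finrank_of_injective ((wt_indep x h).comp inj).dfinsupp_lsum_injective
  rwa [show finrank F (Π₀ i, ((wt x ∘ χ) i)) = finrank F (DirectSum ι fun i => wt x (χ i)) from rfl,
    finrank_directSum] at this

theorem le_of_wt [Finite A] (h2 : (2 : F) ≠ 0) (x : A → End F V) (h : ∀ a b, Commute (x a) (x b))
    (sq : ∀ a v, x a (x a v) = v) {P : Submodule F V}
    (hP : ∀ w, (∀ a, x a w = w ∨ x a w = -w) → w ∈ P) (v : V) : v ∈ P := by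
  classical
  have := Fintype.ofFinite A
  have key : ∀ s : Finset A, ∀ w, (∀ a, a ∉ s → x a w = w ∨ x a w = -w) → w ∈ P := by
    intro s
    induction s using Finset.induction_on with
    | empty => exact fun w hw => hP w fun a => hw a (Finset.notMem_empty a)
    | insert a s _ ih =>
      intro w hw
      have c : ∀ b, x b (x a w) = x a (x b w) := fun b => LinearMap.congr_fun (h b a).eq w
      have k : ∀ ε : F, ε * ε = 1 → (ε = 1 ∨ ε = -1) → w + ε • x a w ∈ P := fun ε e e' => by
        refine ih _ fun b hb => ?_
        by_cases f : b = a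
        · subst f
          rcases e' with rfl | rfl
          · left; rw [map_add, map_smul, sq, one_smul, one_smul, add_comm]
          · right; rw [map_add, map_smul, sq]; simp [add_comm]
        · rw [map_add, map_smul, c]
          rcases hw b (by simp [f, hb]) with g | g <;> rw [g]
          · exact Or.inl rfl
          · right; rw [map_neg, smul_neg, neg_add]
      have := P.smul_mem (2 : F)⁻¹ (P.add_mem (k 1 (by simp) (Or.inl rfl)) (k (-1) (by simp) (Or.inr rfl)))
      rwa [show w + (1 : F) • x a w + (w + (-1 : F) • x a w) = (2 : F) • w by module, smul_smul,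
        inv_mul_cancel₀ h2, one_smul] at this
  exact key Finset.univ v fun a ha => absurd (Finset.mem_univ a) ha

/-- a line invariant under a non-abelian simple group is fixed -/
theorem fix_of_simple {K : Type*} [Group K] [Finite K] [IsSimpleGroup K] (hK : ¬ (Nat.card K).Prime)
    (ρ : K →* End F V) {v : V} (h : ∀ k, ∃ a : F, ρ k v = a • v) (k : K) : ρ k v = v := by
  by_cases h0 : v = 0
  · rw [h0, map_zero]
  choose μ hμ using h
  have inj := smul_left_injective F h0
  let ν : K →* F :=
    { toFun := μ
      map_one' := inj (by simp only; rw [← hμ, map_one, one_smul]; rfl)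
      map_mul' := fun a b => inj (by
        simp only; rw [← hμ, map_mul, End.mul_apply, hμ b, map_smul, hμ a, smul_smul, mul_comm]) }
  rcases ν.toHomUnits.normal_ker.eq_bot_or_eq_top with e | e
  · have i := (MonoidHom.ker_eq_bot_iff _).1 e
    letI : CommGroup K := { (inferInstance : Group K) with
      mul_comm := fun a b => i (by rw [map_mul, map_mul, mul_comm]) }
    exact absurd IsSimpleGroup.prime_card hK
  · have : ν.toHomUnits k = 1 := (e ▸ Subgroup.mem_top k : k ∈ ν.toHomUnits.ker)
    have : μ k = 1 := congrArg Units.val this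
    rw [hμ, this, one_smul]

theorem exists_smul_of_finrank [FiniteDimensional F V] {P : Submodule F V} (h : finrank F P ≤ 1) {v w : V}
    (hv : v ∈ P) (h0 : v ≠ 0) (hw : w ∈ P) : ∃ a : F, w = a • v := by
  have := (finrank_eq_one_iff_of_nonzero' (⟨v, hv⟩ : P) (fun e => h0 (congrArg Subtype.val e))).1
    (le_antisymm h (finrank_pos_iff_exists_ne_zero.2 ⟨⟨v, hv⟩, fun e => h0 (congrArg Subtype.val e)⟩))
    ⟨w, hw⟩
  obtain ⟨a, e⟩ := this
  exact ⟨a, (congrArg Subtype.val e).symm⟩

end H7.B4
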