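import Mathlib
import Cfsg.Agent.Lib.B43.CoA
import Cfsg.Agent.Lib.B43.Wt7

/-!
The weights of the sign changes on a small module of Co2 (helper7).
-/

set_option autoImplicit false
set_option linter.unusedSectionVars false

namespace H7.B4

open Cfsg H15 H16 H95 Module
open scoped symmDiff Pointwise

variable {F V : Type*} [Field F] [AddCommGroup V] [Module F V] [FiniteDimensional F V]
  {ρ : Representation F (Stab vU) V} {g : Stab vU} {σ : Equiv.Perm GolayPt} {d : Finset GolayPt}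

/-- the sign changes as operators -/
noncomputable def xe (ρ : Representation F (Stab vU) V) (c : EC) : End F V := ρ (ee c)

theorem rmul (ρ : Representation F (Stab vU) V) (g h : Stab vU) (v : V) : ρ (g * h) v = ρ g (ρ h v) := by
  rw [map_mul]; rfl

theorem rsq {g : Stab vU} (h : g * g = 1) (v : V) : ρ g (ρ g v) = v := by
  rw [← rmul, h, map_one]; rfl

theorem rne (g : Stab vU) {v : V} (h : v ≠ 0) : ρ g v ≠ 0 := fun e => h (by
  rw [← show ρ g⁻¹ (ρ g v) = v by rw [← rmul, inv_mul_cancel, map_one]; rfl, e, map_zero])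

theorem xe_comm (ρ : Representation F (Stab vU) V) (a b : EC) : Commute (xe ρ a) (xe ρ b) := by
  change ρ _ * ρ _ = ρ _ * ρ _
  rw [← map_mul, ee_comm, map_mul]

/-- the character given by a set of points -/
def ch (F : Type*) [Field F] (X : Finset GolayPt) (c : EC) : F := (-1) ^ (c.1 ∩ X).card

/-- the sign of a point -/
def sg (F : Type*) [Field F] (d : Finset GolayPt) (i : GolayPt) : F := if i ∈ d then -1 else 1

theorem ch_single (i : GolayPt) (c : EC) : ch F {i} c = sg F c.1 i := by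
  unfold ch sg
  split_ifs with h
  · rw [Finset.inter_singleton_of_mem h, Finset.card_singleton, pow_one]
  · rw [Finset.inter_singleton_of_notMem h, Finset.card_empty, pow_zero]

theorem ch_empty (c : EC) : ch F ∅ c = 1 := by rw [ch, Finset.inter_empty, Finset.card_empty, pow_zero]

theorem mem_wt_single {i : GolayPt} {v : V} :
    v ∈ wt (xe ρ) (ch F {i}) ↔ ∀ c : EC, ρ (ee c) v = sg F c.1 i • v := by
  simp only [mem_wt, ch_single]; rfl

theorem mem_wt_empty {v : V} : v ∈ wt (xe ρ) (ch F ∅) ↔ ∀ c : EC, ρ (ee c) v = v := by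
  simp only [mem_wt, ch_empty, one_smul]; rfl

theorem IsMo.map_wt (a : IsMo g σ d) {X : Finset GolayPt} {v : V} (hv : v ∈ wt (xe ρ) (ch F X)) :
    ρ g v ∈ wt (xe ρ) (ch F (σ • X)) := mem_wt.2 fun c => by
  obtain ⟨c', e1, e2⟩ := a.ee_mul c
  have := mem_wt.1 hv c'
  unfold xe at this ⊢
  rw [← rmul, e2, rmul, this, map_smul, ch, ch, ← e1, ← H15.smul_inter, H15.card_smul]

theorem ch_ne (h2 : (2 : F) ≠ 0) {X Y : Finset GolayPt} {p : GolayPt} (h : ((X ∪ Y).erase p).card ≤ 4)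
    (h1 : p ≠ none) (h0 : p ≠ some 0) (hX : p ∈ X) (hY : p ∉ Y) : ch F X ≠ ch F Y := fun e => by
  obtain ⟨c, c1, c2⟩ := exists_single h h1 h0
  have := congrFun e c
  rw [ch, ch, show c.1 ∩ X = {p} from Finset.eq_singleton_iff_unique_mem.2
      ⟨Finset.mem_inter.2 ⟨c1, hX⟩, fun q hq => c2 q (Finset.mem_union_left _ (Finset.mem_inter.1 hq).2)
        (Finset.mem_inter.1 hq).1⟩,
    show c.1 ∩ Y = ∅ from Finset.eq_empty_of_forall_notMem fun q hq => hY
      (c2 q (Finset.mem_union_right _ (Finset.mem_inter.1 hq).2) (Finset.mem_inter.1 hq).1 ▸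
        (Finset.mem_inter.1 hq).2)] at this
  exact h2 (by
    simp only [Finset.card_singleton, pow_one, Finset.card_empty, pow_zero] at this
    linear_combination -this)

theorem exists_ch (h2 : (2 : F) ≠ 0) {w : V} (h0 : w ≠ 0) (h : ∀ c, xe ρ c w = w ∨ xe ρ c w = -w) :
    ∃ Y : Finset GolayPt, Y.card ≤ 3 ∧ none ∉ Y ∧ some 0 ∉ Y ∧ w ∈ wt (xe ρ) (ch F Y) := by
  have n : w ≠ -w := fun e => h0 ((smul_eq_zero.1 (by rw [two_smul]; exact add_eq_zero_iff_eq_neg.2 e)).resolve_left h2)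
  obtain ⟨Y, y1, y2, y3, y4⟩ := exists_small (fun c => xe ρ c w = w) (fun c e => by
    have : ee c = 1 := Subtype.ext (by rw [coe_ee]; simp only [e]; exact eps_empty)
    rw [xe, this, map_one]; rfl) fun a b => by
      have : xe ρ (a.add b) w = xe ρ a (xe ρ b w) := by rw [xe, ← ee_mul, rmul]; rfl
      rw [this]
      rcases h a with e | e <;> rcases h b with f | f <;> simp [e, f, n.symm]
  refine ⟨Y, y1, y2, y3, mem_wt.2 fun c => ?_⟩
  by_cases e : Even (c.1 ∩ Y).card
  · rw [ch, e.neg_one_pow, one_smul, (y4 c).2 e]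
  · rw [ch, (Nat.not_even_iff_odd.1 e).neg_one_pow, neg_one_smul, (h c).resolve_left (mt (y4 c).1 e)]

theorem not_two (h2 : (2 : F) ≠ 0) (hd : finrank F V ≤ 23) {w : V} (h0 : w ≠ 0) {Y : Finset GolayPt}
    (y1 : Y.card ≤ 3) (y2 : none ∉ Y) (y3 : some 0 ∉ Y) (hw : w ∈ wt (xe ρ) (ch F Y)) : Y.card ≤ 1 := by
  by_contra! l
  obtain ⟨a, ha, b, hb, hab⟩ := Finset.one_lt_card.1 l
  obtain ⟨y, k1, k2, k3, k4, k5⟩ : ∃ y, y ≠ none ∧ y ≠ some 0 ∧ y ≠ a ∧ y ≠ b ∧ Y \ {a, b} ⊆ {y} := by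
    have c : (Y \ {a, b}).card ≤ 1 := by
      rw [Finset.card_sdiff_of_subset (by simp [Finset.insert_subset_iff, ha, hb]), Finset.card_pair hab]; omega
    rcases (Y \ {a, b}).eq_empty_or_nonempty with e | ⟨y, e⟩
    · obtain ⟨y, hy⟩ : ∃ y, y ∉ ({none, some 0, a, b} : Finset GolayPt) := by
        by_contra! f
        have := Finset.card_le_card (s := Finset.univ) fun y _ => f y
        have := Finset.card_le_four (a := none) (b := some 0) (c := a) (d := b)
        rw [Finset.card_univ, card_pt] at *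
        omega
      simp only [Finset.mem_insert, Finset.mem_singleton, not_or] at hy
      exact ⟨y, hy.1, hy.2.1, hy.2.2.1, hy.2.2.2, e ▸ Finset.empty_subset _⟩
    · have f := e
      simp only [Finset.mem_sdiff, Finset.mem_insert, Finset.mem_singleton, not_or] at f
      exact ⟨y, fun t => y2 (t ▸ f.1), fun t => y3 (t ▸ f.1), f.2.1, f.2.2,
        fun z hz => Finset.mem_singleton.2 (Finset.card_le_one.1 c z hz y e)⟩
  set Z := Y \ {a, b}
  have hY : Y = {a, b} ∪ Z := (Finset.union_sdiff_of_subset (by simp [Finset.insert_subset_iff, ha, hb])).symm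
  let P := Finset.powersetCard 2 ({none, some 0, y} : Finset GolayPt)ᶜ
  have m : ∀ D : P, ∀ p ∈ D.1, p ≠ none ∧ p ≠ some 0 ∧ p ≠ y := fun D p hp => by
    simpa using (Finset.mem_powersetCard.1 D.2).1 hp
  have key : ∀ D : P, ∃ v, v ∈ wt (xe ρ) (ch F (D.1 ∪ Z)) ∧ v ≠ 0 := fun D => by
    obtain ⟨p, q, hpq, e⟩ := Finset.card_eq_two.1 (Finset.mem_powersetCard.1 D.2).2
    obtain ⟨p1, p2, p3⟩ := m D p (by simp [e])
    obtain ⟨q1, q2, q3⟩ := m D q (by simp [e])
    obtain ⟨τ, t0, t1, t2, t3, t4, t5⟩ := M24_trans5' (a := none) (b := some 0) (c := y) (d := a) (e := b)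
      (a' := none) (b' := some 0) (c' := y) (d' := p) (e' := q) (by simp) k1.symm (fun t => y2 (t ▸ ha))
      (fun t => y2 (t ▸ hb)) k2.symm (fun t => y3 (t ▸ ha)) (fun t => y3 (t ▸ hb)) k3 k4 hab (by simp) k1.symm
      p1.symm q1.symm k2.symm p2.symm q2.symm p3.symm q3.symm hpq
    refine ⟨_, ?_, rne (ρ := ρ) (pm ⟨τ, ⟨t0, t1⟩, t2⟩) h0⟩
    have := (isMo_pm ⟨τ, ⟨t0, t1⟩, t2⟩).map_wt hw
    rwa [hY, H15.smul_union, smul_eq_of_fix (s := Z) fun z hz => by
      rw [Finset.mem_singleton.1 (k5 hz)]; exact t3, Finset.smul_finset_insert, Finset.smul_finset_singleton,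
      Equiv.Perm.smul_def, Equiv.Perm.smul_def, t4, t5, ← e] at this
  choose v v1 v2 using key
  have ne : ∀ D E : P, ∀ p ∈ D.1, p ∉ E.1 → ch F (D.1 ∪ Z) ≠ ch F (E.1 ∪ Z) := fun D E p hp hq => by
    refine ch_ne h2 (p := p) ?_ (m D p hp).1 (m D p hp).2.1 (Finset.mem_union_left _ hp) fun t => ?_
    · have a1 := (Finset.mem_powersetCard.1 D.2).2
      have a2 := (Finset.mem_powersetCard.1 E.2).2
      have a3 := Finset.card_le_card k5
      have a4 := Finset.card_union_le (D.1 ∪ E.1) Z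
      have a5 := Finset.card_union_le D.1 E.1
      rw [Finset.card_erase_of_mem (Finset.mem_union_left _ (Finset.mem_union_left _ hp)),
        ← Finset.union_union_distrib_right]
      rw [Finset.card_singleton] at a3
      omega
    · exact (Finset.mem_union.1 t).elim hq fun t => (m D p hp).2.2 (Finset.mem_singleton.1 (k5 t))
  have := (li_wt _ (xe_comm ρ) (fun D E e => Subtype.ext (Finset.ext fun p =>
    ⟨fun a => by_contra fun b => ne D E p a b e, fun a => by_contra fun b => ne E D p a b e.symm⟩))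
      v1 v2).fintype_card_le_finrank
  rw [Fintype.card_coe, Finset.card_powersetCard, Finset.card_compl, card_pt] at this
  have c := Nat.choose_le_choose 2 (show 21 ≤ 24 - ({none, some 0, y} : Finset GolayPt).card by
    have := Finset.card_le_three (a := (none : GolayPt)) (b := some 0) (c := y)
    omega)
  rw [show Nat.choose 21 2 = 210 by decide] at c
  omega

theorem le_of_cls (h2 : (2 : F) ≠ 0) (hd : finrank F V ≤ 23) {P : Submodule F V}
    (h0 : wt (xe ρ) (ch F ∅) ≤ P) (h1 : ∀ i, i ≠ none → i ≠ some 0 → wt (xe ρ) (ch F {i}) ≤ P) (v : V) :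
    v ∈ P := by
  refine le_of_wt h2 (xe ρ) (xe_comm ρ) (fun a => rsq (ee_sq a)) (fun w hw => ?_) v
  by_cases n : w = 0
  · exact n ▸ P.zero_mem
  obtain ⟨Y, y1, y2, y3, y4⟩ := exists_ch h2 n hw
  rcases Nat.le_one_iff_eq_zero_or_eq_one.1 (not_two h2 hd n y1 y2 y3 y4) with e | e
  · exact h0 (Finset.card_eq_zero.1 e ▸ y4)
  · obtain ⟨i, rfl⟩ := Finset.card_eq_one.1 e
    exact h1 i (fun t => y2 (by simp [t])) (fun t => y3 (by simp [t])) y4

theorem exists_pm {i j : GolayPt} (h1 : i ≠ none) (h2 : i ≠ some 0) (h3 : j ≠ none) (h4 : j ≠ some 0) :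
    ∃ τ : ↥(M24 ⊓ St (none : GolayPt) ⊓ St (some 0 : GolayPt)), τ.1 i = j := by
  obtain ⟨τ, t0, t1, t2, t3⟩ := M24_trans3 (a := none) (b := some 0) (c := i) (a' := none) (b' := some 0)
    (c' := j) (by simp) h1.symm h2.symm (by simp) h3.symm h4.symm
  exact ⟨⟨τ, ⟨t0, t1⟩, t2⟩, t3⟩

theorem IsMo.map_wt1 (a : IsMo g σ d) {i : GolayPt} {v : V} (hv : v ∈ wt (xe ρ) (ch F {i})) :
    ρ g v ∈ wt (xe ρ) (ch F {σ i}) := by
  have := a.map_wt hv
  rwa [Finset.smul_finset_singleton] at this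

theorem finrank_le_wt {i j : GolayPt} (h1 : i ≠ none) (h2 : i ≠ some 0) (h3 : j ≠ none) (h4 : j ≠ some 0) :
    finrank F (wt (xe ρ) (ch F {i})) ≤ finrank F (wt (xe ρ) (ch F {j})) := by
  obtain ⟨τ, rfl⟩ := exists_pm h1 h2 h3 h4
  refine LinearMap.finrank_le_finrank_of_injective
    (f := (ρ (pm τ)).restrict fun v hv => (isMo_pm τ).map_wt1 hv) ((injective_iff_map_eq_zero _).2 fun v e => ?_)
  by_contra n
  exact rne (ρ := ρ) (pm τ) (fun t => n (Subtype.ext t)) (congrArg Subtype.val e)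

theorem exists_wt1 (h2 : (2 : F) ≠ 0) (hd : finrank F V ≤ 23) (n : ∃ g v, ρ g v ≠ v) :
    0 < finrank F (wt (xe ρ) (ch F {some 1})) := by
  by_contra! h
  have k := le_of_cls (ρ := ρ) h2 hd (P := wt (xe ρ) (ch F ∅)) le_rfl fun i a b => by
    rw [Submodule.finrank_eq_zero.1 (Nat.le_zero.1 ((finrank_le_wt a b (by decide) (by decide)).trans h))]
    exact bot_le
  haveI := isSimple_Co2
  obtain ⟨g, v, e⟩ := n
  rcases (MonoidHom.normal_ker ρ).eq_bot_or_eq_top with f | f
  · obtain ⟨c, c1, -⟩ := exists_single (S := ∅) (p := some 1) (by simp) (by decide) (by decide)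
    have : ee c = 1 := Subgroup.mem_bot.1 (f ▸ LinearMap.ext fun v => mem_wt_empty.1 (k v) c)
    have := congrArg (fun g : Stab vU => (g : Co0) • e8 (some 1)) this
    simp only [coe_ee, eps_smul_e8, if_pos c1, Subgroup.coe_one, one_smul] at this
    exact e8_ne_neg _ _ this.symm
  · exact e (LinearMap.congr_fun (f ▸ Subgroup.mem_top g : g ∈ MonoidHom.ker ρ) v)

theorem ch_inj1 (h2 : (2 : F) ≠ 0) : Function.Injective fun i : {i : GolayPt // i ≠ some 0} => ch F {i.1} := by
  intro i j e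
  by_contra n
  have n' : i.1 ≠ j.1 := fun t => n (Subtype.ext t)
  have c : ∀ a b p : GolayPt, (({a} ∪ {b} : Finset GolayPt).erase p).card ≤ 4 := fun a b p =>
    (Finset.card_erase_le.trans (Finset.card_union_le _ _)).trans (by simp)
  by_cases h : i.1 = none
  · exact ch_ne h2 (c _ _ _) (fun t => n' (h.trans t.symm)) j.2 (Finset.mem_singleton_self _)
      (by simpa using n'.symm) e.symm
  · exact ch_ne h2 (c _ _ _) h i.2 (Finset.mem_singleton_self _) (by simpa using n') e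

theorem ch_none : ch F {none} = ch F ∅ := funext fun c => by rw [ch_single, ch_empty, sg, if_neg c.2.2.1]

theorem dim_wt (h2 : (2 : F) ≠ 0) (hd : finrank F V ≤ 23) (n : ∃ g v, ρ g v ≠ v) :
    finrank F (wt (xe ρ) (ch F ∅)) ≤ 1 ∧ ∀ i, i ≠ none → i ≠ some 0 → finrank F (wt (xe ρ) (ch F {i})) ≤ 1 := by
  have a := exists_wt1 h2 hd n
  have b := sum_finrank_wt _ (xe_comm ρ) (ch_inj1 (F := F) h2)
  rw [← Finset.add_sum_erase _ _ (Finset.mem_univ ⟨none, by simp⟩), ch_none] at b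
  have c := Finset.card_nsmul_le_sum (Finset.univ.erase (⟨none, by simp⟩ : {i : GolayPt // i ≠ some 0}))
    (fun i => finrank F (wt (xe ρ) (ch F {i.1}))) (finrank F (wt (xe ρ) (ch F {some 1}))) fun i hi =>
      finrank_le_wt (by decide) (by decide) (fun t => Finset.ne_of_mem_erase hi (Subtype.ext t)) i.2
  rw [Finset.card_erase_of_mem (Finset.mem_univ _), Finset.card_univ, Fintype.card_subtype_compl, card_pt,
    Fintype.card_unique, smul_eq_mul] at c
  exact ⟨by omega, fun i h3 h4 => (finrank_le_wt (j := some 1) h3 h4 (by decide) (by decide)).trans (by omega)⟩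

end H7.B4
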