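import Mathlib
import Cfsg.Agent.Lib.B43.CoB

/-!
A frame in a small module of Co2 (helper7).
-/

set_option autoImplicit false
set_option linter.unusedSectionVars false

namespace H7.B4

open Cfsg H15 H16 H95 Module
open scoped symmDiff Pointwise

variable {F V : Type*} [Field F] [AddCommGroup V] [Module F V] [FiniteDimensional F V]
  {ρ : Representation F (Stab vU) V} {g : Stab vU} {σ : Equiv.Perm GolayPt} {d : Finset GolayPt}

/-- the sum of the weight spaces of a set of points -/
noncomputable def Sp (ρ : Representation F (Stab vU) V) (X : Set GolayPt) : Submodule F V :=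
  ⨆ i ∈ X, wt (xe ρ) (ch F {i})

theorem le_Sp {X : Set GolayPt} {i : GolayPt} (h : i ∈ X) : wt (xe ρ) (ch F {i}) ≤ Sp ρ X :=
  le_iSup₂_of_le i h le_rfl

theorem Sp_le {X : Set GolayPt} {P : Submodule F V} (h : ∀ i ∈ X, wt (xe ρ) (ch F {i}) ≤ P) : Sp ρ X ≤ P :=
  iSup₂_le h

theorem sg_sq (d : Finset GolayPt) (i : GolayPt) : sg F d i * sg F d i = 1 := by
  unfold sg; split_ifs <;> simp

theorem sg_mem {i : GolayPt} (h : i ∈ d) : sg F d i = -1 := if_pos h

theorem sg_not {i : GolayPt} (h : i ∉ d) : sg F d i = 1 := if_neg h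

theorem mem_Sp (h2 : (2 : F) ≠ 0) (t : ∀ v, v ∈ Sp ρ Set.univ) {Y : Set GolayPt} {v : V}
    (h : ∀ j, j ∉ Y → ∃ c : EC, ρ (ee c) v = -sg F c.1 j • v) : v ∈ Sp ρ Y := by
  have key : ∀ Z : Finset GolayPt, v ∈ Sp ρ (Y ∪ (Z : Set GolayPt)ᶜ) := fun Z => by
    induction Z using Finset.induction_on with
    | empty => simpa using t v
    | insert j Z _ ih =>
      by_cases hj : j ∈ Y
      · refine Sp_le (fun i hi => le_Sp ?_) ih
        by_cases e : i = j
        · exact Or.inl (e ▸ hj)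
        · exact hi.imp_right fun a => by simpa [e] using a
      obtain ⟨c, e⟩ := h j hj
      have : v ∈ (Sp ρ (Y ∪ ((insert j Z : Finset GolayPt) : Set GolayPt)ᶜ)).comap
          (ρ (ee c) - sg F c.1 j • LinearMap.id) := by
        refine Sp_le (fun i hi w hw => ?_) ih
        rw [Submodule.mem_comap, LinearMap.sub_apply, LinearMap.smul_apply, LinearMap.id_apply,
          mem_wt_single.1 hw, ← sub_smul]
        by_cases f : i = j
        · rw [f, sub_self, zero_smul]; exact zero_mem _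
        · exact Submodule.smul_mem _ _ (le_Sp (hi.imp_right fun a => by simpa [f] using a) hw)
      rw [Submodule.mem_comap, LinearMap.sub_apply, LinearMap.smul_apply, LinearMap.id_apply, e,
        ← sub_smul] at this
      refine (Submodule.smul_mem_iff _ fun z => h2 ?_).1 this
      linear_combination (-sg F c.1 j) * z - 2 * sg_sq (F := F) c.1 j
  simpa using key Finset.univ

theorem mem_Sp_neg (h2 : (2 : F) ≠ 0) (t : ∀ v, v ∈ Sp ρ Set.univ) {c : EC} {v : V}
    (h : ρ (ee c) v = -v) : v ∈ Sp ρ c.1 :=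
  mem_Sp h2 t fun j hj => ⟨c, by rw [h, sg_not hj, neg_one_smul]⟩

theorem fix_Sp {X : Set GolayPt} {c : EC} (h : ∀ i ∈ X, i ∉ c.1) {v : V} (hv : v ∈ Sp ρ X) :
    ρ (ee c) v = v :=
  Sp_le (P := LinearMap.eqLocus (ρ (ee c)) LinearMap.id) (fun i hi w hw => by
    rw [LinearMap.mem_eqLocus, mem_wt_single.1 hw, sg_not (h i hi), one_smul]; rfl) hv

theorem ee_xi {c : EC} (h : xi * ee c = ee c * xi) (v : V) : ρ (ee c) (ρ xi v) = ρ xi (ρ (ee c) v) := by
  rw [← rmul, ← h, rmul]

theorem ch_zero : ch F {some 0} = ch F ∅ := funext fun c => by rw [ch_single, ch_empty, sg_not c.2.2.2]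

/-- a frame -/
structure Fr (ρ : Representation F (Stab vU) V) (b : GolayPt → V) : Prop where
  law : ∀ g σ d, IsMo g σ d → ∀ i, ρ g (b i) = sg F d (σ i) • b (σ i)
  ne : ∀ i, b i ≠ 0
  neg : b (some 0) = -b none
  dim : ∀ i, ∀ w ∈ wt (xe ρ) (ch F {i}), ∃ a : F, w = a • b i
  top : ∀ v, v ∈ Sp ρ Set.univ
  xp : ρ xi (b (some 1) + b (some 2)) = b none
  xm : ρ xi (b (some 1) - b (some 2)) = b (some 1) - b (some 2)

theorem exists_b0 (h2 : (2 : F) ≠ 0) (hd : finrank F V ≤ 23) (n : ∃ g v, ρ g v ≠ v) :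
    ∃ b : GolayPt → V, ∀ i, i ≠ none → i ≠ some 0 → b i ≠ 0 ∧ b i ∈ wt (xe ρ) (ch F {i}) ∧
      ∀ τ, ρ (pm τ) (b i) = b (τ.1 i) := by
  obtain ⟨⟨v, hv⟩, h0⟩ := finrank_pos_iff_exists_ne_zero.1 (exists_wt1 h2 hd n)
  replace h0 : v ≠ 0 := fun e => h0 (Subtype.ext e)
  haveI := isSimple_stab3 (p := none) (q := some 0) (r := some 1) (by simp) (by simp) (by decide)
  have fx := fun k => fix_of_simple (K := ↥(M24 ⊓ St (none : GolayPt) ⊓ St (some 0 : GolayPt) ⊓
    St (some 1 : GolayPt))) (by rw [card_stab3 (by simp) (by simp) (by decide)]; norm_num)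
    (ρ.comp (pm.comp (Subgroup.inclusion inf_le_left))) (v := v) (fun k =>
      exists_smul_of_finrank ((dim_wt h2 hd n).2 (some 1) (by simp) (by decide)) hv h0 (by
        have := (isMo_pm (Subgroup.inclusion inf_le_left k)).map_wt1 hv
        rwa [show (Subgroup.inclusion inf_le_left k).1 (some 1) = some 1 from k.2.2] at this)) k
  have ft : (fun τ => ρ (pm τ) v).FactorsThrough fun τ => τ.1 (some 1) := fun τ τ' e => by
    have := fx ⟨(τ⁻¹ * τ').1, (τ⁻¹ * τ').2, Equiv.Perm.inv_eq_iff_eq.2 e.symm⟩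
    change ρ (pm (τ⁻¹ * τ')) v = v at this
    change ρ (pm τ) v = ρ (pm τ') v
    conv_lhs => rw [← this, ← rmul, ← map_mul, mul_inv_cancel_left]
  refine ⟨Function.extend (fun τ => τ.1 (some 1)) (fun τ => ρ (pm τ) v) 0, fun i a b => ?_⟩
  obtain ⟨τ, rfl⟩ := exists_pm (i := some 1) (by simp) (by decide) a b
  rw [ft.extend_apply]
  exact ⟨rne _ h0, (isMo_pm τ).map_wt1 hv, fun τ' => by
    rw [← rmul, ← map_mul]; exact (ft.extend_apply 0 (τ' * τ)).symm⟩

theorem IsMo.ne (a : IsMo g σ d) {i : GolayPt} (h1 : i ≠ none) (h0 : i ≠ some 0) :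
    σ i ≠ none ∧ σ i ≠ some 0 := by
  rcases a.U.2.2 with u | u
  exacts [⟨u.1 ▸ σ.injective.ne h1, u.2 ▸ σ.injective.ne h0⟩, ⟨u.2 ▸ σ.injective.ne h0, u.1 ▸ σ.injective.ne h1⟩]

theorem exists_fr (h2 : (2 : F) ≠ 0) (hd : finrank F V ≤ 23) (n : ∃ g v, ρ g v ≠ v) : ∃ b, Fr ρ b := by
  obtain ⟨b, hb⟩ := exists_b0 h2 hd n
  obtain ⟨d0, d1⟩ := dim_wt h2 hd n
  have t : ∀ v, v ∈ Sp ρ Set.univ :=
    le_of_cls h2 hd (ch_none (F := F) ▸ le_Sp (Set.mem_univ _)) fun i _ _ => le_Sp (Set.mem_univ _)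
  have be : ∀ c : EC, ∀ i, i ≠ none → i ≠ some 0 → ρ (ee c) (b i) = sg F c.1 i • b i :=
    fun c i a e => mem_wt_single.1 (hb i a e).2.1 c
  have l1 : ∀ g σ d, IsMo g σ d → σ none = none → σ (some 0) = some 0 → ∀ i, i ≠ none → i ≠ some 0 →
      ρ g (b i) = sg F d (σ i) • b (σ i) := fun g σ d a h1 h0 i p q => by
    rw [a.split h1 h0, rmul, (hb i p q).2.2]
    exact be _ _ (a.ne p q).1 (a.ne p q).2
  obtain ⟨k1, k2, k3, k4, k5⟩ := k_val
  have k6 : ρ (xi * ee (em 421910) * xi) (b (some 6)) = b (some 6) := by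
    rw [rmul, rmul, fix_Sp _ (mem_Sp_neg h2 t (c := em 3704512) _), rsq xi_sq]
    · simp only [em, Finset.mem_coe, mem_ofMask]; decide +kernel
    · rw [ee_xi xi_ta, be _ _ (by simp) (by decide), sg_mem (by simp only [em, mem_ofMask]; decide +kernel),
        neg_one_smul, map_neg]
  have l2 : ∀ g σ d, IsMo g σ d → ∀ i, i ≠ none → i ≠ some 0 → ρ g (b i) = sg F d (σ i) • b (σ i) :=
    fun g σ d a i p q => by
      rcases a.U.2.2 with u | u
      · exact l1 g σ d a u.1 u.2 i p q
      obtain ⟨τ, rfl⟩ := exists_pm (i := some 6) (by simp) (by decide) p q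
      have := l1 _ _ _ ((a.mul (isMo_pm τ)).mul isMo_k) (by
        rw [Equiv.Perm.mul_apply, k1, Equiv.Perm.mul_apply, mem_St_pt.1 τ.2.2, u.2]) (by
        rw [Equiv.Perm.mul_apply, k2, Equiv.Perm.mul_apply, mem_St_pt.1 τ.2.1.2, u.1]) (some 6)
        (by simp) (by decide)
      rw [rmul, k6, rmul, (hb _ (by simp) (by decide)).2.2, Equiv.Perm.mul_apply, k5] at this
      rw [this, Equiv.Perm.mul_apply]
      congr 1
      have e : σ (τ.1 (some 6)) ∉ (σ * τ.1) • ofMask 416040 := fun e => absurd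
        ((Finset.smul_mem_smul_finset_iff (σ * τ.1) (b := some 6)).1 e) (by rw [mem_ofMask]; decide +kernel)
      simp [sg, Finset.mem_symmDiff, e]
  have e1 := fun c => be c (some 1) (by simp) (by decide)
  have e2 := fun c => be c (some 2) (by simp) (by decide)
  have f1 := l2 _ _ _ isMo_k (some 1) (by simp) (by decide)
  have f2 := l2 _ _ _ isMo_k (some 2) (by simp) (by decide)
  rw [k3, sg_not (by rw [mem_ofMask]; decide +kernel), one_smul] at f1
  rw [k4, sg_not (by rw [mem_ofMask]; decide +kernel), one_smul] at f2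
  have s1 := e1 (em 4845570)
  have s2 := e2 (em 4845570)
  rw [sg_mem (by simp only [em, mem_ofMask]; decide +kernel)] at s1
  rw [sg_not (by simp only [em, mem_ofMask]; decide +kernel)] at s2
  have li : ∀ x y : F, x • b (some 1) + y • b (some 2) = 0 → x = 0 := fun x y e => by
    have f := congrArg (ρ (ee (em 4845570))) e
    rw [map_add, map_smul, map_smul, s1, s2, map_zero] at f
    exact (mul_eq_zero.1 ((smul_eq_zero.1 (show (2 * x) • b (some 1) = 0 by
      linear_combination (norm := module) e - f)).resolve_right (hb _ (by simp) (by decide)).1)).resolve_left h2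
  have fx : ∀ x y : F, ∀ j, j ∉ Tet → ∃ c : EC, ρ (ee c) (ρ xi (x • b (some 1) + y • b (some 2))) =
      -sg F c.1 j • ρ xi (x • b (some 1) + y • b (some 2)) := fun x y j hj => by
    obtain ⟨c, c1, c2, c3, c4⟩ : ∃ c : EC, xi * ee c = ee c * xi ∧ some 1 ∉ c.1 ∧ some 2 ∉ c.1 ∧ j ∈ c.1 := by
      have : j ∈ ofMask 3704512 ∨ j ∈ ofMask 4415544 ∨ j ∈ ofMask 4536592 := by
        simp only [mem_ofMask]; revert j; decide +kernel
      rcases this with e | e | e
      · exact ⟨_, xi_ta, by simp only [em, mem_ofMask]; decide +kernel,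
          by simp only [em, mem_ofMask]; decide +kernel, e⟩
      · exact ⟨_, xi_tb, by simp only [em, mem_ofMask]; decide +kernel,
          by simp only [em, mem_ofMask]; decide +kernel, e⟩
      · exact ⟨_, xi_tc, by simp only [em, mem_ofMask]; decide +kernel,
          by simp only [em, mem_ofMask]; decide +kernel, e⟩
    exact ⟨c, by rw [ee_xi c1, map_add, map_smul, map_smul, e1, e2, sg_not c2, sg_not c3, sg_mem c4, neg_neg,
      one_smul, one_smul, one_smul]⟩
  have r1 : some 1 ∈ (em 421910).1 := by simp only [em, mem_ofMask]; decide +kernel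
  have r2 : some 2 ∈ (em 421910).1 := by simp only [em, mem_ofMask]; decide +kernel
  have kx : ∀ w, ρ (ee (em 421910)) (ρ xi w) = ρ xi (ρ (xi * ee (em 421910) * xi) w) := fun w => by
    rw [rmul, rmul, rsq xi_sq]
  have xk : ∀ w, ρ (xi * ee (em 421910) * xi) (ρ xi w) = ρ xi (ρ (ee (em 421910)) w) := fun w => by
    rw [rmul, rmul, rsq xi_sq]
  set l := ρ xi (b (some 1) + b (some 2)) with hl
  have m0 : l ∈ wt (xe ρ) (ch F ∅) := by
    refine Sp_le (X := {none, some 0}) (fun i hi => ?_) (mem_Sp h2 t fun j hj => ?_)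
    · rcases hi with rfl | rfl
      exacts [ch_none (F := F) ▸ le_rfl, ch_zero (F := F) ▸ le_rfl]
    · by_cases e : j ∈ Tet
      · refine ⟨em 421910, ?_⟩
        rw [hl, kx, map_add, f1, f2, add_comm, sg_mem, neg_neg, one_smul]
        simp only [Tet, Finset.mem_insert, Finset.mem_singleton, Set.mem_insert_iff, Set.mem_singleton_iff,
          not_or] at e hj
        rcases e with e | e | rfl | rfl
        exacts [absurd e hj.1, absurd e hj.2, r1, r2]
      · simpa only [one_smul] using fx 1 1 j e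
  have n0 : l ≠ 0 := rne _ fun e => one_ne_zero (li 1 1 (by simpa using e))
  have kl : ρ (xi * ee (em 421910) * xi) l = -l := by
    rw [hl, xk, map_add, e1, e2, sg_mem r1, sg_mem r2, ← smul_add, map_smul, neg_one_smul]
  haveI := isSimple_stab2 (p := none) (q := some 0) (by simp)
  have pl := fix_of_simple (by rw [card_stab2 (by simp)]; norm_num) (ρ.comp pm) (v := l) fun k =>
    exists_smul_of_finrank d0 m0 n0 (by simpa using (isMo_pm k).map_wt m0)
  have l3 : ∀ g σ d, IsMo g σ d → σ none = none → σ (some 0) = some 0 → ρ g l = l := fun g σ d a h1 h0 => by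
    rw [a.split h1 h0, rmul]
    exact (congrArg _ (pl _)).trans (mem_wt_empty.1 m0 _)
  have l4 : ∀ g σ d, IsMo g σ d → σ none = some 0 → σ (some 0) = none → ρ g l = -l := fun g σ d a h1 h0 => by
    have := l3 _ _ _ (a.mul isMo_k) (by rw [Equiv.Perm.mul_apply, k1, h0]) (by rw [Equiv.Perm.mul_apply, k2, h1])
    rw [rmul, kl, map_neg] at this
    exact neg_eq_iff_eq_neg.1 this
  have xm : ρ xi (b (some 1) - b (some 2)) = b (some 1) - b (some 2) := by
    obtain ⟨x, y, e⟩ := Submodule.mem_span_pair.1 (Sp_le (X := {some 1, some 2})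
      (P := Submodule.span F {b (some 1), b (some 2)}) (fun i hi w hw => by
        have p : i ≠ none ∧ i ≠ some 0 := by rcases hi with rfl | rfl <;> decide
        obtain ⟨a, rfl⟩ := exists_smul_of_finrank (d1 i p.1 p.2) (hb i p.1 p.2).2.1 (hb i p.1 p.2).1 hw
        exact Submodule.smul_mem _ _ (Submodule.subset_span (by rcases hi with rfl | rfl <;> simp)))
      (mem_Sp (v := ρ xi (b (some 1) - b (some 2))) h2 t fun j hj => by
        by_cases e : j ∈ Tet
        · refine ⟨em 421910, ?_⟩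
          rw [kx, map_sub, f1, f2, sg_not, neg_one_smul, ← map_neg, neg_sub]
          simp only [Tet, Finset.mem_insert, Finset.mem_singleton, Set.mem_insert_iff, Set.mem_singleton_iff,
            not_or] at e hj
          rcases e with rfl | rfl | e | e
          exacts [(em 421910).2.2.1, (em 421910).2.2.2, absurd e hj.1, absurd e hj.2]
        · simpa only [one_smul, neg_one_smul, ← sub_eq_add_neg] using fx 1 (-1) j e))
    have u := xk (b (some 1) - b (some 2))
    rw [map_sub (ρ (ee _)), e1, e2, sg_mem r1, sg_mem r2, ← smul_sub, map_smul, ← e, map_add, map_smul, map_smul,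
      f1, f2] at u
    obtain rfl : y = -x := by
      linear_combination li (x + y) (x + y) (by linear_combination (norm := module) u)
    have w := LinearMap.congr_fun (congrArg ρ xi_cube) (b (some 1) + b (some 2))
    rw [map_one, End.one_apply, rmul, rmul, rmul, rmul, rmul, ← hl, mem_wt_empty.1 m0, hl, rsq xi_sq, map_add,
      s1, s2, show (-1 : F) • b (some 1) + (1 : F) • b (some 2) = -(b (some 1) - b (some 2)) by module,
      map_neg, ← e, map_neg, map_add, map_smul, map_smul, s1, s2] at w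
    obtain rfl : x = 1 := by
      linear_combination li (x - 1) (x - 1) (by linear_combination (norm := module) w)
    rw [← e]; module
  let b' : GolayPt → V := fun i => if i = none then l else if i = some 0 then -l else b i
  have b1 : b' none = l := if_pos rfl
  have b2 : b' (some 0) = -l := rfl
  have b3 : ∀ i, i ≠ none → i ≠ some 0 → b' i = b i := fun i p q => (if_neg p).trans (if_neg q)
  have cs : ∀ i : GolayPt, i = none ∨ i = some 0 ∨ i ≠ none ∧ i ≠ some 0 := fun i => by tauto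
  refine ⟨b', fun g σ d a i => ?_, fun i => ?_, by rw [b1, b2], fun i w hw => ?_, t, ?_, ?_⟩
  · obtain ⟨u1, u2, u⟩ := a.U
    rcases cs i with rfl | rfl | p
    · rcases u with u | u <;> rw [u.1, b1]
      · rw [sg_not u1, one_smul, l3 g σ d a u.1 u.2]
      · rw [sg_not u2, one_smul, l4 g σ d a u.1 u.2, b2]
    · rcases u with u | u <;> rw [u.2, b2]
      · rw [sg_not u2, one_smul, map_neg, l3 g σ d a u.1 u.2]
      · rw [sg_not u1, one_smul, map_neg, l4 g σ d a u.1 u.2, b1, neg_neg]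
    · rw [b3 i p.1 p.2, b3 _ (a.ne p.1 p.2).1 (a.ne p.1 p.2).2, l2 g σ d a i p.1 p.2]
  · rcases cs i with rfl | rfl | p
    exacts [n0, neg_ne_zero.2 n0, b3 i p.1 p.2 ▸ (hb i p.1 p.2).1]
  · rcases cs i with rfl | rfl | p
    · exact exists_smul_of_finrank d0 m0 n0 (ch_none (F := F) ▸ hw)
    · exact exists_smul_of_finrank d0 (neg_mem m0) (neg_ne_zero.2 n0) (ch_zero (F := F) ▸ hw)
    · exact b3 i p.1 p.2 ▸ exists_smul_of_finrank (d1 i p.1 p.2) (hb i p.1 p.2).2.1 (hb i p.1 p.2).1 hw
  · rw [b3 _ (by simp) (by decide), b3 _ (by simp) (by decide), b1]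
  · rw [b3 _ (by simp) (by decide), b3 _ (by simp) (by decide), xm]

end H7.B4
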