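import Mathlib
import Cfsg.Agent.Lib.B43.CoC

/-!
Small modules of Co2 are unique (helper7).
-/

set_option autoImplicit false
set_option linter.unusedSectionVars false

namespace H7.B4

open Cfsg H15 H16 H95 Module
open scoped symmDiff Pointwise

variable {F V V' : Type*} [Field F] [AddCommGroup V] [Module F V] [FiniteDimensional F V]
  [AddCommGroup V'] [Module F V'] [FiniteDimensional F V'] {ρ : Representation F (Stab vU) V}
  {ρ' : Representation F (Stab vU) V'} {b : GolayPt → V} {b' : GolayPt → V'}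

theorem Fr.mem (a : Fr ρ b) (i : GolayPt) : b i ∈ wt (xe ρ) (ch F {i}) :=
  mem_wt_single.2 fun c => a.law _ _ _ (isMo_ee c) i

theorem Fr.xn (a : Fr ρ b) : ρ xi (b none) = b (some 1) + b (some 2) := by rw [← a.xp, rsq xi_sq]

theorem Fr.x1 (a : Fr ρ b) : (2 : F) • ρ xi (b (some 1)) = b none + (b (some 1) - b (some 2)) := by
  rw [← a.xp, ← a.xm, map_add, map_sub]; module

theorem Fr.x2 (a : Fr ρ b) : (2 : F) • ρ xi (b (some 2)) = b none - (b (some 1) - b (some 2)) := by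
  rw [← a.xp, ← a.xm, map_add, map_sub]; module

theorem Fr.basis (h2 : (2 : F) ≠ 0) (a : Fr ρ b) :
    ∃ B : Basis {i : GolayPt // i ≠ some 0} F V, ∀ i, B i = b i.1 := by
  refine ⟨Basis.mk (li_wt _ (xe_comm ρ) (ch_inj1 h2) (fun i => a.mem i.1) fun i => a.ne i.1) fun v _ => ?_,
    fun i => Basis.mk_apply _ _ i⟩
  refine Sp_le (fun i _ w hw => ?_) (a.top v)
  obtain ⟨t, rfl⟩ := a.dim i w hw
  refine Submodule.smul_mem _ _ ?_
  by_cases e : i = some 0
  · rw [e, a.neg]; exact neg_mem (Submodule.subset_span ⟨⟨none, by simp⟩, rfl⟩)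
  · exact Submodule.subset_span ⟨⟨i, e⟩, rfl⟩

theorem Fr.xi_mem (h2 : (2 : F) ≠ 0) (a : Fr ρ b) {v : V} (h : v ∈ Sp ρ (Tet : Set GolayPt)ᶜ) :
    ρ xi v ∈ Sp ρ (Tet : Set GolayPt)ᶜ := by
  refine Sp_le (P := (Sp ρ _).comap (ρ xi)) (fun i hi w hw => ?_) h
  obtain ⟨c, c1, c2, c3⟩ : ∃ c : EC, xi * ee c = ee c * xi ∧ i ∈ c.1 ∧ ∀ j ∈ c.1, j ∉ Tet := by
    have : i ∉ Tet → i ∈ ofMask 3704512 ∨ i ∈ ofMask 4415544 ∨ i ∈ ofMask 4536592 := by
      simp only [mem_ofMask]; clear hi hw; revert i; decide +kernel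
    rcases this hi with e | e | e
    · exact ⟨_, xi_ta, e, by simp only [em, mem_ofMask]; decide +kernel⟩
    · exact ⟨_, xi_tb, e, by simp only [em, mem_ofMask]; decide +kernel⟩
    · exact ⟨_, xi_tc, e, by simp only [em, mem_ofMask]; decide +kernel⟩
  exact Sp_le (fun j hj => le_Sp (c3 j hj)) (mem_Sp_neg h2 a.top (c := c) (by
    rw [ee_xi c1, mem_wt_single.1 hw, sg_mem c2, neg_one_smul, map_neg]))

theorem ee_mem_Sp {X : Set GolayPt} (c : EC) {v : V} (h : v ∈ Sp ρ X) : ρ (ee c) v ∈ Sp ρ X :=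
  Sp_le (P := (Sp ρ X).comap (ρ (ee c))) (fun i hi w hw => by
    rw [Submodule.mem_comap, mem_wt_single.1 hw]; exact Submodule.smul_mem _ _ (le_Sp hi hw)) h

theorem Fr.unique (h2 : (2 : F) ≠ 0) (a : Fr ρ b) (a' : Fr ρ' b') :
    ∃ f : V ≃ₗ[F] V', ∀ g v, f (ρ g v) = ρ' g (f v) := by
  obtain ⟨B, hB⟩ := a.basis h2
  obtain ⟨B', hB'⟩ := a'.basis h2
  let f := B.equiv B' (Equiv.refl _)
  have fb : ∀ i, f (b i) = b' i := fun i => by
    have k : ∀ i, i ≠ some 0 → f (b i) = b' i := fun i h => by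
      rw [← hB ⟨i, h⟩, ← hB' ⟨i, h⟩]; exact B.equiv_apply _ _ _
    by_cases e : i = some 0
    · rw [e, a.neg, a'.neg, map_neg, k _ (by simp)]
    · exact k i e
  have ext : ∀ g, (∀ i, i ≠ some 0 → f (ρ g (b i)) = ρ' g (b' i)) → ∀ v, f (ρ g v) = ρ' g (f v) := fun g h =>
    LinearMap.congr_fun (B.ext (f₁ := f.toLinearMap ∘ₗ ρ g) (f₂ := ρ' g ∘ₗ f.toLinearMap) fun i => by
      rw [hB]; exact (h i.1 i.2).trans (congrArg _ (fb _).symm))
  have mo : ∀ g σ d, IsMo g σ d → ∀ v, f (ρ g v) = ρ' g (f v) := fun g σ d h =>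
    ext g fun i _ => by rw [a.law g σ d h, a'.law g σ d h, map_smul, fb]
  have cj : ∀ g : Stab vU, ((xi * g * xi : Stab vU) : Co0) ∈ monoGroup → ∀ v,
      ρ' xi (f (ρ xi (ρ g v))) = ρ' g (ρ' xi (f (ρ xi v))) := fun g h v => by
    obtain ⟨σ, d, h⟩ := isMo_of_mem h
    have := congrArg (ρ' xi) (mo _ _ _ h (ρ xi v))
    rwa [rmul, rmul, rsq xi_sq, rmul, rmul, rsq xi_sq] at this
  have ex : ∀ i, ∃ t : F, i ∉ Tet → ρ' xi (f (ρ xi (b i))) = t • b' i := fun i => by
    by_cases hi : i ∈ Tet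
    · exact ⟨0, fun h => absurd hi h⟩
    refine (a'.dim i _ (Sp_le (X := {i}) (fun j hj => hj ▸ le_rfl) (mem_Sp h2 a'.top fun j hj => ?_))).imp
      fun _ e _ => e
    obtain ⟨c, c1, c2⟩ : ∃ c : EC, ((xi * ee c * xi : Stab vU) : Co0) ∈ monoGroup ∧ ¬ (i ∈ c.1 ↔ j ∈ c.1) := by
      by_cases e : j = some 0
      · obtain ⟨c, c1, c2⟩ := sep (j := none) hi (by simp) fun t => hi (t ▸ by simp [Tet])
        exact ⟨c, c1, fun t => c2 (t.trans (iff_of_false (e ▸ c.2.2.2) c.2.2.1))⟩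
      · exact sep hi e hj
    refine ⟨c, ?_⟩
    rw [← cj _ c1, mem_wt_single.1 (a.mem i), map_smul, map_smul, map_smul]
    congr 1
    by_cases p : i ∈ c.1
    · rw [sg_mem p, sg_not fun q => c2 (iff_of_true p q)]
    · rw [sg_not p, sg_mem (by_contra fun q => c2 (iff_of_false p q)), neg_neg]
  choose t ht using ex
  have ct := const20 t fun g σ d h1 h3 i p q => by
    have := cj g h3 (b i)
    rw [a.law g σ d h1, map_smul, map_smul, map_smul, ht _ q, ht _ p, map_smul, a'.law g σ d h1, smul_comm] at this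
    exact smul_left_injective F (smul_ne_zero (left_ne_zero_of_mul_eq_one (sg_sq d (σ i))) (a'.ne _)) this
  have k : ∀ v ∈ Sp ρ (Tet : Set GolayPt)ᶜ, f (ρ xi v) = t (some 3) • ρ' xi (f v) := fun v hv =>
    Sp_le (P := LinearMap.eqLocus (f.toLinearMap ∘ₗ ρ xi) (t (some 3) • ρ' xi ∘ₗ f.toLinearMap))
      (fun i hi w hw => by
        obtain ⟨u, rfl⟩ := a.dim i w hw
        refine Submodule.smul_mem _ _ ?_
        change f (ρ xi (b i)) = t (some 3) • ρ' xi (f (b i))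
        rw [← ct i hi, fb, ← map_smul, ← ht i hi, rsq xi_sq]) hv
  have m3 : b (some 3) ∈ Sp ρ (Tet : Set GolayPt)ᶜ := le_Sp (i := some 3) (by decide) (a.mem _)
  have inj := smul_left_injective F (a'.ne (some 3))
  have t2 : t (some 3) * t (some 3) = 1 := inj (by
    have := k _ (a.xi_mem h2 m3)
    rw [rsq xi_sq, k _ m3, map_smul, rsq xi_sq, smul_smul, fb] at this
    simp only [one_smul]; exact this.symm)
  have t3 : t (some 3) * t (some 3) * t (some 3) = 1 := inj (by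
    have k' : ∀ v ∈ Sp ρ (Tet : Set GolayPt)ᶜ, ρ (ee (em 4845570) * xi) v ∈ Sp ρ (Tet : Set GolayPt)ᶜ ∧
        f (ρ (ee (em 4845570) * xi) v) = t (some 3) • ρ' (ee (em 4845570) * xi) (f v) := fun v hv => by
      rw [rmul, rmul, mo _ _ _ (isMo_ee _), k v hv, map_smul]
      exact ⟨ee_mem_Sp _ (a.xi_mem h2 hv), rfl⟩
    have := (k' _ (k' _ (k' _ m3).1).1).2
    rw [(k' _ (k' _ m3).1).2, (k' _ m3).2, map_smul, map_smul, map_smul, ← rmul, ← rmul, xi_cube, ← rmul, ← rmul,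
      xi_cube, map_one, map_one, End.one_apply, End.one_apply, fb, smul_smul, smul_smul] at this
    simp only [one_smul]; exact this.symm)
  rw [t2, one_mul] at t3
  have hx := ext xi fun i hi => by
    by_cases e : i ∈ Tet
    · simp only [Tet, Finset.mem_insert, Finset.mem_singleton] at e
      rcases e with rfl | rfl | rfl | rfl
      · rw [a.xn, a'.xn, map_add, fb, fb]
      · exact absurd rfl hi
      · exact smul_right_injective V' h2 (by simp only [← map_smul f, a.x1, a'.x1, map_add, map_sub, fb])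
      · exact smul_right_injective V' h2 (by simp only [← map_smul f, a.x2, a'.x2, map_sub, fb])
    · rw [k _ (le_Sp (i := i) e (a.mem i)), t3, one_smul, fb]
  let A : Subgroup (Stab vU) :=
    { carrier := {g | ∀ v, f (ρ g v) = ρ' g (f v)}
      one_mem' := fun v => by rw [map_one, map_one]; rfl
      mul_mem' := fun {g h} p q v => by rw [rmul, rmul, p, q]
      inv_mem' := fun {g} p v => by
        have := congrArg (ρ' g⁻¹) (p (ρ g⁻¹ v))
        rw [← rmul ρ, ← rmul ρ', mul_inv_cancel, inv_mul_cancel, map_one, map_one] at this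
        exact this.symm }
  exact ⟨f, fun g => (gen (A := A) mo hx ▸ Subgroup.mem_top g : g ∈ A)⟩

theorem co2_unique (h2 : (2 : F) ≠ 0) (hd : finrank F V ≤ 23) (hd' : finrank F V' ≤ 23)
    (n : ∃ g v, ρ g v ≠ v) (n' : ∃ g v, ρ' g v ≠ v) :
    finrank F V = 23 ∧ ∃ f : V ≃ₗ[F] V', ∀ g v, f (ρ g v) = ρ' g (f v) := by
  obtain ⟨b, a⟩ := exists_fr h2 hd n
  obtain ⟨b', a'⟩ := exists_fr h2 hd' n'
  obtain ⟨B, -⟩ := a.basis h2
  exact ⟨by rw [finrank_eq_card_basis B, Fintype.card_subtype_compl, card_pt, Fintype.card_unique],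
    a.unique h2 a'⟩

theorem eqns_coD : True := by
  have := @Sp.eq_1.{0, 0}
  have := @xe.eq_1.{0, 0}
  have := @ch.eq_1.{0}
  have := @sg.eq_1.{0}
  have := @wt.eq_1.{0, 0, 0}
  have := @Tet.eq_1
  have := @em.eq_1
  trivial

end H7.B4
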