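import Cfsg.Agent.Lib.B43.Defs
import Cfsg.Agent.Lib.B43.CoD

/-! Uniqueness of the representation of degree 23 of the second Conway group. -/

set_option autoImplicit false

namespace H95.B4

open Cfsg Subgroup H15 H16 H48.BR H7.ML Module

variable {F : Type*} [Field F] {V V' : Type*} [AddCommGroup V] [Module F V] [AddCommGroup V'] [Module F V']
  [FiniteDimensional F V] [FiniteDimensional F V'] {ρ : Representation F (Stab vU) V}
  {ρ' : Representation F (Stab vU) V'}

theorem co2_rep (h2 : (2 : F) ≠ 0) (hd : finrank F V ≤ 23) (hd' : finrank F V' ≤ 23) (n : ∃ g v, ρ g v ≠ v)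
    (n' : ∃ g v, ρ' g v ≠ v) : finrank F V = 23 ∧
      ∃ f : V →ₗ[F] V', Function.Injective f ∧ ∀ g v, v ∈ Yg ρ ρ' f g := by
  obtain ⟨e, f, hf⟩ := H7.B4.co2_unique h2 hd hd' n n'
  exact ⟨e, f, f.injective, hf⟩

end H95.B4
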