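import Cfsg.Agent.Lib.B43.ClA

/-! The classes of elements of the extraspecial group. -/

set_option autoImplicit false

namespace H95.B4

open Cfsg Subgroup H15 H16 H48.BR H7.ML Module
open scoped commutatorElement

variable {G : Type*} [Group G] [Finite G]

variable {z s σ x : G} {Q Q' : Subgroup G} {φ : centralizer ({z} : Set G) →* Stab vU}
  {cls : leechLattice → G → Prop} {y y' : G}

namespace Bs

variable (B : Bs z s σ x Q Q' φ cls)
include B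

theorem cl_fixz (h : TwG cls y) : ∃ a ∈ Q, a * s = s * a ∧ a * y * a⁻¹ = y * z := by
  by_contra hn
  have hy := h.mem B.M
  have := B.p.h.mem_of_centralizes B.p.sQ B.p.h'.sq hy fun a ha e => by
    by_contra k
    exact hn ⟨a, ha, e, B.p.h.conj_of_ne hy ha k⟩
  rcases this with e | e | e | e
  · exact (h.ne B.M).1 e
  · exact (h.ne B.M).2 e
  · exact B.not_s (e ▸ h)
  · have k := h.mul_z B.M
    rw [e, B.p.zs, mul_assoc, B.p.h.sq, mul_one] at k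
    exact B.not_s k

theorem cl_lift {v w : leechLattice} {u : G} (hu : cls v u) (hw : Tw w) (hy : cls w y) {γ : Stab vU}
    (hγ : γ ∈ MM) (e : Cu ((γ : Co0) • v) w) :
    ∃ k, k * z = z * k ∧ k * s = s * k ∧ k * u * k⁻¹ = y := by
  obtain ⟨k, ks, rfl⟩ := B.lift hγ
  have kz : (k : G) * z = z * k := mem_cent_iff.1 k.2
  rcases (B.M.eq_iff hy (B.M.smul k hu)).1 e.symm with h | h
  · exact ⟨k, kz, ks, h⟩
  · obtain ⟨a, ha, as, ay⟩ := B.cl_fixz ⟨w, hw, hy⟩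
    have az : Commute a z := B.p.h.central a ha
    refine ⟨a⁻¹ * k, (az.inv_left.mul_left kz).eq, ((Commute.inv_left as).mul_left ks).eq, ?_⟩
    calc a⁻¹ * k * u * (a⁻¹ * k)⁻¹ = a⁻¹ * (k * u * (k : G)⁻¹) * a := by group
      _ = y := by rw [h, ← ay]; group

theorem cl_mem_E {k : G} (kz : k * z = z * k) (ks : k * s = s * k) : k * x * k⁻¹ ∈ Q ⊓ Q' :=
  ⟨conj_mem_of_normalizer (B.p.h.norm k kz) (B.M.mem B.hx),
    conj_mem_of_normalizer (B.p.h'.norm k ks) B.xQ'⟩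

theorem cl_hx {w : leechLattice} (hw : Tw w) (hy : cls w y) (k : HxG s Q Q' y) : Hx w := by
  rcases shape hw ((B.M.commute_iff hy B.hs).1 k.2.1) with ⟨γ, hγ, e⟩ | h
  · obtain ⟨c, cz, cs, rfl⟩ := B.cl_lift B.hx hw hy hγ e
    obtain ⟨a, ha, n⟩ := k.2.2
    have hm := B.cl_mem_E cz cs
    have h1 := B.p.E_elementary ha
    have h2 := B.p.E_elementary hm
    have h3 := B.p.E_elementary (mul_mem ha hm)
    refine absurd ?_ n
    generalize c * x * c⁻¹ = u at h2 h3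
    calc a * u = (a * u)⁻¹ := (inv_eq_of_mul_eq_one_right h3).symm
      _ = u * a := by
        rw [mul_inv_rev, inv_eq_of_mul_eq_one_right h1, inv_eq_of_mul_eq_one_right h2]
  · exact h

theorem cl_mem_SG (c : centralizer ({z} : Set G)) : (c : G) ∈ SG z x B.p.h.sq ↔ φ c ∈ S2 := by
  have := B.M.eq_iff B.hx (B.M.smul c B.hx)
  exact ⟨fun h => (this.2 h.2).symm, fun h => ⟨mem_cent_iff.1 c.2, this.1 (Cu.symm h)⟩⟩

theorem cases (h : TwG cls y) (e : y * s = s * y) :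
    (∃ k, k * z = z * k ∧ k * s = s * k ∧ k * x * k⁻¹ = y) ∨ HxG s Q Q' y := by
  obtain ⟨w, hw, hy⟩ := h
  rcases shape hw ((B.M.commute_iff hy B.hs).1 e) with ⟨γ, hγ, k⟩ | h
  · exact Or.inl (B.cl_lift B.hx hw hy hγ k)
  · obtain ⟨γ, hγ, n⟩ := h.odd
    obtain ⟨k, ks, rfl⟩ := B.lift hγ
    exact Or.inr ⟨B.M.mem hy, e, _, B.cl_mem_E (mem_cent_iff.1 k.2) ks,
      fun c => n ((B.M.commute_iff (B.M.smul k B.hx) hy).1 c)⟩

theorem hx_trans (h : TwG cls y) (k : HxG s Q Q' y) (h' : TwG cls y') (k' : HxG s Q Q' y') :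
    ∃ k, k * z = z * k ∧ k * s = s * k ∧ k * y * k⁻¹ = y' := by
  obtain ⟨w, hw, hy⟩ := h
  obtain ⟨w', hw', hy'⟩ := h'
  obtain ⟨γ, hγ, e⟩ := (B.cl_hx hw hy k).trans (B.cl_hx hw' hy' k')
  exact B.cl_lift hy hw' hy' hγ (e ▸ Cu.refl _)

theorem hx_s (h : TwG cls y) (k : HxG s Q Q' y) : ¬ TwG cls (y * s) ∧ y * s ≠ 1 ∧ y * s ≠ z := by
  obtain ⟨w, hw, hy⟩ := h
  have hx := B.cl_hx hw hy k
  have a := B.M.add hy B.hs
  refine ⟨?_, not_or.1 fun e => hx.not_zero ((B.M.cu_zero_iff a).2 e)⟩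
  rintro ⟨w', hw', hy'⟩
  exact hx.not_tw hw' ((B.M.eq_iff a hy').2 (Or.inl rfl))

theorem seven : ∃ k, k * z = z * k ∧ k * x = x * k ∧ k ^ 7 ∈ Q ∧
    ∀ b ∈ Q', b * z = z * b → b * x = x * b → (b * k) ^ 7 ∈ Q := by
  obtain ⟨π, h1, h2, h3⟩ := exists_seven
  obtain ⟨c, rfl, e⟩ := B.M.exists_conj B.hx B.hx tw_X.not_zero (γ := π) (by rw [h1]; exact Cu.refl _)
  refine ⟨c, mem_cent_iff.1 c.2, mul_inv_eq_iff_eq_mul.1 e,
    (B.M.ker (c ^ 7)).1 (by rw [map_pow, h2]), fun b hb bz bx => ?_⟩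
  let b' : centralizer ({z} : Set G) := ⟨b, mem_cent_iff.2 bz⟩
  have hE : φ b' ∈ EE := (B.M.img_iff B.p B.card' B.hs _).1 ⟨b', hb, rfl⟩
  refine (B.M.ker ((b' * c) ^ 7)).1 ?_
  rw [map_pow, map_mul]
  refine h3 _ hE ((EE_X hE).resolve_right fun k => not_zero_e8 ?_)
  have := ((B.M.cu_of_comm B.hx (c := b') bx).symm.trans k).add (Cu.refl (-vX))
  rwa [add_neg_cancel, add_neg_cancel_comm] at this

theorem gen_SG : SG z x B.p.h.sq ≤
    Q ⊔ SG z x B.p.h.sq ⊓ centralizer {s} ⊔ ⁅SG z x B.p.h.sq, SG z x B.p.h.sq⁆ := by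
  intro c hc
  let c' : centralizer ({z} : Set G) := ⟨c, mem_cent_iff.2 hc.1⟩
  have key : S2 ⊓ MM ⊔ ⁅S2, S2⁆ ≤ ((Q ⊔ SG z x B.p.h.sq ⊓ centralizer {s} ⊔
      ⁅SG z x B.p.h.sq, SG z x B.p.h.sq⁆).subgroupOf (centralizer ({z} : Set G))).map φ := by
    refine sup_le (fun γ hγ => ?_) (commutator_le.2 fun γ hγ δ hδ => ?_)
    · obtain ⟨k, ks, rfl⟩ := B.lift hγ.2
      exact mem_map_of_mem φ (mem_subgroupOf.2 (mem_sup_left (mem_sup_right
        ⟨(B.cl_mem_SG k).2 hγ.1, mem_cent_iff.2 ks⟩)))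
    · obtain ⟨a, rfl⟩ := B.M.surj γ
      obtain ⟨b, rfl⟩ := B.M.surj δ
      rw [← map_commutatorElement]
      exact mem_map_of_mem φ (mem_subgroupOf.2 (mem_sup_right
        (commutator_mem_commutator ((B.cl_mem_SG a).2 hγ) ((B.cl_mem_SG b).2 hδ))))
  obtain ⟨h, hh, e⟩ := key (gen_S2 ((B.cl_mem_SG c').1 hc))
  have : ((h⁻¹ * c' : centralizer ({z} : Set G)) : G) ∈ Q :=
    (B.M.ker _).1 (by rw [map_mul, map_inv, e, inv_mul_cancel])
  have := mul_mem (mem_subgroupOf.1 hh) (mem_sup_left (mem_sup_left this))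
  rwa [coe_mul, coe_inv, mul_inv_cancel_left] at this

end Bs

end H95.B4
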