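import Cfsg.Agent.Lib.B43.Sh

/-! The classes of elements of the extraspecial group, first part. -/

set_option autoImplicit false

namespace H95.B4

open Cfsg Subgroup H15 H16 H48.BR H7.ML Module

variable {G : Type*} [Group G] [Finite G]

variable {z s σ x : G} {Q Q' : Subgroup G} {φ : centralizer ({z} : Set G) →* Stab vU}
  {cls : leechLattice → G → Prop} {y y' : G}

theorem TwG.mem (M : Bab z Q φ cls) (h : TwG cls y) : y ∈ Q := by
  obtain ⟨w, -, hw⟩ := h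
  exact M.mem hw

theorem TwG.ne (M : Bab z Q φ cls) (h : TwG cls y) : y ≠ 1 ∧ y ≠ z := by
  obtain ⟨w, h, hw⟩ := h
  have := h.not_zero
  rwa [M.cu_zero_iff hw, not_or] at this

theorem TwG.mul_z (M : Bab z Q φ cls) (h : TwG cls y) : TwG cls (y * z) := by
  obtain ⟨w, h, hw⟩ := h
  exact ⟨w, h, M.mul_z hw⟩

theorem TwG.conj (M : Bab z Q φ cls) (h : TwG cls y) {c : G} (hc : c * z = z * c) :
    TwG cls (c * y * c⁻¹) := by
  obtain ⟨w, h, hw⟩ := h
  exact ⟨_, h.smul _, M.smul ⟨c, mem_cent_iff.2 hc⟩ hw⟩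

theorem TwG.trans (M : Bab z Q φ cls) (h : TwG cls y) (h' : TwG cls y') :
    ∃ c, c * z = z * c ∧ c * y * c⁻¹ = y' := by
  obtain ⟨w, h, hw⟩ := h
  obtain ⟨w', h', hw'⟩ := h'
  obtain ⟨c, hc⟩ := M.conj_of_min hw hw' h.1 h'.1 (h.2.trans h'.2.symm) h'.not_zero
  exact ⟨c, mem_cent_iff.1 c.2, hc⟩

theorem ClA_comm_Co2 : commutator (Stab vU) = ⊤ := by
  haveI := isSimple_Co2
  refine (inferInstance : (commutator (Stab vU)).Normal).eq_bot_or_eq_top.resolve_left fun h => ?_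
  have hc : ∀ a b : Stab vU, a * b = b * a := fun a b =>
    commutatorElement_eq_one_iff_mul_comm.1
      (mem_bot.1 (h ▸ commutator_mem_commutator (mem_top a) (mem_top b)))
  letI : CommGroup (Stab vU) := { (inferInstance : Group (Stab vU)) with mul_comm := hc }
  have := IsSimpleGroup.prime_card (α := Stab vU)
  rw [card_Co2] at this
  exact absurd (this.eq_one_or_self_of_dvd 2 (by norm_num)) (by norm_num)

theorem perfect_C (M : Bab z Q φ cls) :
    centralizer {z} ≤ Q ⊔ ⁅centralizer ({z} : Set G), centralizer ({z} : Set G)⁆ := by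
  intro c hc
  have h1 : (commutator (centralizer ({z} : Set G))).map φ = ⊤ := by
    rw [commutator_def, map_commutator, map_top_of_surjective φ M.surj, ← commutator_def, ClA_comm_Co2]
  obtain ⟨d, hd, e⟩ : φ ⟨c, hc⟩ ∈ (commutator (centralizer ({z} : Set G))).map φ := h1 ▸ mem_top _
  have h2 : ((⟨c, hc⟩ * d⁻¹ : centralizer ({z} : Set G)) : G) ∈ Q :=
    (M.ker _).1 (by rw [map_mul, map_inv, e, mul_inv_cancel])
  have h3 : (d : G) ∈ ⁅centralizer ({z} : Set G), centralizer ({z} : Set G)⁆ := by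
    have : (d : G) ∈ (commutator (centralizer ({z} : Set G))).map (centralizer ({z} : Set G)).subtype :=
      mem_map_of_mem _ hd
    rwa [commutator_def, map_commutator, ← MonoidHom.range_eq_map, range_subtype] at this
  have := mul_mem (mem_sup_left (T := ⁅centralizer ({z} : Set G), centralizer ({z} : Set G)⁆) h2)
    (mem_sup_right h3)
  simpa using this

theorem ClA_dot {w : leechLattice} (h : Hx w) :
    (16 : ℤ) ∣ dotInt (w : GolayPt → ℤ) (e8 none : leechLattice) := by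
  have : dotInt (w : GolayPt → ℤ) (e8 none : leechLattice) = (w : GolayPt → ℤ) none * 8 := by
    rw [coe_e8]; simp [dotInt, Pi.single_apply]
  rw [this, h.2]; norm_num

namespace Bs

variable (B : Bs z s σ x Q Q' φ cls)
include B

theorem twx : TwG cls x := ⟨vX, tw_X, B.hx⟩

theorem ClA_comm {e : Stab vU} (he : e ∈ EE) {w : leechLattice} (h : Hx w) :
    ∃ a ∈ Q', cls ((e : Co0) • w + w) a := by
  obtain ⟨b, hb, rfl⟩ := (B.M.img_iff B.p B.card' B.hs e).2 he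
  obtain ⟨y, hy⟩ := B.M.ex_elt w h.1.pp
  have ys : y * s = s * y := (B.M.commute_iff hy B.hs).2 (ClA_dot h)
  have h1 := B.p.commutator_mem_E (mem_sup_left ⟨hb, b.2⟩) (mem_sup_right ⟨B.M.mem hy, mem_cent_iff.2 ys⟩)
  have h2 : cls w y⁻¹ := by
    rcases B.M.h.sq_mem (B.M.mem hy) with e | e
    · rwa [inv_eq_of_mul_eq_one_right e]
    · have : y⁻¹ = y * z := inv_eq_of_mul_eq_one_right (by rw [← mul_assoc, e, B.M.h.sq])
      rw [this]; exact B.M.mul_z hy
  exact ⟨_, h1.2, B.M.add (B.M.smul b hy) h2⟩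

theorem xQ' : x ∈ Q' := by
  obtain ⟨e₁, h₁, e₂, h₂, e₃, h₃, w₁, w₂, w₃, k₁, k₂, k₃, h⟩ := X_comm
  obtain ⟨a₁, m₁, c₁⟩ := B.ClA_comm h₁ k₁
  obtain ⟨a₂, m₂, c₂⟩ := B.ClA_comm h₂ k₂
  obtain ⟨a₃, m₃, c₃⟩ := B.ClA_comm h₃ k₃
  have c := B.M.add (B.M.add c₁ c₂) c₃
  have m := mul_mem (mul_mem m₁ m₂) m₃
  rcases h with h | h
  · rcases (B.M.eq_iff c B.hx).1 h with e | e <;> rw [e]
    exacts [m, mul_mem m B.p.zQ]
  · rcases (B.M.eq_iff (B.M.add c B.hs) B.hx).1 h with e | e <;> rw [e]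
    exacts [mul_mem m B.p.h'.mem, mul_mem (mul_mem m B.p.h'.mem) B.p.zQ]

theorem not_s : ¬ TwG cls s := by
  rintro ⟨w, h, hw⟩
  exact h.not_e8 ((B.M.eq_iff B.hs hw).2 (Or.inl rfl))

theorem lift {γ : Stab vU} (h : γ ∈ MM) :
    ∃ k : centralizer ({z} : Set G), (k : G) * s = s * k ∧ φ k = γ := by
  obtain ⟨c, h1, h2⟩ := B.M.exists_conj B.hs B.hs not_zero_e8 (mem_MM.1 h)
  exact ⟨c, mul_inv_eq_iff_eq_mul.1 h2, h1⟩

theorem exists_b : ∃ b ∈ Q', b * z = z * b ∧ b * x * b⁻¹ = x * s := by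
  obtain ⟨e, he, h⟩ := exists_EE_X
  obtain ⟨b, hb, rfl⟩ := (B.M.img_iff B.p B.card' B.hs e).2 he
  refine ⟨b, hb, mem_cent_iff.1 b.2, (B.p.h'.conj B.xQ' hb).resolve_left fun k => ?_⟩
  rcases (B.M.eq_iff (B.M.smul b B.hx) (B.M.add B.hx B.hs)).1 h with f | f <;> rw [k] at f
  · exact B.p.h'.ne_one (by simpa using f)
  · exact B.p.ne (mul_left_cancel f)

end Bs

end H95.B4
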