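import Mathlib
import Cfsg.Agent.Lib.BRec.Cls
import Cfsg.Agent.Lib.MonLoc.Ark

/-!
Representations of degree 4371 of the Baby Monster: weight spaces and the standard configuration.
-/

set_option autoImplicit false

namespace H95.B4

open Cfsg Subgroup H15 H16 H48.BR H7.ML

section lin

variable {F : Type*} [Field F] {G : Type*} [Group G] {V V' : Type*} [AddCommGroup V] [Module F V]
  [AddCommGroup V'] [Module F V']

open Classical in
/-- the sign of a proposition -/
noncomputable def sg (F : Type*) [Field F] (p : Prop) : F := if p then 1 else -1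

theorem sg_pos {p : Prop} (h : p) : sg F p = 1 := if_pos h

theorem sg_neg {p : Prop} (h : ¬ p) : sg F p = -1 := if_neg h

theorem sg_congr {p q : Prop} (h : p ↔ q) : sg F p = sg F q := by rw [propext h]

theorem sg_inj (h2 : (2 : F) ≠ 0) {p q : Prop} (h : sg F p = sg F q) : p ↔ q := by
  have k : (1 : F) ≠ -1 := fun e => h2 (by linear_combination e)
  by_cases a : p <;> by_cases b : q
  · exact iff_of_true a b
  · exact absurd (by rwa [sg_pos a, sg_neg b] at h) k
  · exact absurd (by rwa [sg_neg a, sg_pos b, eq_comm] at h) k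
  · exact iff_of_false a b

/-- the weight space -/
def Wt (ρ : Representation F G V) (A : Set G) (χ : G → F) : Submodule F V where
  carrier := {v | ∀ a ∈ A, ρ a v = χ a • v}
  zero_mem' a _ := by simp
  add_mem' h k a ha := by rw [map_add, h a ha, k a ha, smul_add]
  smul_mem' c v h a ha := by rw [map_smul, h a ha, smul_comm]

/-- the vectors on which `f` intertwines the actions of `g` -/
def Yg (ρ : Representation F G V) (ρ' : Representation F G V') (f : V →ₗ[F] V') (g : G) : Submodule F V :=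
  LinearMap.eqLocus (f ∘ₗ ρ g) (ρ' g ∘ₗ f)

/-- the commutation sign -/
noncomputable def ee (F : Type*) [Field F] (x : G) : G → F := fun q => sg F (q * x = x * q)

/-- the weight space of the commutation sign with `x` -/
noncomputable abbrev W (ρ : Representation F G V) (Q : Subgroup G) (x : G) : Submodule F V := Wt ρ Q (ee F x)

/-- the fixed space -/
abbrev Fx (ρ : Representation F G V) (A : Set G) : Submodule F V := Wt ρ A fun _ => 1

/-- the negated space -/
abbrev Ng (ρ : Representation F G V) (z : G) : Submodule F V := Wt ρ {z} fun _ => -1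

/-- the elements with a common eigenvalue on `w` and `w'` -/
def Pw (ρ : Representation F G V) (ρ' : Representation F G V') (w : V) (w' : V') : Subgroup G where
  carrier := {g | ∃ c : Fˣ, ρ g w = (c : F) • w ∧ ρ' g w' = (c : F) • w'}
  one_mem' := ⟨1, by simp, by simp⟩
  mul_mem' := by
    rintro g h ⟨a, a1, a2⟩ ⟨b, b1, b2⟩
    exact ⟨b * a, by simp [a1, b1, mul_smul], by simp [a2, b2, mul_smul]⟩
  inv_mem' := by
    rintro g ⟨a, a1, a2⟩
    refine ⟨a⁻¹, ?_, ?_⟩
    · have := congrArg (ρ g⁻¹) a1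
      rw [← Module.End.mul_apply, ← map_mul, inv_mul_cancel, map_one, map_smul, Module.End.one_apply] at this
      conv_rhs => rw [this, smul_smul, Units.inv_mul, one_smul]
    · have := congrArg (ρ' g⁻¹) a2
      rw [← Module.End.mul_apply, ← map_mul, inv_mul_cancel, map_one, map_smul, Module.End.one_apply] at this
      conv_rhs => rw [this, smul_smul, Units.inv_mul, one_smul]

/-- the elements centralising `z` and fixing `x` modulo `z` -/
def SG (z x : G) (zz : z * z = 1) : Subgroup G where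
  carrier := {c | c * z = z * c ∧ (c * x * c⁻¹ = x ∨ c * x * c⁻¹ = x * z)}
  one_mem' := ⟨by simp, Or.inl (by simp)⟩
  mul_mem' := by
    rintro a b ⟨a1, a2⟩ ⟨b1, b2⟩
    have e : a * b * x * (a * b)⁻¹ = a * (b * x * b⁻¹) * a⁻¹ := by group
    have f : a * (x * z) * a⁻¹ = a * x * a⁻¹ * z := by
      rw [← conj_mul, a1, mul_inv_cancel_right]
    refine ⟨by rw [mul_assoc, b1, ← mul_assoc, a1, mul_assoc], ?_⟩
    rcases b2 with h | h <;> rw [e, h]
    · exact a2
    · rw [f]
      rcases a2 with k | k <;> rw [k]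
      exacts [Or.inr rfl, Or.inl (by rw [mul_assoc, zz, mul_one])]
  inv_mem' := by
    rintro a ⟨a1, a2⟩
    have b1 : a⁻¹ * z = z * a⁻¹ := by rw [inv_mul_eq_iff_eq_mul, ← mul_assoc, a1, mul_inv_cancel_right]
    refine ⟨b1, a2.imp (fun h => ?_) fun h => ?_⟩
    · calc _ = a⁻¹ * (a * x * a⁻¹) * a⁻¹⁻¹ := by rw [h]
        _ = _ := by group
    · calc _ = a⁻¹ * (x * z) * (z * a) := by
            rw [inv_inv, mul_assoc _ _ (z * a), mul_assoc x, ← mul_assoc z, zz]; group
        _ = a⁻¹ * (a * x * a⁻¹) * (a * z) := by rw [h, a1]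
        _ = _ := by group

variable {ρ : Representation F G V} {ρ' : Representation F G V'} {A B : Set G} {χ ψ : G → F} {v : V}
  {f : V →ₗ[F] V'} {g h : G}

theorem mem_Wt : v ∈ Wt ρ A χ ↔ ∀ a ∈ A, ρ a v = χ a • v := Iff.rfl

theorem mem_Fx : v ∈ Fx ρ A ↔ ∀ a ∈ A, ρ a v = v := by simp [mem_Wt]

theorem mem_Fx1 : v ∈ Fx ρ {g} ↔ ρ g v = v := by simp [mem_Wt]

theorem mem_Ng : v ∈ Ng ρ g ↔ ρ g v = -v := by simp [mem_Wt]

theorem mem_Yg : v ∈ Yg ρ ρ' f g ↔ f (ρ g v) = ρ' g (f v) := Iff.rfl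

theorem rep_mul (ρ : Representation F G V) (g h : G) (v : V) : ρ (g * h) v = ρ g (ρ h v) := by
  rw [map_mul]; rfl

theorem rep_inv (ρ : Representation F G V) (g : G) (v : V) : ρ g⁻¹ (ρ g v) = v := by
  rw [← rep_mul, inv_mul_cancel, map_one]; rfl

theorem rep_inv' (ρ : Representation F G V) (g : G) (v : V) : ρ g (ρ g⁻¹ v) = v := by
  rw [← rep_mul, mul_inv_cancel, map_one]; rfl

theorem rep_eq_zero (h : ρ g v = 0) : v = 0 := by rw [← rep_inv ρ g v, h, map_zero]

theorem Wt.mono (h : v ∈ Wt ρ A χ) (k : B ⊆ A) : v ∈ Wt ρ B χ := fun a ha => h a (k ha)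

theorem Wt.congr (h : v ∈ Wt ρ A χ) (k : ∀ a ∈ A, χ a = ψ a) : v ∈ Wt ρ A ψ := fun a ha => k a ha ▸ h a ha

theorem Wt.conj (h : v ∈ Wt ρ A χ) (g : G) (k : ∀ b ∈ B, g⁻¹ * b * g ∈ A ∧ ψ b = χ (g⁻¹ * b * g)) :
    ρ g v ∈ Wt ρ B ψ := fun b hb => by
  rw [(k b hb).2, ← map_smul, ← h _ (k b hb).1, ← rep_mul, ← rep_mul]
  congr 2
  group

theorem Wt.map (h : v ∈ Wt ρ A χ) (k : ∀ a ∈ A, v ∈ Yg ρ ρ' f a) : f v ∈ Wt ρ' A χ := fun a ha => by
  rw [← mem_Yg.1 (k a ha), h a ha, map_smul]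

theorem Wt.eq_zero (h : v ∈ Wt ρ A χ) (k : v ∈ Wt ρ A ψ) {a : G} (ha : a ∈ A) (n : χ a ≠ ψ a) : v = 0 :=
  (smul_eq_zero.1 (by rw [sub_smul, ← h a ha, k a ha, sub_self])).resolve_left (sub_ne_zero.2 n)

theorem W_one (Q : Subgroup G) : W ρ Q 1 = Fx ρ Q :=
  congrArg _ (funext fun q => sg_pos (by simp))

theorem ee_conj (g x q : G) : ee F (g * x * g⁻¹) q = ee F x (g⁻¹ * q * g) := sg_congr ⟨fun e => by
  calc _ = g⁻¹ * (q * (g * x * g⁻¹)) * g := by group
    _ = _ := by rw [e]; group, fun e => by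
  calc _ = g * (g⁻¹ * q * g * x) * g⁻¹ := by group
    _ = _ := by rw [e]; group⟩

theorem W.conj {Q Q' : Subgroup G} {x : G} (h : v ∈ W ρ Q x) (k : ∀ b ∈ Q', g⁻¹ * b * g ∈ Q) :
    ρ g v ∈ W ρ Q' (g * x * g⁻¹) := Wt.conj h g fun b hb => ⟨k b hb, ee_conj g x b⟩

theorem W_mul {Q : Subgroup G} {x z : G} (h : ∀ q ∈ Q, q * z = z * q) : W ρ Q (x * z) = W ρ Q x := by
  have k : ∀ q ∈ Q, ee F (x * z) q = ee F x q := fun q hq => sg_congr (by
    rw [mul_assoc x, ← h q hq, ← mul_assoc, ← mul_assoc, mul_left_inj])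
  exact le_antisymm (fun _ a => Wt.congr a k) fun _ a => Wt.congr a fun q hq => (k q hq).symm

theorem Yg.mul (a : v ∈ Yg ρ ρ' f h) (b : ρ h v ∈ Yg ρ ρ' f g) : v ∈ Yg ρ ρ' f (g * h) := by
  rw [mem_Yg, rep_mul, rep_mul, mem_Yg.1 b, mem_Yg.1 a]

theorem Yg.inv (a : ρ g⁻¹ v ∈ Yg ρ ρ' f g) : v ∈ Yg ρ ρ' f g⁻¹ := by
  rw [mem_Yg, rep_inv'] at a
  rw [mem_Yg, a, rep_inv]

end lin

/-- minimal vectors with inner product 16 with `u` -/
def Tw (w : leechLattice) : Prop :=
  sqNorm (w : GolayPt → ℤ) = 32 ∧ dotInt (vU : GolayPt → ℤ) (w : GolayPt → ℤ) = 16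

/-- classes with a long orbit -/
def Big (u : leechLattice) : Prop :=
  ∃ S : Finset leechLattice, 4371 < S.card ∧ (∀ x ∈ S, ∃ γ : Stab vU, (γ : Co0) • u = x) ∧
    ∀ x ∈ S, ∀ y ∈ S, Cu x y → x = y

/-- vectors of shape `(2, 2, ±2^6)` -/
def Hx (w : leechLattice) : Prop := Tw w ∧ (w : GolayPt → ℤ) none = 2

/-- the monomial group in `Co2` -/
def MM : Subgroup (Stab vU) := monoGroup.subgroupOf _

/-- the sign changes in `Co2` -/
def EE : Subgroup (Stab vU) := epsGroup.subgroupOf _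

/-- the stabiliser of the class of `vX` -/
def S2 : Subgroup (Stab vU) where
  carrier := {γ | Cu ((γ : Co0) • vX) vX}
  one_mem' := by rw [Set.mem_ofPred_eq, coe_one, one_smul]; exact Cu.refl _
  mul_mem' := fun {a b} h k => by
    rw [Set.mem_ofPred_eq, coe_mul, mul_smul]; exact (Cu.smul k a).trans h
  inv_mem' := fun {a} h => by
    have := (Cu.smul h a⁻¹).symm
    rwa [coe_inv, inv_smul_smul] at this

variable {G : Type*} [Group G]

/-- the standard configuration in a group of Baby Monster type -/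
structure Bs (z s σ x : G) (Q Q' : Subgroup G) (φ : centralizer ({z} : Set G) →* Stab vU)
    (cls : leechLattice → G → Prop) : Prop where
  M : Bab z Q φ cls
  hs : cls (e8 none) s
  p : Pair Q Q' z s
  card' : Nat.card Q' = 2 ^ 23
  tau : Tau z s Q Q' σ
  hx : cls vX x

/-- elements over the vectors `Tw` -/
def TwG (cls : leechLattice → G → Prop) (y : G) : Prop := ∃ w, Tw w ∧ cls w y

/-- elements of `Q` commuting with `s` but not with all of `Q ⊓ Q'` -/
def HxG (s : G) (Q Q' : Subgroup G) (y : G) : Prop := y ∈ Q ∧ y * s = s * y ∧ ∃ a ∈ Q ⊓ Q', a * y ≠ y * a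

/-- the dimensions of the weight spaces -/
structure Dm {F V : Type*} [Field F] [AddCommGroup V] [Module F V] (ρ : Representation F G V) (z : G)
    (Q : Subgroup G) (cls : leechLattice → G → Prop) : Prop where
  supp : ∀ y ∈ Q, W ρ Q y ≠ ⊥ → y = 1 ∨ y = z ∨ TwG cls y
  one : ∀ y, TwG cls y → Module.finrank F (W ρ Q y) = 1
  neg : Module.finrank F (Ng ρ z) = 2048
  tot : Module.finrank F V = Module.finrank F (Fx ρ Q) + 4348

/-- an intertwiner for the centraliser on the fixed space of `A` -/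
structure Iw {F V V' : Type*} [Field F] [AddCommGroup V] [Module F V] [AddCommGroup V'] [Module F V']
    (ρ : Representation F G V) (ρ' : Representation F G V') (z : G) (A : Set G) (f : V →ₗ[F] V') : Prop where
  eqv : ∀ c, c * z = z * c → Fx ρ A ≤ Yg ρ ρ' f c
  inj : ∀ v ∈ Fx ρ A, f v = 0 → v = 0

theorem eqns_Defs : True := by
  have := @sg.eq_1.{0}
  have := @Wt.eq_1.{0, 0, 0}
  have := @Yg.eq_1.{0, 0, 0, 0}
  have := @ee.eq_1.{0, 0}
  have := @Pw.eq_1.{0, 0, 0, 0}
  have := @SG.eq_1.{0}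
  have := @Tw.eq_1
  have := @Big.eq_1
  have := @Hx.eq_1
  have := @MM.eq_1
  have := @EE.eq_1
  have := @S2.eq_1
  have := @TwG.eq_1.{0}
  have := @HxG.eq_1.{0}
  trivial

end H95.B4
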