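import Cfsg.Agent.Lib.B43.Defs

/-! Simultaneous diagonalisation and dimensions of weight spaces. -/

set_option autoImplicit false

namespace H95.B4

open Cfsg Subgroup H15 H16 H48.BR H7.ML Module

variable {F : Type*} [Field F] {G : Type*} [Group G] {V V' : Type*} [AddCommGroup V] [Module F V]
  [AddCommGroup V'] [Module F V'] {ρ : Representation F G V} {ρ' : Representation F G V'}

theorem Dg_half (h2 : (2 : F) ≠ 0) (v w : V) : v = (2 : F)⁻¹ • (v + w) + (2 : F)⁻¹ • (v - w) := by
  rw [← smul_add, add_add_sub_cancel, ← two_smul F v, smul_smul, inv_mul_cancel₀ h2, one_smul]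

theorem le_of_wt (h2 : (2 : F) ≠ 0) (A : Subgroup G) [Finite A] {U Y : Submodule F V}
    (inv : ∀ a ∈ A, ∀ v ∈ U, ρ a v ∈ U) (sq : ∀ a ∈ A, ∀ v ∈ U, ρ a (ρ a v) = v)
    (h : ∀ v ∈ U, (∀ a ∈ A, ρ a v = v ∨ ρ a v = -v) → v ∈ Y) : U ≤ Y := by
  classical
  have cm : ∀ a ∈ A, ∀ b ∈ A, ∀ v ∈ U, ρ a (ρ b v) = ρ b (ρ a v) := fun a ha b hb v hv => by
    have e := sq _ (mul_mem ha hb) v hv
    rw [rep_mul, rep_mul] at e
    have e1 := congrArg (fun x => ρ b (ρ a x)) e
    rwa [sq a ha _ (inv b hb _ (inv a ha _ (inv b hb v hv))), sq b hb _ (inv a ha _ (inv b hb v hv))] at e1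
  have key : ∀ s : Finset G, (∀ a ∈ s, a ∈ A) →
      (∀ v ∈ U, (∀ a ∈ s, ρ a v = v ∨ ρ a v = -v) → v ∈ Y) → U ≤ Y := by
    intro s
    induction s using Finset.induction_on with
    | empty => exact fun _ k v hv => k v hv (by simp)
    | insert a s _ ih =>
      intro hs k
      have ha := hs a (Finset.mem_insert_self a s)
      have hs' := fun b hb => hs b (Finset.mem_insert_of_mem hb)
      refine ih hs' fun v hv e => ?_
      rw [Dg_half h2 v (ρ a v)]
      refine add_mem (Y.smul_mem _ (k _ (add_mem hv (inv a ha v hv)) fun b hb => ?_))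
        (Y.smul_mem _ (k _ (sub_mem hv (inv a ha v hv)) fun b hb => ?_))
      · rcases Finset.mem_insert.1 hb with rfl | hb
        · exact Or.inl (by rw [map_add, sq _ ha v hv, add_comm])
        · rw [map_add, cm b (hs' b hb) a ha v hv]
          exact (e b hb).imp (fun e => by rw [e]) fun e => by rw [e, map_neg, neg_add]
      · rcases Finset.mem_insert.1 hb with rfl | hb
        · exact Or.inr (by rw [map_sub, sq _ ha v hv, neg_sub])
        · rw [map_sub, cm b (hs' b hb) a ha v hv]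
          exact (e b hb).imp (fun e => by rw [e]) fun e => by rw [e, map_neg, neg_sub']
  have fin : (A : Set G).Finite := Set.toFinite _
  exact key fin.toFinset (fun a ha => fin.mem_toFinset.1 ha) fun v hv e =>
    h v hv fun a ha => e a (fin.mem_toFinset.2 ha)

theorem Dg_sum {ι : Type*} (A : Set G) (χ : ι → G → F) (s : Finset ι)
    (h : ∀ i ∈ s, ∀ j ∈ s, i ≠ j → ∃ a ∈ A, χ i a ≠ χ j a) (v : ι → V)
    (hv : ∀ i ∈ s, v i ∈ Wt ρ A (χ i)) (h0 : ∑ i ∈ s, v i = 0) : ∀ i ∈ s, v i = 0 := by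
  classical
  induction s using Finset.induction_on generalizing v with
  | empty => simp
  | insert j s hj ih =>
    have mj := Finset.mem_insert_self j s
    have mi := fun i (hi : i ∈ s) => Finset.mem_insert_of_mem (b := j) hi
    rw [Finset.sum_insert hj] at h0
    have k : ∀ i ∈ s, v i = 0 := fun i hi => by
      obtain ⟨a, ha, n⟩ := h i (mi i hi) j mj fun e => hj (e ▸ hi)
      have := ih (fun i hi k hk => h i (mi i hi) k (mi k hk)) (fun k => (χ k a - χ j a) • v k)
        (fun k hk => Submodule.smul_mem _ _ (hv k (mi k hk))) (by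
          have e1 := congrArg (ρ a) h0
          have e2 := congrArg (χ j a • ·) h0
          simp only [map_add, map_sum, map_zero, hv j mj a ha] at e1
          rw [Finset.sum_congr rfl fun k hk => hv k (mi k hk) a ha] at e1
          simp only [smul_add, Finset.smul_sum, smul_zero] at e2
          simp only [sub_smul, Finset.sum_sub_distrib]
          exact sub_eq_zero.2 (add_left_cancel (e1.trans e2.symm))) i hi
      exact (smul_eq_zero.1 this).resolve_left (sub_ne_zero.2 n)
    rw [Finset.sum_eq_zero k, add_zero] at h0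
    intro i hi
    rcases Finset.mem_insert.1 hi with rfl | hi
    exacts [h0, k i hi]

theorem indep_wt {ι : Type*} (A : Set G) (χ : ι → G → F) (h : ∀ i j, i ≠ j → ∃ a ∈ A, χ i a ≠ χ j a) :
    iSupIndep fun i => Wt ρ A (χ i) :=
  (iSupIndep_iff_finsetSum_eq_zero_imp_eq_zero _).2 fun s v hv h0 =>
    Dg_sum A χ s (fun i _ j _ => h i j) v hv h0

theorem sum_finrank_le [FiniteDimensional F V] {ι : Type*} (s : Finset ι) (A : Set G) (χ : ι → G → F)
    (h : ∀ i ∈ s, ∀ j ∈ s, i ≠ j → ∃ a ∈ A, χ i a ≠ χ j a) {U : Submodule F V}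
    (hU : ∀ i ∈ s, Wt ρ A (χ i) ≤ U) : ∑ i ∈ s, finrank F (Wt ρ A (χ i)) ≤ finrank F U := by
  let f : ((i : s) → Wt ρ A (χ i)) →ₗ[F] V := ∑ i : s, (Wt ρ A (χ i)).subtype ∘ₗ LinearMap.proj i
  have hf : ∀ x, f x = ∑ i : s, (x i : V) := fun x => by simp [f]
  have inj : Function.Injective (f.codRestrict U fun x => by
      rw [hf]; exact sum_mem fun i _ => hU i i.2 (x i).2) := by
    rw [injective_iff_map_eq_zero]
    intro x hx
    have e : f x = 0 := congrArg Subtype.val hx
    rw [hf] at e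
    funext i
    exact Subtype.ext (Dg_sum A (fun i : s => χ i) Finset.univ
      (fun i _ j _ n => h i i.2 j j.2 fun e => n (Subtype.ext e)) (fun i => (x i : V))
      (fun i _ => (x i).2) e i (Finset.mem_univ i))
  have := LinearMap.finrank_le_finrank_of_injective inj
  rwa [Module.finrank_pi_fintype, Finset.sum_coe_sort s fun i => finrank F (Wt ρ A (χ i))] at this

theorem finrank_le_sum [FiniteDimensional F V] {ι : Type*} (s : Finset ι) (L : ι → Submodule F V)
    {U : Submodule F V} (h : U ≤ ⨆ i ∈ s, L i) : finrank F U ≤ ∑ i ∈ s, finrank F (L i) := by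
  classical
  refine (Submodule.finrank_mono h).trans ?_
  clear h
  induction s using Finset.induction_on with
  | empty => simp
  | insert j s hj ih =>
    rw [Finset.iSup_insert, Finset.sum_insert hj]
    exact (Submodule.finrank_add_le_finrank_add_finrank _ _).trans (Nat.add_le_add_left ih _)

theorem finrank_le_of_rep [FiniteDimensional F V] (g : G) {U U' : Submodule F V} (h : ∀ v ∈ U, ρ g v ∈ U') :
    finrank F U ≤ finrank F U' :=
  LinearMap.finrank_le_finrank_of_injective (f := (ρ g).restrict h)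
    ((injective_iff_map_eq_zero _).2 fun _ hx => Subtype.ext (rep_eq_zero (congrArg Subtype.val hx)))

theorem split_mem (h2 : (2 : F) ≠ 0) {z : G} (zz : z * z = 1) {U : Submodule F V} (inv : ∀ v ∈ U, ρ z v ∈ U) :
    U ≤ (U ⊓ Fx ρ {z}) ⊔ (U ⊓ Ng ρ z) := fun v hv => by
  have e : ρ z (ρ z v) = v := by rw [← rep_mul, zz, map_one]; rfl
  rw [Dg_half h2 v (ρ z v)]
  exact Submodule.add_mem_sup
    (Submodule.smul_mem _ _ ⟨add_mem hv (inv v hv), mem_Fx1.2 (by rw [map_add, e, add_comm])⟩)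
    (Submodule.smul_mem _ _ ⟨sub_mem hv (inv v hv), mem_Ng.2 (by rw [map_sub, e, neg_sub])⟩)

theorem finrank_split [FiniteDimensional F V] (h2 : (2 : F) ≠ 0) {z : G} (zz : z * z = 1) {U : Submodule F V}
    (inv : ∀ v ∈ U, ρ z v ∈ U) :
    finrank F U = finrank F ↥(U ⊓ Fx ρ {z}) + finrank F ↥(U ⊓ Ng ρ z) := by
  have e1 : (U ⊓ Fx ρ {z}) ⊔ (U ⊓ Ng ρ z) = U :=
    le_antisymm (sup_le inf_le_left inf_le_left) (split_mem h2 zz inv)
  have e2 : (U ⊓ Fx ρ {z}) ⊓ (U ⊓ Ng ρ z) = ⊥ := eq_bot_iff.2 fun v hv =>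
    Wt.eq_zero hv.1.2 hv.2.2 (Set.mem_singleton z) fun e : (1 : F) = -1 => h2 (by linear_combination e)
  rw [← Submodule.finrank_sup_add_finrank_inf_eq, e1, e2, finrank_bot, add_zero]

theorem exists_smul_of_line [FiniteDimensional F V] {L : Submodule F V} (h : finrank F L ≤ 1) {w v : V}
    (hw : w ∈ L) (w0 : w ≠ 0) (hv : v ∈ L) : ∃ a : F, v = a • w := by
  have e : (F ∙ w) = L := Submodule.eq_of_le_of_finrank_le
    ((Submodule.span_singleton_le_iff_mem _ _).2 hw) (by rwa [finrank_span_singleton w0])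
  obtain ⟨a, ha⟩ := Submodule.mem_span_singleton.1 (e.ge hv)
  exact ⟨a, ha.symm⟩

theorem exists_ne_zero {L : Submodule F V} (h : finrank F L ≠ 0) : ∃ w ∈ L, w ≠ 0 :=
  (Submodule.ne_bot_iff L).1 fun e => h (by rw [e, finrank_bot])

end H95.B4
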