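import Cfsg.Agent.Lib.B43.Dg

/-! Representations of extraspecial groups. -/

set_option autoImplicit false

namespace H95.B4

open Cfsg Subgroup H15 H16 H48.BR H7.ML Module

variable {F : Type*} [Field F] {G : Type*} [Group G] {V V' : Type*} [AddCommGroup V] [Module F V]
  [AddCommGroup V'] [Module F V'] {ρ : Representation F G V} {ρ' : Representation F G V'}
  {Q : Subgroup G} [Finite Q] {z : G}

theorem Es_ne_neg (h2 : (2 : F) ≠ 0) {v : V} (h : v ≠ 0) : -v ≠ v := fun e => h (by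
  have : (2 : F) • v = 0 := by rw [two_smul]; nth_rewrite 1 [← e]; exact neg_add_cancel v
  exact (smul_eq_zero.1 this).resolve_left h2)

omit [Finite Q] in
theorem Es_cent (h : ES Q z) {q x y : G} (hq : q ∈ Q) (hx : x ∈ Q) (hy : y ∈ Q)
    (e : q * x = x * q ↔ q * y = y * q) : q * (x⁻¹ * y) = x⁻¹ * y * q := by
  have k : q * (x⁻¹ * y) * q⁻¹ = (q * x * q⁻¹)⁻¹ * (q * y * q⁻¹) := by group
  refine mul_inv_eq_iff_eq_mul.1 ?_
  by_cases a : q * x = x * q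
  · rw [k, a, e.1 a, mul_inv_cancel_right, mul_inv_cancel_right]
  · rw [k, h.conj_of_ne hx hq a, h.conj_of_ne hy hq fun b => a (e.2 b), h.central x hx,
      h.central y hy]
    group

omit [Finite Q] in
theorem Es_inv (h : ES Q z) {A : Set G} (hA : ∀ a ∈ A, a ∈ Q) (χ : G → F) :
    ∀ q ∈ Q, ∀ v ∈ Wt ρ A χ ⊓ Fx ρ {z}, ρ q v ∈ Wt ρ A χ ⊓ Fx ρ {z} := by
  rintro q hq v ⟨h1, h2⟩
  have h2 := mem_Fx1.1 h2
  refine ⟨fun a ha => ?_, mem_Fx1.2 (by rw [← rep_mul, ← h.central q hq, rep_mul, h2])⟩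
  rw [← map_smul, ← h1 a ha, ← rep_mul, ← rep_mul]
  rcases h.comm a (hA a ha) q hq with e | e <;> rw [e]
  rw [rep_mul, h2]

set_option linter.unusedVariables false in
theorem exists_W (h2 : (2 : F) ≠ 0) (h : ES Q z) {v : V} (hz : ρ z v = v) (hv : ∀ q ∈ Q, ρ q v = v ∨ ρ q v = -v) :
    ∃ x ∈ Q, v ∈ W ρ Q x := by
  classical
  by_cases v0 : v = 0
  · exact ⟨1, one_mem _, v0 ▸ zero_mem _⟩
  have n := Es_ne_neg h2 v0
  have zc : ∀ q : Q, (⟨z, h.mem⟩ : Q) * q = q * ⟨z, h.mem⟩ := fun q =>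
    Subtype.ext (h.central q q.2).symm
  have zz : (⟨z, h.mem⟩ : Q) * ⟨z, h.mem⟩ = 1 := Subtype.ext h.sq
  obtain ⟨g, hg⟩ := h.top.exists_conj_eq (MonoidHom.mk'
    (fun q : Q => if ρ q v = v then q else q * ⟨z, h.mem⟩) fun p q => by
      have m : ρ ((p * q : Q) : G) v = ρ p (ρ q v) := rep_mul ρ p q v
      have nn : ∀ r : Q, ρ r v = -v → ¬ ρ r v = v := fun r a c => n (a.symm.trans c)
      rcases hv p p.2 with a | a <;> rcases hv q q.2 with b | b
      · rw [if_pos a, if_pos b, if_pos (by rw [m, b, a])]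
      · rw [if_pos a, if_neg (nn q b), if_neg (nn _ (by rw [m, b, map_neg, a])), mul_assoc]
      · rw [if_neg (nn p a), if_pos b, if_neg (nn _ (by rw [m, b, a])), mul_assoc, mul_assoc, zc]
      · rw [if_neg (nn p a), if_neg (nn q b), if_pos (by rw [m, b, map_neg, a, neg_neg]), mul_assoc,
          ← mul_assoc _ q, zc, mul_assoc q, zz, mul_one])
    fun q => by
      rw [MonoidHom.mk'_apply]
      split_ifs
      exacts [.inl rfl, .inr rfl]
  refine ⟨g, g.2, fun q hq => ?_⟩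
  have e := hg ⟨q, hq⟩
  rw [MonoidHom.mk'_apply] at e
  rcases hv q hq with a | a
  · rw [if_pos a] at e
    have e : q = g * q * (g : G)⁻¹ := congrArg Subtype.val e
    rw [a, ee, sg_pos (eq_mul_inv_iff_mul_eq.1 e), one_smul]
  · rw [if_neg fun c => n (a.symm.trans c)] at e
    have e : q * z = g * q * (g : G)⁻¹ := congrArg Subtype.val e
    rw [a, ee, sg_neg fun c => ?_, neg_one_smul]
    rw [← c, mul_inv_cancel_right] at e
    exact h.ne_one (mul_left_cancel (e.trans (mul_one q).symm))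

theorem le_of_W (h2 : (2 : F) ≠ 0) (h : ES Q z) {U Y : Submodule F V} (hz : U ≤ Fx ρ {z})
    (inv : ∀ q ∈ Q, ∀ v ∈ U, ρ q v ∈ U) (k : ∀ x ∈ Q, ∀ v ∈ U, v ∈ W ρ Q x → v ∈ Y) : U ≤ Y := by
  refine le_of_wt h2 Q inv (fun a ha v hv => ?_) fun v hv e => ?_
  · rw [← rep_mul]
    rcases h.sq_mem ha with e | e <;> rw [e]
    · rw [map_one]; rfl
    · exact mem_Fx1.1 (hz hv)
  · obtain ⟨x, hx, m⟩ := exists_W h2 h (mem_Fx1.1 (hz hv)) e
    exact k x hx v hv m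

omit [Finite Q] in
theorem W_ne (h2 : (2 : F) ≠ 0) (h : ES Q z) {x y : G} (hx : x ∈ Q) (hy : y ∈ Q) (n1 : y ≠ x)
    (n2 : y ≠ x * z) : ∃ q ∈ Q, ee F x q ≠ ee F y q := by
  obtain ⟨q, hq, n⟩ := h.exists_noncomm (mul_mem (inv_mem hx) hy)
    (fun e => n1 (inv_mul_eq_one.1 e).symm) fun e => n2 (inv_mul_eq_iff_eq_mul.1 e)
  exact ⟨q, hq, fun e => n (Es_cent h hq hx hy (sg_inj h2 e))⟩

omit [Finite Q] in
theorem W_le (h : ES Q z) {x : G} (hx : x ∈ Q) : W ρ Q x ≤ Fx ρ {z} := fun v hv => by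
  rw [mem_Fx1, hv z h.mem, ee, sg_pos (h.central x hx).symm, one_smul]

theorem exists_wt_cent (h2 : (2 : F) ≠ 0) (h : ES Q z) {s : G} {v : V} (hz : ρ z v = v)
    (hv : ∀ q ∈ Q, q * s = s * q → ρ q v = v ∨ ρ q v = -v) :
    ∃ x ∈ Q, v ∈ W ρ (Q ⊓ centralizer {s}) x := by
  by_cases v0 : v = 0
  · exact ⟨1, one_mem _, v0 ▸ zero_mem _⟩
  have m : v ∈ Wt ρ (Q ⊓ centralizer {s} : Subgroup G) fun q => sg F (ρ q v = v) := by
    intro q hq
    change ρ q v = sg F (ρ q v = v) • v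
    rcases hv q hq.1 (mem_cent_iff.1 hq.2) with a | a
    · rw [sg_pos a, one_smul, a]
    · rw [sg_neg fun c => Es_ne_neg h2 v0 (a.symm.trans c), neg_one_smul, a]
  by_contra hn
  refine v0 ((Submodule.mem_bot F).1 (le_of_W h2 h inf_le_right
    (Es_inv h (fun a ha => ha.1) _) (fun x hx u hu hw => ?_) ⟨m, mem_Fx1.2 hz⟩))
  by_contra u0
  refine hn ⟨x, hx, Wt.congr m fun a ha => ?_⟩
  by_contra n
  exact u0 (Wt.eq_zero hu.1 (Wt.mono hw fun a ha => ha.1) ha n)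

theorem wt_cent (h2 : (2 : F) ≠ 0) (h : ES Q z) {s x : G} (hs : s ∈ Q) (ss : s * s = 1) (hx : x ∈ Q) {v : V}
    (hz : ρ z v = v) (hv : v ∈ W ρ (Q ⊓ centralizer {s}) x) : v ∈ W ρ Q x ⊔ W ρ Q (x * s) := by
  refine le_of_W h2 h inf_le_right (Es_inv h (fun a ha => ha.1) _) (fun y hy u hu hw => ?_)
    ⟨hv, mem_Fx1.2 hz⟩
  by_cases u0 : u = 0
  · exact u0 ▸ zero_mem _
  have := h.mem_of_centralizes hs ss (mul_mem (inv_mem hx) hy) fun a ha e =>
    Es_cent h ha hx hy (sg_inj h2 (by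
      by_contra n
      exact u0 (Wt.eq_zero hu.1 (Wt.mono hw fun a ha => ha.1) ⟨ha, mem_cent_iff.2 e⟩ n)))
  rcases this with e | e | e | e <;> rw [inv_mul_eq_iff_eq_mul] at e <;> rw [e] at hw
  · exact Submodule.mem_sup_left (by rwa [mul_one] at hw)
  · exact Submodule.mem_sup_left (by rwa [W_mul h.central] at hw)
  · exact Submodule.mem_sup_right hw
  · exact Submodule.mem_sup_right
      (by rwa [← h.central s hs, ← mul_assoc, W_mul h.central] at hw)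

end H95.B4
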