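import Cfsg.Agent.Lib.B43.Dg

/-! Construction and gluing of intertwiners. -/

set_option autoImplicit false

namespace H95.B4

open Cfsg Subgroup H15 H16 H48.BR H7.ML Module

variable {F : Type*} [Field F] {G : Type*} [Group G] {V V' : Type*} [AddCommGroup V] [Module F V]
  [AddCommGroup V'] [Module F V'] {ρ : Representation F G V} {ρ' : Representation F G V'}

theorem Gl_patch {ι : Type*} {p : ι → Submodule F V} (h : iSupIndep p) (f : ι → V →ₗ[F] V') :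
    ∃ g : V →ₗ[F] V', ∀ i, ∀ v ∈ p i, g v = f i v := by
  classical
  obtain ⟨l, hl⟩ := LinearMap.exists_leftInverse_of_injective
    (DFinsupp.lsum ℕ (M := fun i => p i) fun i => (p i).subtype)
    (LinearMap.ker_eq_bot.2 h.dfinsupp_lsum_injective)
  refine ⟨(DFinsupp.lsum ℕ (M := fun i => p i) fun i => f i ∘ₗ (p i).subtype) ∘ₗ l, fun i v hv => ?_⟩
  have e := LinearMap.congr_fun hl (DFinsupp.single i ⟨v, hv⟩)
  rw [LinearMap.comp_apply, DFinsupp.lsum_single, LinearMap.id_apply, Submodule.subtype_apply] at e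
  rw [LinearMap.comp_apply, e, DFinsupp.lsum_single]
  rfl

theorem exists_hom (A : Set G) (Γ : Subgroup G) {w : V} (w0 : w ≠ 0) (w' : V') (χ : G → G → F) (χ₀ : G → F)
    (h1 : ∀ g ∈ Γ, ρ g w ∈ Wt ρ A (χ g))
    (h2 : ∀ g ∈ Γ, ∀ h ∈ Γ, (∀ a ∈ A, χ g a = χ h a) → h⁻¹ * g ∈ Pw ρ ρ' w w')
    (h0 : ∀ g ∈ Γ, ∃ a ∈ A, χ g a ≠ χ₀ a) (f₀ : V →ₗ[F] V') :
    ∃ f : V →ₗ[F] V', (∀ v ∈ Wt ρ A χ₀, f v = f₀ v) ∧ ∀ g ∈ Γ, f (ρ g w) = ρ' g w' := by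
  classical
  let X : (A → F) → G → F := fun ψ a => if h : a ∈ A then ψ ⟨a, h⟩ else 0
  have hX : ∀ (θ : G → F), ∀ a ∈ A, θ a = X (fun a => θ a) a := fun θ a ha => by simp [X, ha]
  have ex : ∀ ψ : A → F, ∃ f : V →ₗ[F] V', (∀ g ∈ Γ, (fun a : A => χ g a) = ψ → f (ρ g w) = ρ' g w') ∧
      ((fun a : A => χ₀ a) = ψ → f = f₀) := fun ψ => by
    by_cases k : ∃ h ∈ Γ, (fun a : A => χ h a) = ψ
    · obtain ⟨h, hh, rfl⟩ := k
      obtain ⟨f, -, hf⟩ := LinearMap.exists_extend_of_notMem (p := ⊥) (v := ρ h w) (0 : _ →ₗ[F] V')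
        (fun e => w0 (rep_eq_zero e)) (ρ' h w')
      refine ⟨f, fun g hg e => ?_, fun e => ?_⟩
      · obtain ⟨c, c1, c2⟩ := h2 g hg h hh fun a ha => congrFun e ⟨a, ha⟩
        rw [← mul_inv_cancel_left h g, rep_mul, rep_mul ρ', c1, c2, map_smul, map_smul, map_smul, hf]
      · obtain ⟨a, ha, n⟩ := h0 h hh
        exact absurd (congrFun e ⟨a, ha⟩).symm n
    · exact ⟨f₀, fun g hg e => absurd ⟨g, hg, e⟩ k, fun _ => rfl⟩
  choose f f1 f2 using ex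
  obtain ⟨g, hg⟩ := Gl_patch (indep_wt (ρ := ρ) A X fun ψ ψ' n => by
    obtain ⟨a, ha⟩ := Function.ne_iff.1 n
    exact ⟨a, a.2, by simpa [X] using ha⟩) f
  exact ⟨g, fun v hv => by rw [hg (fun a => χ₀ a) v (Wt.congr hv (hX χ₀)), f2 _ rfl],
    fun k hk => by rw [hg (fun a => χ k a) _ (Wt.congr (h1 k hk) (hX (χ k))), f1 _ k hk rfl]⟩

theorem mem_Pw {w : V} {w' : V'} (w0 : w ≠ 0) {g : G} {c : F} (h : ρ g w = c • w) (h' : ρ' g w' = c • w') :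
    g ∈ Pw ρ ρ' w w' :=
  ⟨Units.mk0 c fun e => w0 (rep_eq_zero (by rw [h, e, zero_smul])), h, h'⟩

theorem Gl_comm {w : V} {g h : G} {c d : F} (a : ρ g w = c • w) (b : ρ h w = d • w) :
    ρ (g * h * g⁻¹ * h⁻¹) w = w := by
  have i : ∀ {g : G} {c : F}, ρ g w = c • w → ∃ d : F, ρ g⁻¹ w = d • w := fun {g c} a => by
    by_cases c0 : c = 0
    · obtain rfl : w = 0 := rep_eq_zero (by rw [a, c0, zero_smul])
      exact ⟨0, by simp⟩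
    · refine ⟨c⁻¹, ?_⟩
      have := rep_inv ρ g w
      rw [a, map_smul] at this
      conv_rhs => rw [← this, smul_smul, inv_mul_cancel₀ c0, one_smul]
  obtain ⟨c', a'⟩ := i a
  obtain ⟨d', b'⟩ := i b
  have e' : ρ (g⁻¹ * h⁻¹) w = ρ (h⁻¹ * g⁻¹) w := by
    rw [rep_mul, rep_mul, a', b', map_smul, map_smul, a', b', smul_comm]
  rw [mul_assoc, rep_mul, e', ← rep_mul, ← mul_inv_rev, mul_inv_cancel, map_one]
  rfl

theorem comm_le_Pw {w : V} {w' : V'} {S : Subgroup G} (h : ∀ g ∈ S, ∃ c : F, ρ g w = c • w)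
    (h' : ∀ g ∈ S, ∃ c : F, ρ' g w' = c • w') : ⁅S, S⁆ ≤ Pw ρ ρ' w w' := by
  refine commutator_le.2 fun a ha b hb => ?_
  obtain ⟨_, a1⟩ := h a ha
  obtain ⟨_, a2⟩ := h b hb
  obtain ⟨_, a3⟩ := h' a ha
  obtain ⟨_, a4⟩ := h' b hb
  exact ⟨1, by rw [Units.val_one, one_smul]; exact Gl_comm a1 a2,
    by rw [Units.val_one, one_smul]; exact Gl_comm a3 a4⟩

variable {f : V →ₗ[F] V'} {g τ c : G} {v : V}

theorem glue1 (a : v ∈ Yg ρ ρ' f (g * g)) (h : v ∈ Yg ρ ρ' f g) : ρ g v ∈ Yg ρ ρ' f g := by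
  rw [mem_Yg] at *
  rw [← rep_mul, a, rep_mul, h]

theorem glue2 (e : g * (τ * g) = τ * g * c) (a1 : v ∈ Yg ρ ρ' f c) (a2 : v ∈ Yg ρ ρ' f g)
    (a3 : ρ c v ∈ Yg ρ ρ' f g) (a4 : ρ g (ρ c v) ∈ Yg ρ ρ' f τ) (a5 : ρ g v ∈ Yg ρ ρ' f τ) :
    ρ τ (ρ g v) ∈ Yg ρ ρ' f g := by
  rw [mem_Yg] at *
  rw [a5, a2, ← rep_mul, ← rep_mul, ← rep_mul, ← rep_mul, mul_assoc, e, rep_mul, rep_mul, a4, a3, a1,
    rep_mul, rep_mul]

theorem glue3 {X : Submodule F V} (e : g * (τ * g) = τ * g * c)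
    (iX : ∀ v ∈ X, ρ g v ∈ X ∧ ρ τ v ∈ X ∧ ρ c v ∈ X) (hτ : X ≤ Yg ρ ρ' f τ) (hc : X ≤ Yg ρ ρ' f c)
    (inj : ∀ v ∈ X, f v = 0 → v = 0) {a : F} (h : ∀ v ∈ X, f (ρ g v) = a • ρ' g (f v)) :
    X ≤ Yg ρ ρ' f g := by
  intro v hv
  have e1 : f (ρ (g * (τ * g)) v) = (a * a) • ρ' (g * (τ * g)) (f v) := by
    rw [rep_mul, rep_mul, h _ (iX _ (iX v hv).1).2.1, mem_Yg.1 (hτ (iX v hv).1), h v hv, map_smul,
      map_smul, smul_smul, rep_mul, rep_mul]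
  have e2 : f (ρ (τ * g * c) v) = a • ρ' (τ * g * c) (f v) := by
    rw [rep_mul, rep_mul, mem_Yg.1 (hτ (iX _ (iX v hv).2.2).1), h _ (iX v hv).2.2, mem_Yg.1 (hc hv),
      map_smul, rep_mul, rep_mul]
  rw [e, e2, ← sub_eq_zero, ← sub_smul, smul_eq_zero] at e1
  by_cases v0 : v = 0
  · rw [v0]; exact zero_mem _
  have n : a ≠ 0 := fun a0 => v0 (rep_eq_zero (inj _ (iX v hv).1 (by rw [h v hv, a0, zero_smul])))
  have : a = 1 := mul_left_cancel₀ n (by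
    have := e1.resolve_right fun k => v0 (inj v hv (rep_eq_zero k))
    linear_combination -this)
  rw [mem_Yg, h v hv, this, one_smul]

end H95.B4
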