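import Cfsg.Agent.Lib.B43.Pl
import Cfsg.Agent.Lib.B43.Gl

/-! Small tools for the intertwiners. -/

set_option autoImplicit false
set_option linter.unusedSectionVars false

namespace H95.B4.HH

open Cfsg Subgroup H15 H16 H48.BR H7.ML Module

variable {F : Type*} [Field F] {G : Type*} [Group G] {V V' : Type*} [AddCommGroup V] [Module F V]
  [AddCommGroup V'] [Module F V'] {ρ : Representation F G V} {ρ' : Representation F G V'}
  {z s σ x c y : G} {Q Q' : Subgroup G} {v w : V}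

theorem tw_eqv {A : Set G} {f : V →ₗ[F] V'} (I : Iw ρ ρ' z A f) (T : Tau z s Q Q' σ)
    (hv : ρ σ v ∈ Fx ρ A) (hc : c * s = s * c) : v ∈ Yg ρ ρ' (ρ' σ⁻¹ ∘ₗ f ∘ₗ ρ σ) c := by
  have e := mem_Yg.1 (I.eqv _ (T.comm_z hc) hv)
  rw [← rep_mul, inv_mul_cancel_right, rep_mul] at e
  show ρ' σ⁻¹ (f (ρ σ (ρ c v))) = ρ' c (ρ' σ⁻¹ (f (ρ σ v)))
  rw [e, ← rep_mul, ← rep_mul, ← mul_assoc, ← mul_assoc, inv_mul_cancel, one_mul]

theorem W_conj (h : L3 Q z) (hc : c * z = z * c) (hv : v ∈ W ρ Q y) : ρ c v ∈ W ρ Q (c * y * c⁻¹) :=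
  W.conj hv fun _ hb => conj_mem_of_normalizer' (h.norm c hc) hb

theorem Fx_conj (h : L3 Q z) (hc : c * z = z * c) (hv : v ∈ Fx ρ Q) : ρ c v ∈ Fx ρ Q :=
  Wt.conj hv c fun _ hb => ⟨conj_mem_of_normalizer' (h.norm c hc) hb, rfl⟩

theorem Fx1_conj (hc : c * z = z * c) (hv : v ∈ Fx ρ {z}) : ρ c v ∈ Fx ρ {z} := by
  rw [mem_Fx1, ← rep_mul, ← hc, rep_mul, mem_Fx1.1 hv]

theorem W_cent : W ρ Q x ⊔ W ρ Q (x * s) ≤ W ρ (Q ⊓ centralizer {s}) x := by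
  refine sup_le (fun _ h => Wt.mono h fun _ a => a.1) fun v h => ?_
  rw [← W_mul (Q := Q ⊓ centralizer {s}) (z := s) fun q hq => mem_cent_iff.1 hq.2]
  exact Wt.mono h fun _ a => a.1

variable {φ : centralizer ({z} : Set G) →* Stab vU} {cls : leechLattice → G → Prop} [Finite G]
  [FiniteDimensional F V]

theorem line (M : Bab z Q φ cls) (D : Dm ρ z Q cls) (t : TwG cls x) (hw : w ∈ W ρ Q x) (w0 : w ≠ 0)
    (hc : c * z = z * c) (hv : v ∈ W ρ Q (c * x * c⁻¹)) : ∃ a : F, v = a • ρ c w :=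
  exists_smul_of_line (D.one _ (t.conj M hc)).le (W_conj M.h hc hw) (mt rep_eq_zero w0) hv

end H95.B4.HH
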