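import Cfsg.Agent.Lib.B43.Pl
import Cfsg.Agent.Lib.B43.Gl
import Cfsg.Agent.Lib.B43.HH

/-! The intertwiner on the fixed space of the central involution. -/

set_option autoImplicit false
set_option linter.unusedSectionVars false

namespace H95.B4

open Cfsg Subgroup H15 H16 H48.BR H7.ML Module HH

variable {F : Type*} [Field F] {G : Type*} [Group G] {V V' : Type*} [AddCommGroup V] [Module F V]
  [AddCommGroup V'] [Module F V'] {ρ : Representation F G V} {ρ' : Representation F G V'}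
  [Finite G] [FiniteDimensional F V] [FiniteDimensional F V']

variable {z s σ x : G} {Q Q' : Subgroup G} {φ : centralizer ({z} : Set G) →* Stab vU}
  {cls : leechLattice → G → Prop}
  (h2 : (2 : F) ≠ 0) (B : Bs z s σ x Q Q' φ cls) (D : Dm ρ z Q cls) (D' : Dm ρ' z Q cls)

namespace Hom

include B D in
theorem sg_line {w : V} (hw : w ∈ W ρ Q x) (w0 : w ≠ 0) {c : G} (hc : c ∈ SG z x B.p.h.sq) :
    ∃ a : F, ρ c w = a • w := by
  have e := W_conj B.p.h hc.1 hw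
  refine exists_smul_of_line (D.one _ B.twx).le hw w0 ?_
  rcases hc.2 with k | k <;> rw [k] at e
  exacts [e, W_mul (ρ := ρ) (x := x) B.p.h.central ▸ e]

include h2 B D in
theorem scal {w : V} (hw : w ∈ W ρ Q x) {b c : G} (hb : b ∈ Q') (bz : b * z = z * b)
    (bx : b * x * b⁻¹ = x * s) (hc : c ∈ SG z x B.p.h.sq) (cs : c * s = s * c) {a : F}
    (ha : ρ c w = a • w) : ρ c (w + ρ b w) = a • (w + ρ b w) := by
  obtain ⟨m1, m2⟩ := B.y_mem h2 D hw hb bz bx
  have m3 : ρ c (ρ b w) ∈ W ρ Q (x * s) := by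
    have e := W_conj B.p.h hc.1 m1
    rw [← conj_mul, cs, mul_inv_cancel_right] at e
    rcases hc.2 with k | k <;> rw [k] at e
    · exact e
    · rwa [mul_assoc, B.p.zs, ← mul_assoc, W_mul B.p.h.central] at e
  obtain ⟨u, hu, e⟩ := B.plane h2 D hb bz bx (Fx_conj B.p.h' cs m2) (by
    rw [map_add, ha]
    exact add_mem (Submodule.mem_sup_left (Submodule.smul_mem _ a hw)) (Submodule.mem_sup_right m3))
  have := (B.indep h2 D (sub_mem (Submodule.smul_mem _ a hw) hu)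
    (sub_mem m3 (B.y_mem h2 D hu hb bz bx).1) (by
      rw [sub_add_sub_comm, ← e, map_add, ha, sub_self])).1
  rw [e, ← sub_eq_zero.1 this, map_smul, smul_add]

include B D in
theorem dich {w v : V} (hw : w ∈ W ρ Q x) (w0 : w ≠ 0) {y : G} (hy : y ∈ Q) (hv : v ∈ W ρ Q y) :
    v ∈ Fx ρ Q ∨ ∃ g, g * z = z * g ∧ ∃ a : F, v = a • ρ g w := by
  by_cases v0 : v = 0
  · exact Or.inl (v0 ▸ zero_mem _)
  rcases D.supp y hy (fun e => v0 ((Submodule.mem_bot F).1 (e ▸ hv))) with rfl | e | t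
  · exact Or.inl (W_one (ρ := ρ) Q ▸ hv)
  · rw [e, ← one_mul z, W_mul B.p.h.central, W_one] at hv
    exact Or.inl hv
  · obtain ⟨g, gz, rfl⟩ := B.twx.trans B.M t
    exact Or.inr ⟨g, gz, line B.M D B.twx hw w0 gz hv⟩

end Hom

include h2 B D D'

open Hom in
theorem Bs.exists_iw {f₀ : V →ₗ[F] V'} (I : Iw ρ ρ' z Q f₀) {b : G} (hb : b ∈ Q') (bz : b * z = z * b)
    (bx : b * x * b⁻¹ = x * s) :
    ∃ f, Iw ρ ρ' z {z} f ∧ ∀ w ∈ W ρ Q x, w + ρ b w ∈ Yg ρ ρ' f σ := by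
  have E := B.p.h.toES
  have xQ := B.twx.mem B.M
  obtain ⟨w, hw, w0⟩ := exists_ne_zero (L := W ρ Q x) (by rw [D.one _ B.twx]; exact one_ne_zero)
  obtain ⟨m1, m2⟩ := B.y_mem h2 D hw hb bz bx
  have y0 : w + ρ b w ≠ 0 := fun e => w0 (B.indep h2 D hw m1 e).1
  have m3 := (B.fx_tau B.tau).2 m2
  have eq0 := fun c (hc : c * s = s * c) => tw_eqv I B.tau m3 hc
  have m4 : ρ' σ⁻¹ (f₀ (ρ σ (w + ρ b w))) ∈ Fx ρ' Q' :=
    (B.fx_tau B.tau.inv).1 (Wt.map m3 fun a ha => I.eqv a (E.central a ha) m3)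
  obtain ⟨w', hw', ey⟩ := B.plane h2 D' hb bz bx m4 (wt_cent h2 E B.p.sQ B.p.h'.sq xQ
    (mem_Fx.1 m4 z B.p.zQ) (Wt.map (f := ρ' σ⁻¹ ∘ₗ f₀ ∘ₗ ρ σ) (W_cent (add_mem (Submodule.mem_sup_left hw)
      (Submodule.mem_sup_right m1))) fun a ha => eq0 a (mem_cent_iff.1 ha.2)))
  have y0' : w' + ρ' b w' ≠ 0 := fun e => y0 (rep_eq_zero (I.inj _ m3 (rep_eq_zero (ey.trans e))))
  have w0' : w' ≠ 0 := fun e => y0' (by rw [e, map_zero, add_zero])
  have hS : SG z x B.p.h.sq ≤ Pw ρ ρ' w w' := by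
    refine B.gen_SG.trans (sup_le (sup_le (fun q hq => mem_Pw w0 (hw q hq) (hw' q hq)) fun c hc => ?_)
      (comm_le_Pw (fun g hg => sg_line B D hw w0 hg) fun g hg => sg_line B D' hw' w0' hg))
    have cs := mem_cent_iff.1 hc.2
    obtain ⟨a, ha⟩ := sg_line B D hw w0 hc.1
    obtain ⟨a', ha'⟩ := sg_line B D' hw' w0' hc.1
    have e := mem_Yg.1 (eq0 c cs)
    rw [scal h2 B D hw hb bz bx hc.1 cs ha, map_smul] at e
    erw [ey] at e
    rw [scal h2 B D' hw' hb bz bx hc.1 cs ha'] at e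
    exact mem_Pw w0 ha (smul_left_injective F y0' e ▸ ha')
  have cQ : ∀ g, g * z = z * g → g * x * g⁻¹ ∈ Q := fun g hg => (B.twx.conj B.M hg).mem B.M
  obtain ⟨f, f0, f1⟩ := exists_hom (ρ := ρ) (ρ' := ρ') Q (centralizer {z}) w0 w'
    (fun g => ee F (g * x * g⁻¹)) (fun _ => 1) (fun g hg => W_conj B.p.h (mem_cent_iff.1 hg) hw)
    (fun g hg h hh e => by
      have hz := mem_cent_iff.1 hh
      refine hS ⟨mem_cent_iff.1 (mul_mem (inv_mem hh) hg), ?_⟩
      by_contra n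
      rw [not_or] at n
      obtain ⟨q, hq, k⟩ := W_ne h2 E (cQ h hz) (cQ g (mem_cent_iff.1 hg)) (fun k => n.1 (by
        calc _ = h⁻¹ * (g * x * g⁻¹) * h := by group
          _ = _ := by rw [k]; group)) fun k => n.2 (by
        calc _ = h⁻¹ * (g * x * g⁻¹) * h := by group
          _ = x * (h⁻¹ * (z * h)) := by rw [k]; group
          _ = _ := by rw [← hz]; group)
      exact k (e q hq).symm)
    (fun g hg => by
      have t := (B.twx.conj B.M (mem_cent_iff.1 hg)).ne B.M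
      obtain ⟨q, hq, k⟩ := W_ne h2 E (one_mem Q) (cQ g (mem_cent_iff.1 hg)) t.1 (by
        rw [one_mul]; exact t.2)
      exact ⟨q, hq, fun e => k ((sg_pos (by simp)).trans e.symm)⟩) f₀
  have eqv : ∀ c, c * z = z * c → Fx ρ {z} ≤ Yg ρ ρ' f c := fun c hc =>
    le_of_W h2 E le_rfl (fun q hq v hv => Fx1_conj (E.central q hq) hv) fun y hy v _ hv => by
      rcases dich B D hw w0 hy hv with k | ⟨g, gz, a, rfl⟩
      · rw [mem_Yg, f0 _ k, f0 _ (Fx_conj B.p.h hc k)]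
        exact I.eqv c hc k
      · refine Submodule.smul_mem _ a ?_
        rw [mem_Yg, ← rep_mul, f1 g (mem_cent_iff.2 gz),
          f1 _ (mul_mem (mem_cent_iff.2 hc) (mem_cent_iff.2 gz)), rep_mul]
  refine ⟨f, ⟨eqv, fun v hv e => ?_⟩, fun u hu => ?_⟩
  · refine (Submodule.mem_bot F).1 (le_of_W h2 E (U := LinearMap.ker f ⊓ Fx ρ {z}) inf_le_right
      (fun q hq v hv => ⟨?_, Fx1_conj (E.central q hq) hv.2⟩) (fun y hy v k hv => ?_) ⟨e, hv⟩)
    · have := mem_Yg.1 (eqv q (E.central q hq) hv.2)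
      rwa [LinearMap.mem_ker.1 hv.1, map_zero] at this
    · have k1 := LinearMap.mem_ker.1 k.1
      rcases dich B D hw w0 hy hv with k | ⟨g, gz, a, rfl⟩
      · exact I.inj v k (f0 _ k ▸ k1)
      · rw [map_smul, f1 g (mem_cent_iff.2 gz), smul_eq_zero] at k1
        rw [k1.resolve_right (mt rep_eq_zero w0'), zero_smul]
        exact zero_mem _
  · obtain ⟨a, rfl⟩ := exists_smul_of_line (D.one _ B.twx).le hw w0 hu
    rw [map_smul, ← smul_add]
    refine Submodule.smul_mem _ a ?_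
    have e1 := f1 1 (one_mem _)
    rw [map_one, map_one, Module.End.one_apply, Module.End.one_apply] at e1
    rw [mem_Yg, f0 _ m3, map_add f, e1, f1 b (mem_cent_iff.2 bz), ← ey, rep_inv']

end H95.B4
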