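import Cfsg.Agent.Lib.B43.Defs

/-! The faithful representation of an extraspecial group. -/

set_option autoImplicit false

namespace H95.B4

open Cfsg Subgroup H15 H16 H48.BR H7.ML Module

variable {F : Type*} [Field F] {G : Type*} [Group G] {V V' : Type*} [AddCommGroup V] [Module F V]
  [AddCommGroup V'] [Module F V'] {ρ : Representation F G V} {ρ' : Representation F G V'}
  {Q : Subgroup G} [Finite Q] {z : G}

/-- the operators of the group span the endomorphism ring -/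
theorem es_span [FiniteDimensional F V] (h2 : (2 : F) ≠ 0) (h : ES Q z) {d : ℕ}
    (hc : Nat.card Q = 2 * d ^ 2) (hd : (d : F) ≠ 0) (e : finrank F V = d) (r : Q →* End F V)
    (hz : r ⟨z, h.mem⟩ = -1) : Submodule.span F (Set.range r) = ⊤ := by
  let Z := zpowers (⟨z, h.mem⟩ : Q)
  have zz : (⟨z, h.mem⟩ : Q) * ⟨z, h.mem⟩ = 1 := Subtype.ext h.sq
  have tr : ∀ x : Q, x ∉ Z → LinearMap.trace F V (r x) = 0 := fun x hx => by
    obtain ⟨y, hy, n⟩ : ∃ y ∈ Q, x.1 * y ≠ y * x := by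
      by_contra! k
      exact hx ((mem_zpowers_iff_of_sq zz).2 ((h.nondeg x x.2 k).imp Subtype.ext Subtype.ext))
    have k : (⟨y, hy⟩ : Q)⁻¹ * (x * ⟨y, hy⟩) = x * ⟨z, h.mem⟩ := Subtype.ext (by
      simp only [coe_mul, coe_inv, (h.comm x x.2 y hy).resolve_left n]; group)
    have := LinearMap.trace_mul_comm F (r (⟨y, hy⟩ : Q)⁻¹) (r (x * ⟨y, hy⟩))
    rw [← map_mul, ← map_mul, k, mul_inv_cancel_right, map_mul, hz, mul_neg, mul_one, map_neg] at this
    exact (mul_eq_zero.1 (by linear_combination -this)).resolve_left h2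
  have li : LinearIndependent F fun i : Q ⧸ Z => r i.out := .of_pairwise_dual_eq_zero_one _
    (fun i => (d : F)⁻¹ • LinearMap.trace F V ∘ₗ LinearMap.mulLeft F (r i.out⁻¹)) (fun i j n => by
      beta_reduce
      rw [LinearMap.smul_apply, LinearMap.comp_apply, LinearMap.mulLeft_apply, ← map_mul, tr, smul_zero]
      exact fun k => n (by rw [← i.out_eq, ← j.out_eq]; exact QuotientGroup.eq.2 k)) fun i => by
      rw [LinearMap.smul_apply, LinearMap.comp_apply, LinearMap.mulLeft_apply, ← map_mul, inv_mul_cancel,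
        map_one, LinearMap.trace_one, e, smul_eq_mul, inv_mul_cancel₀ hd]
  haveI := Fintype.ofFinite (Q ⧸ Z)
  have c := card_eq_card_quotient_mul_card_subgroup Z
  rw [Nat.card_zpowers, orderOf_eq_prime (p := 2) (by rw [pow_two, zz]) fun k => h.ne_one (congrArg Subtype.val k),
    hc, Nat.card_eq_fintype_card] at c
  exact eq_top_iff.2 ((li.span_eq_top_of_card_eq_finrank' (by
    rw [finrank_linearMap, e, ← pow_two]; omega)).ge.trans (Submodule.span_mono (Set.range_comp_subset_range _ r)))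

theorem es_schur [FiniteDimensional F V] [FiniteDimensional F V'] (h2 : (2 : F) ≠ 0) (h : ES Q z) {d : ℕ}
    (hc : Nat.card Q = 2 * d ^ 2) (hd : (d : F) ≠ 0) (e : finrank F (Ng ρ z) = d)
    (e' : finrank F (Ng ρ' z) = d) {f g : V →ₗ[F] V'} (hf : ∀ q ∈ Q, Ng ρ z ≤ Yg ρ ρ' f q)
    (hg : ∀ q ∈ Q, Ng ρ z ≤ Yg ρ ρ' g q) (inj : ∀ v ∈ Ng ρ z, f v = 0 → v = 0) :
    ∃ a : F, ∀ v ∈ Ng ρ z, g v = a • f v := by
  have st : ∀ q ∈ Q, ∀ v ∈ Ng ρ z, ρ q v ∈ Ng ρ z := fun q hq v hv => by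
    rw [mem_Ng, ← rep_mul, ← h.central q hq, rep_mul, mem_Ng.1 hv, map_neg]
  have mp : ∀ f : V →ₗ[F] V', (∀ q ∈ Q, Ng ρ z ≤ Yg ρ ρ' f q) → ∀ v ∈ Ng ρ z, f v ∈ Ng ρ' z := fun f k v hv => by
    rw [mem_Ng, ← mem_Yg.1 (k z h.mem hv), mem_Ng.1 hv, map_neg]
  let r := Representation.subrepresentation (ρ.comp Q.subtype) (Ng ρ z) fun q v hv => st q q.2 v hv
  have i : Function.Injective (f.restrict (mp f hf)) :=
    (injective_iff_map_eq_zero _).2 fun v k => Subtype.ext (inj v v.2 (congrArg Subtype.val k))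
  let E := LinearEquiv.ofBijective _
    ⟨i, (LinearMap.injective_iff_surjective_of_finrank_eq_finrank (e.trans e'.symm)).1 i⟩
  let T : End F (Ng ρ z) := E.symm.toLinearMap ∘ₗ g.restrict (mp g hg)
  have k : ∀ v : Ng ρ z, f (T v) = g v := fun v => congrArg Subtype.val (E.apply_symm_apply _)
  obtain ⟨a, ha⟩ := (Algebra.IsCentral.mem_center_iff F (x := T)).1 (Subalgebra.mem_center_iff.2 fun A => by
    have : A ∈ LinearMap.eqLocus (LinearMap.mulRight F T) (LinearMap.mulLeft F T) :=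
      Submodule.span_le.2 (Set.range_subset_iff.2 fun q => LinearMap.ext fun v => i (Subtype.ext (by
        change f (ρ q (T v)) = f (T (r q v))
        rw [k, mem_Yg.1 (hf q q.2 (T v).2), k]
        exact (hg q q.2 v.2).symm))) ((es_span h2 h hc hd e r (LinearMap.ext fun v =>
          Subtype.ext (mem_Ng (ρ := ρ) |>.1 v.2))).ge Submodule.mem_top)
    exact this)
  exact ⟨a, fun v hv => by rw [← k ⟨v, hv⟩, ha, ← map_smul]; rfl⟩

end H95.B4
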