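import Cfsg.Agent.Lib.B43.Dg

/-! Extension of an intertwiner from the fixed space of an involution. -/

set_option autoImplicit false

namespace H95.B4

open Cfsg Subgroup H15 H16 H48.BR H7.ML Module

variable {F : Type*} [Field F] {G : Type*} [Group G] {V V' : Type*} [AddCommGroup V] [Module F V]
  [AddCommGroup V'] [Module F V'] {ρ : Representation F G V} {ρ' : Representation F G V'}

variable {f : V →ₗ[F] V'} {τ : G}

theorem Phi_proj (h2 : (2 : F) ≠ 0) (T : V →ₗ[F] V) : ∃ p n : V →ₗ[F] V,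
    (∀ v, T v = v → p v = v ∧ n v = 0) ∧ ∀ v, T v = -v → p v = 0 ∧ n v = v := by
  have e : ∀ v : V, (2 : F)⁻¹ • (v + v) = v := fun v => by
    rw [← two_smul F v, smul_smul, inv_mul_cancel₀ h2, one_smul]
  refine ⟨(2 : F)⁻¹ • (LinearMap.id + T), (2 : F)⁻¹ • (LinearMap.id - T), fun v h => ?_, fun v h => ?_⟩
  · simp only [LinearMap.smul_apply, LinearMap.add_apply, LinearMap.sub_apply, LinearMap.id_apply, h, e,
      sub_self, smul_zero, and_self]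
  · simp only [LinearMap.smul_apply, LinearMap.add_apply, LinearMap.sub_apply, LinearMap.id_apply, h,
      sub_neg_eq_add, e, add_neg_cancel, smul_zero, and_self]

theorem Phi_split (h2 : (2 : F) ≠ 0) {z s : G} (zz : z * z = 1) (ss : s * s = 1) (zs : z * s = s * z)
    {U Y : Submodule F V} (iz : ∀ v ∈ U, ρ z v ∈ U) (is : ∀ v ∈ U, ρ s v ∈ U)
    (h : ∀ v ∈ U, ρ z v = v ∨ ρ z v = -v → ρ s v = v ∨ ρ s v = -v → v ∈ Y) : U ≤ Y := by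
  have c : ∀ v, ρ z (ρ s v) = ρ s (ρ z v) := fun v => by rw [← rep_mul, zs, rep_mul]
  refine (split_mem (ρ := ρ) h2 zz iz).trans (sup_le ?_ ?_)
  · refine (split_mem (ρ := ρ) (U := U ⊓ Fx ρ {z}) h2 ss fun v hv => ⟨is v hv.1, mem_Fx1.2 ?_⟩).trans (sup_le ?_ ?_)
    · rw [c, mem_Fx1.1 hv.2]
    · exact fun v hv => h v hv.1.1 (Or.inl (mem_Fx1.1 hv.1.2)) (Or.inl (mem_Fx1.1 hv.2))
    · exact fun v hv => h v hv.1.1 (Or.inl (mem_Fx1.1 hv.1.2)) (Or.inr (mem_Ng.1 hv.2))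
  · refine (split_mem (ρ := ρ) (U := U ⊓ Ng ρ z) h2 ss fun v hv => ⟨is v hv.1, mem_Ng.2 ?_⟩).trans (sup_le ?_ ?_)
    · rw [c, mem_Ng.1 hv.2, map_neg]
    · exact fun v hv => h v hv.1.1 (Or.inr (mem_Ng.1 hv.1.2)) (Or.inl (mem_Fx1.1 hv.2))
    · exact fun v hv => h v hv.1.1 (Or.inr (mem_Ng.1 hv.1.2)) (Or.inr (mem_Ng.1 hv.2))

theorem Phi_fx {z m : G} {v : V} (h : ρ (m * z * m⁻¹) v = v) : ρ m⁻¹ v ∈ Fx ρ {z} := by
  rw [mem_Fx1]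
  conv_rhs => rw [← h, mul_assoc, rep_mul, rep_inv, rep_mul]

theorem Phi_dep {z m m' : G} (I : Iw ρ ρ' z {z} f) (e : m * z * m⁻¹ = m' * z * m'⁻¹) {v : V}
    (h : ρ (m' * z * m'⁻¹) v = v) : ρ' m (f (ρ m⁻¹ v)) = ρ' m' (f (ρ m'⁻¹ v)) := by
  have k := mem_Yg.1 (I.eqv (m⁻¹ * m') (by
    calc _ = m⁻¹ * (m' * z * m'⁻¹) * m' := by group
      _ = _ := by rw [← e]; group) (Phi_fx h))
  rw [← rep_mul, mul_inv_cancel_right] at k
  rw [k, ← rep_mul, mul_inv_cancel_left]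

theorem exists_Phi (h2 : (2 : F) ≠ 0) {z s σ : G} (zz : z * z = 1) (ss : s * s = 1) (zs : z * s = s * z)
    (σz : σ * z * σ⁻¹ = s) (σs : σ * s * σ⁻¹ = z) (τz : τ * z = z * τ) (τs : τ * s * τ⁻¹ = s * z)
    (I : Iw ρ ρ' z {z} f) (hσ : Fx ρ {z} ⊓ Fx ρ {s} ≤ Yg ρ ρ' f σ) :
    ∃ Φ : V →ₗ[F] V', (∀ v ∈ Fx ρ {z}, Φ v = f v) ∧ Function.Injective Φ ∧ (∀ v, v ∈ Yg ρ ρ' Φ σ) ∧
      ∀ n, n * z = z * n → n * s * n⁻¹ = s ∨ n * s * n⁻¹ = s * z → ∀ v, v ∈ Yg ρ ρ' Φ n := by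
  obtain ⟨pz, nz, z1, z2⟩ := Phi_proj h2 (ρ z)
  obtain ⟨ps, ns, s1, s2⟩ := Phi_proj h2 (ρ s)
  obtain ⟨Φ, hΦ⟩ : ∃ Φ : V →ₗ[F] V', ∀ v, Φ v = f (pz v) + ρ' σ (f (ρ σ⁻¹ (ps (nz v)))) +
      ρ' (τ * σ) (f (ρ (τ * σ)⁻¹ (ns (nz v)))) :=
    ⟨f ∘ₗ pz + ρ' σ ∘ₗ f ∘ₗ ρ σ⁻¹ ∘ₗ ps ∘ₗ nz + ρ' (τ * σ) ∘ₗ f ∘ₗ ρ (τ * σ)⁻¹ ∘ₗ ns ∘ₗ nz, fun _ => rfl⟩
  have o : (1 : G) * z * 1⁻¹ = z := by group
  have τσ : τ * σ * z * (τ * σ)⁻¹ = s * z := by rw [← τs, ← σz]; group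
  have K1 : ∀ v, ρ z v = v → Φ v = f v := fun v h => by
    simp only [hΦ, (z1 v h).1, (z1 v h).2, map_zero, add_zero]
  have K : ∀ m t v, m * z * m⁻¹ = t → ρ t v = v → t = z ∨ ρ z v = -v ∧ (t = s ∨ t = s * z) →
      Φ v = ρ' m (f (ρ m⁻¹ v)) := by
    rintro m t v e h (k | ⟨hz, k | k⟩)
    · rw [K1 v (k ▸ h), Phi_dep I (e.trans (k.trans o.symm)) (by rw [o, ← k, h]), inv_one, map_one, map_one]
      rfl
    · have hs : ρ s v = v := k ▸ h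
      rw [Phi_dep I (e.trans (k.trans σz.symm)) (by rw [σz, hs])]
      simp only [hΦ, (z2 v hz).1, (z2 v hz).2, (s1 v hs).1, (s1 v hs).2, map_zero, add_zero, zero_add]
    · have hs : ρ s v = -v := by
        rw [k, rep_mul, hz, map_neg, neg_eq_iff_eq_neg] at h
        exact h
      rw [Phi_dep I (e.trans (k.trans τσ.symm)) (by rw [τσ, ← k, h])]
      simp only [hΦ, (z2 v hz).1, (z2 v hz).2, (s2 v hs).1, (s2 v hs).2, map_zero, add_zero, zero_add]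
  have T : ∀ n m t t' v, m * z * m⁻¹ = t → n * t * n⁻¹ = t' → ρ t v = v →
      t = z ∨ ρ z v = -v ∧ (t = s ∨ t = s * z) →
      t' = z ∨ ρ z (ρ n v) = -ρ n v ∧ (t' = s ∨ t' = s * z) → v ∈ Yg ρ ρ' Φ n := by
    intro n m t t' v e e' h k k'
    rw [mem_Yg, K m t v e h k, K (n * m) t' (ρ n v) (by rw [← e', ← e]; group)
      (by rw [← e', ← rep_mul, inv_mul_cancel_right, rep_mul, h]) k', mul_inv_rev, rep_mul, rep_mul, rep_inv]
  have mm : ∀ v, ρ z v = -v → ρ s v = -v → ρ (s * z) v = v := fun v a b => by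
    rw [rep_mul, a, map_neg, b, neg_neg]
  have N : ∀ n, n * z = z * n → n * s * n⁻¹ = s ∨ n * s * n⁻¹ = s * z → ∀ v, v ∈ Yg ρ ρ' Φ n := by
    intro n c e v
    have c' : n * z * n⁻¹ = z := by rw [c, mul_inv_cancel_right]
    refine Phi_split (ρ := ρ) (U := ⊤) h2 zz ss zs (fun _ _ => trivial) (fun _ _ => trivial) ?_ trivial
    rintro v - (a | a) b
    · exact T n 1 z z v o c' a (Or.inl rfl) (Or.inl rfl)
    have a' : ρ z (ρ n v) = -ρ n v := by rw [← rep_mul, ← c, rep_mul, a, map_neg]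
    rcases b with b | b
    · exact T n σ s _ v σz rfl b (Or.inr ⟨a, Or.inl rfl⟩) (Or.inr ⟨a', e⟩)
    · refine T n (τ * σ) (s * z) _ v τσ rfl (mm v a b) (Or.inr ⟨a, Or.inr rfl⟩) (Or.inr ⟨a', ?_⟩)
      rw [← conj_mul, c']
      rcases e with e | e <;> rw [e]
      exacts [Or.inr rfl, Or.inl (by rw [mul_assoc, zz, mul_one])]
  refine ⟨Φ, fun v h => K1 v (mem_Fx1.1 h), ?_, fun v => ?_, N⟩
  · have J : ∀ m t v, m * z * m⁻¹ = t → ρ t v = v → t = z ∨ ρ z v = -v ∧ (t = s ∨ t = s * z) →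
        Φ v = 0 → v = 0 := fun m t v e h k h0 =>
      rep_eq_zero (I.inj _ (Phi_fx (e ▸ h)) (rep_eq_zero ((K m t v e h k).symm.trans h0)))
    refine LinearMap.ker_eq_bot.1 (eq_bot_iff.2 (Phi_split (ρ := ρ) h2 zz ss zs (fun v h => ?_)
      (fun v h => ?_) ?_))
    · rw [LinearMap.mem_ker, mem_Yg.1 (N z rfl (Or.inl (by rw [zs, mul_inv_cancel_right])) v),
        LinearMap.mem_ker.1 h, map_zero]
    · rw [LinearMap.mem_ker, mem_Yg.1 (N s zs.symm (Or.inl (by rw [mul_inv_cancel_right])) v),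
        LinearMap.mem_ker.1 h, map_zero]
    · rintro v h (a | a) b
      · exact J 1 z v o a (Or.inl rfl) h
      rcases b with b | b
      · exact J σ s v σz b (Or.inr ⟨a, Or.inl rfl⟩) h
      · exact J (τ * σ) (s * z) v τσ (mm v a b) (Or.inr ⟨a, Or.inr rfl⟩) h
  · have c : ∀ v, ρ z (ρ σ v) = ρ σ (ρ s v) := fun v => by
      rw [← σs, ← rep_mul, inv_mul_cancel_right, rep_mul]
    refine Phi_split (ρ := ρ) (U := ⊤) h2 zz ss zs (fun _ _ => trivial) (fun _ _ => trivial) ?_ trivial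
    rintro v - (a | a) (b | b)
    · rw [mem_Yg, K1 v a, K1 _ (by rw [c, b])]
      exact hσ ⟨mem_Fx1.2 a, mem_Fx1.2 b⟩
    · exact T σ 1 z s v o σz a (Or.inl rfl) (Or.inr ⟨by rw [c, b, map_neg], Or.inl rfl⟩)
    · exact T σ σ s z v σz σs b (Or.inr ⟨a, Or.inl rfl⟩) (Or.inl rfl)
    · exact T σ (τ * σ) (s * z) (s * z) v τσ (by rw [← conj_mul, σs, σz, zs]) (mm v a b)
        (Or.inr ⟨a, Or.inr rfl⟩) (Or.inr ⟨by rw [c, b, map_neg], Or.inr rfl⟩)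

end H95.B4
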