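import Cfsg.Agent.Lib.B43.Hex

/-! The intertwiner commutes with the swap on the fixed space of the four-group. -/

set_option autoImplicit false

namespace H95.B4

open Cfsg Subgroup H15 H16 H48.BR H7.ML Module

variable {F : Type*} [Field F] {G : Type*} [Group G] {V V' : Type*} [AddCommGroup V] [Module F V]
  [AddCommGroup V'] [Module F V'] {ρ : Representation F G V} {ρ' : Representation F G V'}

theorem Top_sup {A B : Subgroup G} {v : V} (a : v ∈ Fx ρ A) (b : v ∈ Fx ρ B) {g : G} (hg : g ∈ A ⊔ B) :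
    ρ g v = v := by
  let S : Subgroup G :=
    { carrier := {g | ρ g v = v}
      one_mem' := by simp
      mul_mem' := fun {g h} p q => by
        rw [Set.mem_ofPred_eq] at *
        rw [rep_mul, q, p]
      inv_mem' := fun {g} p => by
        rw [Set.mem_ofPred_eq] at *
        conv_lhs => rw [← p, rep_inv] }
  exact (sup_le (fun g h => mem_Fx.1 a g h) fun g h => mem_Fx.1 b g h : A ⊔ B ≤ S) hg

theorem Top_inv {z s σ k : G} {Q Q' : Subgroup G} (T : Tau z s Q Q' σ) {f : V →ₗ[F] V'} (I : Iw ρ ρ' z {z} f)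
    {v : V} (h : v ∈ Yg ρ ρ' f σ) (hz : ρ z v = v) (hs : ρ s v = v) (kz : k * z = z * k) (ks : k * s = s * k) :
    ρ k v ∈ Yg ρ ρ' f σ := by
  have e : z * σ = σ * s := by rw [← T.sz]; group
  have a : v ∈ Yg ρ ρ' f (σ * k * σ⁻¹ * σ) :=
    Yg.mul h (I.eqv _ (T.comm_z ks) (mem_Fx1.2 (by rw [← rep_mul, e, rep_mul, hs])))
  rw [inv_mul_cancel_right, mem_Yg, rep_mul, rep_mul, ← mem_Yg.1 (I.eqv k kz (mem_Fx1.2 hz))] at a
  exact a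

variable [Finite G] [FiniteDimensional F V] [FiniteDimensional F V']

variable {z s σ x : G} {Q Q' : Subgroup G} {φ : centralizer ({z} : Set G) →* Stab vU}
  {cls : leechLattice → G → Prop}
  (h2 : (2 : F) ≠ 0) (B : Bs z s σ x Q Q' φ cls) (D : Dm ρ z Q cls) (D' : Dm ρ' z Q cls)
include h2 B D D'

theorem Bs.Top_fx' {f : V →ₗ[F] V'} (I : Iw ρ ρ' z {z} f) {b : G} (hb : b ∈ Q') (bz : b * z = z * b)
    (bx : b * x * b⁻¹ = x * s) (hy : ∀ w ∈ W ρ Q x, w + ρ b w ∈ Yg ρ ρ' f σ) :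
    Fx ρ Q' ≤ Yg ρ ρ' f σ := by
  refine le_of_wt h2 (Q ⊓ centralizer {s}) (fun a ha v hv => PlA_conj_fx B.p.h' (mem_cent_iff.1 ha.2) hv)
    (fun a ha v hv => ?_) fun v hv h => ?_
  · rw [← rep_mul]
    rcases B.p.h.sq_mem ha.1 with e | e <;> rw [e]
    · simp
    · exact mem_Fx.1 hv z B.p.zQ
  rcases B.wt_fx h2 D hb bz bx hv fun q hq e => h q ⟨hq, mem_cent_iff.2 e⟩ with k | ⟨k, kz, ks, w, hw, rfl⟩
  · have hz : v ∈ Fx ρ {z} := mem_Fx1.2 (mem_Fx.1 hv z B.p.zQ)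
    have a1 : f v ∈ Fx ρ' Q := Wt.map k fun a ha => I.eqv a (B.p.h.central a ha) hz
    have a2 : f v ∈ Fx ρ' Q' := B.fx_of' h2 D' (mem_Fx.1 a1 s B.p.sQ)
      (Wt.map (Wt.mono hv fun _ ha => ha.1) fun a ha => I.eqv a (mem_cent_iff.1 ha.2) hz)
    rw [mem_Yg, Top_sup k hv B.tau.mem, Top_sup a1 a2 B.tau.mem]
  · have := (B.y_mem h2 D hw hb bz bx).2
    exact Top_inv B.tau I (hy w hw) (mem_Fx.1 this z B.p.zQ) (mem_Fx.1 this s B.p.h'.mem) kz ks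

theorem Bs.fx_le {f : V →ₗ[F] V'} (I : Iw ρ ρ' z {z} f) {b : G} (hb : b ∈ Q') (bz : b * z = z * b)
    (bx : b * x * b⁻¹ = x * s) (hy : ∀ w ∈ W ρ Q x, w + ρ b w ∈ Yg ρ ρ' f σ) :
    Fx ρ Q ≤ Yg ρ ρ' f σ := fun u hu => by
  have a : ρ σ⁻¹ u ∈ Fx ρ Q' := (B.fx_tau B.tau.inv).1 hu
  have e : σ * σ * z = z * (σ * σ) := by
    calc _ = σ * (σ * z * σ⁻¹) * σ⁻¹ * (σ * σ) := by group
      _ = _ := by rw [B.tau.zs, B.tau.sz]
  have := glue1 (I.eqv _ e (mem_Fx1.2 (mem_Fx.1 a z B.p.zQ))) (B.Top_fx' h2 D D' I hb bz bx hy a)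
  rwa [rep_inv'] at this

theorem Bs.Top_tau {f : V →ₗ[F] V'} (I : Iw ρ ρ' z {z} f) {b : G} (hb : b ∈ Q') (bz : b * z = z * b)
    (bx : b * x * b⁻¹ = x * s) (hy : ∀ w ∈ W ρ Q x, w + ρ b w ∈ Yg ρ ρ' f σ) {τ : G} (hτ : τ ∈ Q)
    (ts : τ * s * τ⁻¹ = s * z) {v : V} (hv : v ∈ Fx ρ Q') : ρ τ v ∈ Yg ρ ρ' f σ := by
  have a : ρ σ⁻¹ v ∈ Fx ρ Q := (B.fx_tau B.tau.inv).2 hv
  have e1 : τ * σ * z * (τ * σ)⁻¹ = s * z := by
    rw [← ts, ← B.tau.zs]; group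
  have e2 : σ * (s * z) * σ⁻¹ = s * z := by
    calc _ = σ * s * σ⁻¹ * (σ * z * σ⁻¹) := by group
      _ = _ := by rw [B.tau.zs, B.tau.sz, B.p.zs]
  have cz : (τ * σ)⁻¹ * σ * (τ * σ) * z = z * ((τ * σ)⁻¹ * σ * (τ * σ)) := by
    calc _ = (τ * σ)⁻¹ * (σ * (τ * σ * z * (τ * σ)⁻¹) * σ⁻¹) * σ * (τ * σ) := by group
      _ = (τ * σ)⁻¹ * (τ * σ * z * (τ * σ)⁻¹) * σ * (τ * σ) := by rw [e1, e2]
      _ = _ := by group
  have a' := PlA_conj_fx B.p.h cz a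
  have t : ∀ u ∈ Fx ρ Q, ρ σ u ∈ Yg ρ ρ' f τ := fun u hu =>
    I.eqv τ (B.p.h.central τ hτ) (mem_Fx1.2 (mem_Fx.1 ((B.fx_tau B.tau).1 hu) z B.p.zQ))
  have := glue2 (c := (τ * σ)⁻¹ * σ * (τ * σ)) (by group) (I.eqv _ cz (mem_Fx1.2 (mem_Fx.1 a z B.p.h.mem)))
    (B.fx_le h2 D D' I hb bz bx hy a) (B.fx_le h2 D D' I hb bz bx hy a') (t _ a') (t _ a)
  rwa [rep_inv'] at this

theorem Bs.Top_W {f : V →ₗ[F] V'} (I : Iw ρ ρ' z {z} f) {b : G} (hb : b ∈ Q') (bz : b * z = z * b)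
    (bx : b * x * b⁻¹ = x * s) (hy : ∀ w ∈ W ρ Q x, w + ρ b w ∈ Yg ρ ρ' f σ) :
    W ρ Q x ≤ Yg ρ ρ' f σ := fun w hw => by
  obtain ⟨τ, hτ, ts⟩ := B.p.h.exists_conj B.p.sQ B.p.h'.ne_one B.p.ne
  obtain ⟨h1, h3⟩ := B.y_mem h2 D hw hb bz bx
  have n : τ * s ≠ s * τ := fun e => B.p.h.ne_one (by
    rw [e, mul_inv_cancel_right] at ts
    simpa using ts.symm)
  have a := B.Top_tau h2 D D' I hb bz bx hy hτ ts h3
  have c : w - ρ b w ∈ Yg ρ ρ' f σ := by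
    rw [map_add] at a
    by_cases e : τ * x = x * τ
    · rwa [PlA_fix hw hτ e, PlA_neg h1 hτ fun k => n (by
        rwa [← mul_assoc, e, mul_assoc, mul_assoc, mul_right_inj] at k), ← sub_eq_add_neg] at a
    · rw [PlA_neg hw hτ e, PlA_fix h1 hτ (by
        calc τ * (x * s) = τ * x * τ⁻¹ * (τ * s * τ⁻¹) * τ := by group
          _ = x * (z * s * z) * τ := by rw [B.p.h.conj_of_ne B.PlA_xQ hτ e, ts]; group
          _ = _ := by rw [B.p.zs, mul_assoc s, B.p.h.sq, mul_one])] at a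
      simpa [sub_eq_neg_add, add_comm] using neg_mem a
  have := Submodule.smul_mem _ (2 : F)⁻¹ (add_mem (hy w hw) c)
  rwa [add_add_sub_cancel, ← two_smul F, smul_smul, inv_mul_cancel₀ h2, one_smul] at this

theorem Bs.pp_le {f : V →ₗ[F] V'} (I : Iw ρ ρ' z {z} f) {b : G} (hb : b ∈ Q') (bz : b * z = z * b)
    (bx : b * x * b⁻¹ = x * s) (hy : ∀ w ∈ W ρ Q x, w + ρ b w ∈ Yg ρ ρ' f σ) :
    Fx ρ {z} ⊓ Fx ρ {s} ≤ Yg ρ ρ' f σ := by
  refine le_of_W h2 B.p.h.toES inf_le_left (fun q hq v hv => ⟨mem_Fx1.2 ?_, mem_Fx1.2 ?_⟩) fun y hq v hv h => ?_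
  · rw [← rep_mul, ← B.p.h.central q hq, rep_mul, mem_Fx1.1 hv.1]
  · rw [← rep_mul, show s * q = q * (q⁻¹ * s * q⁻¹⁻¹) by group, rep_mul]
    rcases B.p.h.conj B.p.sQ (inv_mem hq) with e | e <;> rw [e]
    · rw [mem_Fx1.1 hv.2]
    · rw [rep_mul ρ s, mem_Fx1.1 hv.1, mem_Fx1.1 hv.2]
  by_cases v0 : v = 0
  · exact v0 ▸ zero_mem _
  have ys : s * y = y * s := by
    by_contra m
    have := PlA_neg h B.p.sQ m
    rw [mem_Fx1.1 hv.2, eq_neg_iff_add_eq_zero, ← two_smul F] at this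
    exact v0 ((smul_eq_zero.1 this).resolve_left h2)
  rcases D.supp y hq fun e => v0 (by simpa [e] using h) with rfl | rfl | e
  · exact B.fx_le h2 D D' I hb bz bx hy (by rwa [W_one] at h)
  · rw [← one_mul y, W_mul B.p.h.central, W_one] at h
    exact B.fx_le h2 D D' I hb bz bx hy h
  rcases B.cases e ys.symm with ⟨k, kz, ks, rfl⟩ | m
  · have a := PlA_conj B.p.h (c := k⁻¹) (Commute.inv_left (a := k) kz :) h
    rw [show k⁻¹ * (k * x * k⁻¹) * k⁻¹⁻¹ = x by group] at a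
    have := Top_inv B.tau I (B.Top_W h2 D D' I hb bz bx hy a)
      (PlA_fix a B.p.h.mem (B.p.h.central x B.PlA_xQ).symm) (PlA_fix a B.p.sQ B.PlA_sx) kz ks
    rwa [rep_inv'] at this
  · exact B.hex_le h2 D D' I m h

end H95.B4
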