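import Cfsg.Agent.Lib.B43.Pl
import Cfsg.Agent.Lib.B43.C23

/-! The fixed space of the extraspecial group. -/

set_option autoImplicit false

namespace H95.B4

open Cfsg Subgroup H15 H16 H48.BR H7.ML Module

variable {F : Type*} [Field F] {G : Type*} [Group G] {V V' : Type*} [AddCommGroup V] [Module F V]
  [AddCommGroup V'] [Module F V'] {ρ : Representation F G V} {ρ' : Representation F G V'}
  [Finite G] [FiniteDimensional F V] [FiniteDimensional F V']

variable {z s σ x : G} {Q Q' : Subgroup G} {φ : centralizer ({z} : Set G) →* Stab vU}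
  {cls : leechLattice → G → Prop}

omit [Finite G] [FiniteDimensional F V] in
theorem z0_rep (M : Bab z Q φ cls) (ρ : Representation F G V) :
    ∃ ρ₀ : Representation F (Stab vU) (Fx ρ Q), ∀ (c : centralizer ({z} : Set G)) (v : Fx ρ Q),
      (ρ₀ (φ c) v : V) = ρ c v := by
  have inv : ∀ c : centralizer ({z} : Set G), ∀ v ∈ Fx ρ Q, ρ c v ∈ Fx ρ Q := fun c v hv =>
    Wt.conj hv _ fun b hb => ⟨by
      have : φ (c⁻¹ * ⟨b, mem_cent_iff.2 (M.h.central b hb)⟩ * c) = 1 := by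
        rw [map_mul, map_mul, (M.ker ⟨b, _⟩).2 hb, mul_one, ← map_mul, inv_mul_cancel, map_one]
      exact (M.ker _).1 this, rfl⟩
  let ψ : centralizer ({z} : Set G) →* Module.End F (Fx ρ Q) :=
    { toFun := fun c => (ρ c).restrict (inv c)
      map_one' := LinearMap.ext fun v => Subtype.ext (by simp)
      map_mul' := fun a b => LinearMap.ext fun v => Subtype.ext (by simp) }
  have hk : φ.ker ≤ ψ.toHomUnits.ker := fun c hc => Units.ext (LinearMap.ext fun v =>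
    Subtype.ext (mem_Fx.1 v.2 c ((M.ker c).1 hc)))
  refine ⟨(Units.coeHom _).comp (φ.liftOfSurjective M.surj ⟨ψ.toHomUnits, hk⟩), fun c v => ?_⟩
  rw [MonoidHom.comp_apply, MonoidHom.liftOfRightInverse_comp_apply]
  rfl

variable (h2 : (2 : F) ≠ 0) (B : Bs z s σ x Q Q' φ cls) (D : Dm ρ z Q cls) (D' : Dm ρ' z Q cls)
include h2 B D D'

theorem Bs.exists_iw0 (hd : finrank F V ≤ 4371) (hd' : finrank F V' ≤ 4371) :
    finrank F V = 4371 ∧ ∃ f, Iw ρ ρ' z Q f := by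
  obtain ⟨r, hr⟩ := z0_rep B.M ρ
  obtain ⟨r', hr'⟩ := z0_rep B.M ρ'
  have t := D.tot
  have t' := D'.tot
  obtain ⟨c, hc, v, hv, n⟩ := B.nontriv h2 D
  obtain ⟨c', hc', v', hv', n'⟩ := B.nontriv h2 D'
  obtain ⟨e, f₀, i, q⟩ := co2_rep (ρ := r) (ρ' := r') h2 (by omega) (by omega)
    ⟨φ ⟨c, mem_cent_iff.2 hc⟩, ⟨v, hv⟩, fun e => n ((hr _ _).symm.trans (congrArg Subtype.val e))⟩
    ⟨φ ⟨c', mem_cent_iff.2 hc'⟩, ⟨v', hv'⟩, fun e => n' ((hr' _ _).symm.trans (congrArg Subtype.val e))⟩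
  obtain ⟨f, hf⟩ := LinearMap.exists_extend ((Fx ρ' Q).subtype ∘ₗ f₀)
  have k : ∀ w : Fx ρ Q, f w = f₀ w := fun w => LinearMap.congr_fun hf w
  refine ⟨by omega, f, fun a ha w hw => ?_, fun w hw e => ?_⟩
  · have := congrArg Subtype.val (mem_Yg.1 (q (φ ⟨a, mem_cent_iff.2 ha⟩) ⟨w, hw⟩))
    rw [hr', ← k, ← k, hr] at this
    exact this
  · have : f₀ ⟨w, hw⟩ = f₀ 0 := Subtype.ext (by rw [← k, map_zero]; exact e)
    exact congrArg Subtype.val (i this)

end H95.B4
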