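import Cfsg.Agent.Lib.B43.Wd
import Cfsg.Agent.Lib.B43.Z0
import Cfsg.Agent.Lib.B43.Hom
import Cfsg.Agent.Lib.B43.Top
import Cfsg.Agent.Lib.B43.Phi
import Cfsg.Agent.Lib.B43.Hs

/-! Uniqueness of the representation of degree 4371. -/

set_option autoImplicit false

namespace H95.B4

open Cfsg Subgroup H15 H16 H48.BR H7.ML Module

variable {F : Type*} [Field F] {G : Type*} [Group G] {V V' : Type*} [AddCommGroup V] [Module F V]
  [AddCommGroup V'] [Module F V'] {ρ : Representation F G V} {ρ' : Representation F G V'}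

/-- the elements that commute with `f` on an invariant subspace -/
def Eqv (ρ : Representation F G V) (ρ' : Representation F G V') (f : V →ₗ[F] V') (U : Submodule F V) :
    Subgroup G where
  carrier := {g | (∀ v, v ∈ U ↔ ρ g v ∈ U) ∧ U ≤ Yg ρ ρ' f g}
  one_mem' := ⟨fun v => by simp, fun v _ => by simp [mem_Yg]⟩
  mul_mem' := fun {g h} a b => ⟨fun v => by rw [rep_mul, ← a.1, ← b.1], fun v hv =>
    Yg.mul (b.2 hv) (a.2 ((b.1 v).1 hv))⟩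
  inv_mem' := fun {g} a => by
    have k : ∀ v, v ∈ U ↔ ρ g⁻¹ v ∈ U := fun v => by rw [a.1 (ρ g⁻¹ v), rep_inv']
    exact ⟨k, fun v hv => Yg.inv (a.2 ((k v).1 hv))⟩

theorem Ng_cent {z c : G} (h : c * z = z * c) (v : V) : v ∈ Ng ρ z ↔ ρ c v ∈ Ng ρ z := by
  rw [mem_Ng, mem_Ng, ← rep_mul, ← h, rep_mul, ← map_neg]
  refine ⟨fun e => by rw [e], fun e => ?_⟩
  rw [← rep_inv ρ c (ρ z v), e, rep_inv]

theorem comm_le_Eqv {f : V →ₗ[F] V'} {U : Submodule F V} {C : Subgroup G}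
    (inv : ∀ c ∈ C, ∀ v, v ∈ U ↔ ρ c v ∈ U)
    (h : ∀ c ∈ C, ∃ a : F, ∀ v ∈ U, f (ρ c v) = a • ρ' c (f v)) : ⁅C, C⁆ ≤ Eqv ρ ρ' f U := by
  refine commutator_le.2 fun c hc d hd => ?_
  rw [commutatorElement_def]
  have m : c * d * c⁻¹ * d⁻¹ ∈ C := C.mul_mem (C.mul_mem (C.mul_mem hc hd) (C.inv_mem hc)) (C.inv_mem hd)
  refine ⟨inv _ m, fun v hv => ?_⟩
  obtain ⟨a, ha⟩ := h c hc
  obtain ⟨b, hb⟩ := h d hd
  have k : c * d * c⁻¹ * d⁻¹ * (d * c) = c * d := by group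
  set u := ρ (d * c)⁻¹ v with hu
  have u1 : u ∈ U := (inv _ (C.inv_mem (C.mul_mem hd hc)) v).1 hv
  have u2 : ρ (d * c) u = v := by rw [hu, rep_inv']
  have f1 : f v = (a * b) • ρ' (d * c) (f u) := by
    rw [← u2, rep_mul, hb _ ((inv c hc u).1 u1), ha u u1, map_smul, smul_smul, mul_comm b, rep_mul]
  have f2 : f (ρ (c * d * c⁻¹ * d⁻¹) v) = (a * b) • ρ' (c * d) (f u) := by
    rw [← u2, ← rep_mul, k, rep_mul, ha _ ((inv d hd u).1 u1), hb u u1, map_smul, smul_smul, rep_mul]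
  rw [mem_Yg, f2, f1, map_smul, ← rep_mul, k]

variable [Finite G] [FiniteDimensional F V] [FiniteDimensional F V']
  {z s σ x : G} {Q Q' : Subgroup G} {φ : centralizer ({z} : Set G) →* Stab vU}
  {cls : leechLattice → G → Prop}

theorem Bs.finrank_eq (h2 : (2 : F) ≠ 0) (B : Bs z s σ x Q Q' φ cls) (hd : finrank F V ≤ 4371)
    (n : ρ z ≠ 1) : finrank F V = 4371 :=
  (B.exists_iw0 h2 (B.dm h2 hd n) (B.dm h2 hd n) hd hd).1

theorem Bs.exists_iso (h2 : (2 : F) ≠ 0) (B : Bs z s σ x Q Q' φ cls)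
    (gen : ∀ H : Subgroup G, centralizer {z} ≤ H → σ ∈ H → H = ⊤) (hd : finrank F V ≤ 4371)
    (hd' : finrank F V' ≤ 4371) (n : ρ z ≠ 1) (n' : ρ' z ≠ 1) :
    ∃ Φ : V →ₗ[F] V', Function.Injective Φ ∧ ∀ g v, Φ (ρ g v) = ρ' g (Φ v) := by
  have D := B.dm h2 hd n
  have D' := B.dm h2 hd' n'
  obtain ⟨-, f₀, I₀⟩ := B.exists_iw0 h2 D D' hd hd'
  obtain ⟨b, hb, bz, bx⟩ := B.exists_b
  obtain ⟨f, I, hy⟩ := B.exists_iw h2 D D' I₀ hb bz bx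
  obtain ⟨τ, hτ, τs⟩ := B.p.h.exists_conj B.p.sQ B.p.h'.ne_one B.p.ne
  obtain ⟨Φ, Φf, inj, Φσ, Φn⟩ := exists_Phi h2 B.p.h.sq B.p.h'.sq B.p.zs B.tau.zs B.tau.sz
    (B.p.h.central τ hτ) τs I (B.pp_le h2 D D' I hb bz bx hy)
  have hQ : ∀ q ∈ Q, ∀ v, v ∈ Yg ρ ρ' Φ q := fun q hq =>
    Φn q (B.p.h.central q hq) (B.p.h.conj B.p.sQ hq)
  have inj' : ∀ v ∈ Ng ρ z, Φ v = 0 → v = 0 := fun v _ e => inj (by rw [e, map_zero])
  have cz : ∀ c ∈ centralizer ({z} : Set G), c * z = z * c := fun c hc => mem_cent_iff.1 hc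
  have hN : centralizer {z} ≤ Eqv ρ ρ' Φ (Ng ρ z) := by
    refine (perfect_C B.M).trans (sup_le (fun q hq => ⟨Ng_cent (B.p.h.central q hq), fun v _ => hQ q hq v⟩)
      (comm_le_Eqv (fun c hc => Ng_cent (cz c hc)) fun c hc => ?_))
    have nq := B.p.h.norm c (cz c hc)
    obtain ⟨a, ha⟩ := es_schur (ρ := ρ) (ρ' := ρ') (d := 2048) h2 B.p.h.toES (by rw [B.M.card]; norm_num)
      (by rw [show ((2048 : ℕ) : F) = 2 ^ 11 by norm_num]; exact pow_ne_zero _ h2) D.neg D'.neg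
      (f := Φ) (g := ρ' c⁻¹ ∘ₗ Φ ∘ₗ ρ c) (fun q hq v _ => hQ q hq v) (fun q hq v _ => by
        have := mem_Yg.1 (hQ _ (conj_mem_of_normalizer nq hq) (ρ c v))
        rw [← rep_mul, inv_mul_cancel_right, rep_mul] at this
        simp only [mem_Yg, LinearMap.comp_apply]
        rw [this, ← rep_mul, ← rep_mul]
        congr 2
        group) inj'
    exact ⟨a, fun v hv => by
      rw [← map_smul, ← ha v hv]
      exact (rep_inv' ρ' c _).symm⟩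
  have := gen (Eqv ρ ρ' Φ ⊤) (fun c hc => ⟨fun v => by simp, fun v _ => ?_⟩)
    ⟨fun v => by simp, fun v _ => Φσ v⟩
  · exact ⟨Φ, inj, fun g v => ((this ▸ mem_top g : g ∈ Eqv ρ ρ' Φ ⊤).2 Submodule.mem_top :)⟩
  · refine (sup_le (fun u hu => ?_) fun u hu => (hN hc).2 hu.2 :
      (⊤ ⊓ Fx ρ {z}) ⊔ (⊤ ⊓ Ng ρ z) ≤ Yg ρ ρ' Φ c)
        (split_mem (ρ := ρ) (U := ⊤) h2 B.p.h.sq (fun _ _ => Submodule.mem_top) Submodule.mem_top)
    have : ρ c u ∈ Fx ρ {z} := mem_Fx1.2 (by rw [← rep_mul, ← cz c hc, rep_mul, mem_Fx1.1 hu.2])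
    rw [mem_Yg, Φf _ this, Φf _ hu.2]
    exact I.eqv c (cz c hc) hu.2

theorem eqns_Fin : True := by
  have := @Eqv.eq_1.{0, 0, 0, 0}
  trivial

end H95.B4
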