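import Cfsg.Agent.Lib.B43.Defs
import Cfsg.Agent.Lib.BRec.Mod
import Cfsg.Agent.Lib.MonOrd.GenB

/-! The standard configuration in the Baby Monster. -/

set_option autoImplicit false

namespace H95.B4

open Cfsg Subgroup H15 H16 H48.BR H7.ML Module H95.Gr

theorem Gen_lift {d : BM} (hd : d ∈ centralizer ({piB ⟨zA, z_mem⟩} : Set BM)) {k : HH} (e : piB k = d) :
    k.1 * zA = zA * k.1 := by
  have hk := mem_cent_iff.1 hd
  rw [← e, ← map_mul, ← map_mul, quot_eq_iff] at hk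
  exact es_QQ.comm_of_mod t0_mem ix_t0.ne_one t0_sq not_conj_z hk

theorem Gen_card : Nat.card (((QQ ℝ ⊓ HH).subgroupOf HH).map piB) = 2 ^ 23 := by
  have h1 := card_quot_invol (P := QQ ℝ ⊓ HH) inf_le_right ⟨t0_mem, self_mem_cent t0⟩
    (orderOf_eq_two_of t0_sq ix_t0.ne_one)
  have h2 := es_QQ.card_centralizer t0_mem ix_t0.ne_one fun e => not_iz ix_t0 (e ▸ iz_z)
  rw [card_QQ, ← h1] at h2
  exact Nat.eq_of_mul_eq_mul_right (m := 2 * 2) (by norm_num) (by rw [← mul_assoc, h2]; norm_num)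

theorem Gen_bab : ∃ φ cls, Bab (piB ⟨zA, z_mem⟩) (((QQ ℝ ⊓ HH).subgroupOf HH).map piB) φ cls := by
  obtain ⟨θ, θsurj, hθ⟩ := mon.exists_theta cls_t0
  have θker : ∀ h, θ h = 1 ↔ (h : GG) ∈ QQ ℝ := fun h => by
    rw [← mon.ker ⟨h, h.2.1⟩, ← hθ]
    exact ⟨fun e => by rw [e]; rfl, fun e => stab_inj e⟩
  let μ : (centralizer ({zA} : Set GG) ⊓ HH : Subgroup GG) →* centralizer ({piB ⟨zA, z_mem⟩} : Set BM) :=
    (piB.comp (inclusion inf_le_right)).codRestrict _ fun h => mem_cent_iff.2 (by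
      rw [MonoidHom.comp_apply, ← map_mul, ← map_mul]
      exact congrArg piB (Subtype.ext (mem_cent_iff.1 h.2.1)))
  have μsurj : Function.Surjective μ := by
    rintro ⟨d, hd⟩
    obtain ⟨k, rfl⟩ := QuotientGroup.mk'_surjective _ d
    exact ⟨⟨k, mem_cent_iff.2 (Gen_lift hd rfl), k.2⟩, rfl⟩
  have hzt : zpowers t0 ≤ QQ ℝ := by simpa using t0_mem
  let θ' := μ.liftOfSurjective μsurj ⟨θ, fun h hh => (θker h).2 (hzt (mem_ker_quot.1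
    (congrArg Subtype.val hh)))⟩
  have hθ' : ∀ h, θ' (μ h) = θ h := fun h => MonoidHom.liftOfRightInverse_comp_apply _ _ _ _ h
  refine ⟨θ', H96.BMod.exists_bab l3_BM Gen_card (fun y => ?_) fun c => ?_⟩
  · obtain ⟨h, rfl⟩ := θsurj y
    exact ⟨_, hθ' h⟩
  · obtain ⟨h, rfl⟩ := μsurj c
    rw [hθ', θker]
    refine ⟨fun e => ⟨⟨h, h.2.2⟩, ⟨e, h.2.2⟩, rfl⟩, ?_⟩
    rintro ⟨k, hk, e⟩
    have := hzt (quot_eq_iff.1 e)
    exact ((QQ ℝ).mul_mem_cancel_left ((QQ ℝ).inv_mem hk.1)).1 this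

theorem Gen_conj : ∃ g : BM, g * piB ⟨zA, z_mem⟩ * g⁻¹ ∈ ((QQ ℝ ⊓ HH).subgroupOf HH).map piB ∧
    g * piB ⟨zA, z_mem⟩ * g⁻¹ ≠ piB ⟨zA, z_mem⟩ := by
  obtain ⟨s, d, x, a1, a2, a3, a4, a5, -⟩ := exists_s0
  have hs : s ∈ HH := by
    have := mul_mem (mul_mem (inv_mem a4) z_mem) a4
    rwa [← a5, cj_apply, ← mul_assoc, ← mul_assoc, inv_mul_cancel, one_mul,
      inv_mul_cancel_right] at this
  have e : (piB ⟨d, a4⟩)⁻¹ * piB ⟨zA, z_mem⟩ * (piB ⟨d, a4⟩)⁻¹⁻¹ = piB ⟨s, hs⟩ := by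
    rw [inv_inv, ← map_inv, ← map_mul, ← map_mul]
    exact congrArg piB (Subtype.ext (by simp [← a5, mul_assoc]))
  refine ⟨(piB ⟨d, a4⟩)⁻¹, by rw [e]; exact ⟨_, ⟨a1, hs⟩, rfl⟩, ?_⟩
  rw [e, Ne, eq_comm, quot_eq_iff, mem_zpowers_iff_of_sq t0_sq]
  simp only [inv_mul_eq_iff_eq_mul, mul_one]
  tauto

theorem Gen_gen {σ : BM} (h1 : σ * piB ⟨zA, z_mem⟩ * σ⁻¹ ∈ ((QQ ℝ ⊓ HH).subgroupOf HH).map piB)
    (h2 : σ * piB ⟨zA, z_mem⟩ * σ⁻¹ ≠ piB ⟨zA, z_mem⟩) (H : Subgroup BM)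
    (hc : centralizer {piB ⟨zA, z_mem⟩} ≤ H) (hσ : σ ∈ H) : H = ⊤ := by
  obtain ⟨c, rfl⟩ := QuotientGroup.mk'_surjective _ σ
  rw [← map_inv, ← map_mul, ← map_mul] at h1 h2
  have hzt : zpowers t0 ≤ QQ ℝ := by simpa using t0_mem
  have e : (H.comap piB).map HH.subtype = HH := by
    refine gen_HH (Subgroup.map_subtype_le _) (fun u hu => ⟨⟨u, hu.2⟩, hc (mem_cent_iff.2 ?_), rfl⟩)
      ⟨c, ⟨c, hσ, rfl⟩, ?_, fun e => h2 (congrArg piB (Subtype.ext e)), fun e => h2 ?_⟩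
    · rw [← map_mul, ← map_mul]
      exact congrArg piB (Subtype.ext (mem_cent_iff.1 hu.1))
    · obtain ⟨k, hk, e⟩ := h1
      exact ((QQ ℝ).mul_mem_cancel_left ((QQ ℝ).inv_mem hk.1)).1 (hzt (quot_eq_iff.1 e))
    · refine (quot_eq_iff.2 ?_).symm
      change zA⁻¹ * cj c zA ∈ _
      rw [e, inv_mul_cancel_left]
      exact mem_zpowers _
  refine eq_top_iff.2 fun y _ => ?_
  obtain ⟨u, rfl⟩ := QuotientGroup.mk'_surjective _ y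
  obtain ⟨v, hv, f⟩ := e.ge u.2
  exact Subtype.ext f ▸ hv

theorem exists_bs : ∃ (z s σ x : H95.Gr.BM) (Q Q' : Subgroup H95.Gr.BM)
    (φ : centralizer ({z} : Set H95.Gr.BM) →* Stab vU) (cls : leechLattice → H95.Gr.BM → Prop),
    Bs z s σ x Q Q' φ cls ∧ ∀ H : Subgroup H95.Gr.BM, centralizer {z} ≤ H → σ ∈ H → H = ⊤ := by
  obtain ⟨φ, cls, M⟩ := Gen_bab
  obtain ⟨g, h1, h2⟩ := Gen_conj
  obtain ⟨c, hc⟩ := M.exists_frame h1 (isConj_of_conj rfl) h2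
  rw [show ∀ z : BM, c * (g * z * g⁻¹) * (c : BM)⁻¹ = c * g * z * (c * g)⁻¹ from fun z => by group] at hc
  have n : c * g * piB ⟨zA, z_mem⟩ * (c * g)⁻¹ ≠ piB ⟨zA, z_mem⟩ := fun f => h2 (by
    calc _ = (c : BM)⁻¹ * (c * g * piB ⟨zA, z_mem⟩ * (c * g)⁻¹) * c := by group
      _ = _ := by rw [f, mul_assoc, ← mem_cent_iff.1 c.2, inv_mul_cancel_left])
  have p := M.pair (M.mem hc) n
  obtain ⟨σ, T⟩ := exists_tau p
  obtain ⟨x, hx⟩ := M.ex_elt vX (by rw [Pp, dotInt_comm, dot_UX])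
  exact ⟨_, _, σ, x, _, _, φ, cls, ⟨M, hc, p, M.card_conj _, T, hx⟩,
    Gen_gen (by rw [T.zs]; exact p.sQ) (by rw [T.zs]; exact n)⟩

end H95.B4
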