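import Cfsg.Agent.Lib.B43.Pl
import Cfsg.Agent.Lib.B43.Gl
import Cfsg.Agent.Lib.B43.HH

/-! The intertwiner commutes with the swap on the hexad weight spaces. -/

set_option autoImplicit false
set_option linter.unusedSectionVars false

namespace H95.B4

open Cfsg Subgroup H15 H16 H48.BR H7.ML Module HH

variable {F : Type*} [Field F] {G : Type*} [Group G] {V V' : Type*} [AddCommGroup V] [Module F V]
  [AddCommGroup V'] [Module F V'] {ρ : Representation F G V} {ρ' : Representation F G V'}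
  [Finite G] [FiniteDimensional F V] [FiniteDimensional F V']

variable {z s σ x : G} {Q Q' : Subgroup G} {φ : centralizer ({z} : Set G) →* Stab vU}
  {cls : leechLattice → G → Prop}
  (h2 : (2 : F) ≠ 0) (B : Bs z s σ x Q Q' φ cls) (D : Dm ρ z Q cls) (D' : Dm ρ' z Q cls)

namespace Hex

include h2 in
theorem wt_le (p : Pair Q Q' z s) {χ : G → F} (cz : χ z = 1) (cs : χ s = 1)
    (ca : ∃ a ∈ Q ⊓ Q', χ a ≠ 1) :
    Wt ρ (Q ⊓ Q' : Subgroup G) χ ≤ ⨆ y : {y // HxG s Q Q' y}, W ρ Q y := by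
  have hz : ∀ v ∈ Wt ρ (Q ⊓ Q' : Subgroup G) χ, ρ z v = v := fun v hv => by
    rw [hv z ⟨p.h.mem, p.zQ⟩, cz, one_smul]
  refine le_of_W h2 p.h.toES (fun v hv => mem_Fx1.2 (hz v hv)) (fun q hq v hv a ha => ?_)
    fun y hy v hv k => ?_
  · have e : ρ (q⁻¹ * a * q⁻¹⁻¹) v = χ a • v := by
      rcases p.h.conj ha.1 (inv_mem hq) with e | e <;> rw [e]
      exacts [hv a ha, by rw [rep_mul, hz v hv, hv a ha]]
    rw [← map_smul, ← e, ← rep_mul, ← rep_mul]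
    congr 2
    group
  · by_cases v0 : v = 0
    · exact v0 ▸ zero_mem _
    have e : ∀ a ∈ Q ⊓ Q', χ a = ee F y a := fun a ha => by
      by_contra n
      exact v0 (Wt.eq_zero hv (Wt.mono k fun _ h => h.1) ha n)
    obtain ⟨a, ha, n⟩ := ca
    refine Submodule.mem_iSup_of_mem ⟨y, hy, ?_, a, ha, fun c => n ((e a ha).trans (sg_pos c))⟩ k
    exact ((sg_inj h2 ((sg_pos trivial).trans (cs.symm.trans (e s ⟨p.sQ, p.h'.mem⟩)))).1 trivial).symm

include h2 in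
theorem inv (p : Pair Q Q' z s) {t : G} (ht : t ∈ Q ⊔ Q') {v : V}
    (hv : v ∈ ⨆ y : {y // HxG s Q Q' y}, W ρ Q y) : ρ t v ∈ ⨆ y : {y // HxG s Q Q' y}, W ρ Q y := by
  refine Submodule.mem_comap.1 ((iSup_le fun y v hv => ?_ : _ ≤ Submodule.comap (ρ t) _) hv)
  obtain ⟨y, hy, ys, a, ha, n⟩ := y
  have c : ∀ u ∈ closure ({z, s} : Set G), ee F y (t⁻¹ * u * t) = 1 := fun u hu => sg_pos
    (mem_centralizer_closure_pair.2 ⟨p.h.central y hy, ys⟩ _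
      (conj_mem_of_normalizer' (p.X_le_normalizer_V ht) hu))
  refine wt_le h2 p (χ := fun a => ee F y (t⁻¹ * a * t)) (c z (Pair.z_mem_V z s))
    (c s (Pair.s_mem_V z s)) ⟨_, p.conj_mem_E ht ha, fun e => n ?_⟩
    (Wt.conj hv t fun b hb => ⟨by simpa using (p.conj_mem_E (inv_mem ht) hb).1, rfl⟩)
  rw [show t⁻¹ * (t * a * t⁻¹) * t = a by group] at e
  exact (sg_inj h2 ((sg_pos trivial).trans e.symm)).1 trivial

include B D in
theorem tw {y : G} (hy : HxG s Q Q' y) {v : V} (hv : v ∈ W ρ Q y) (v0 : v ≠ 0) : TwG cls y := by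
  obtain ⟨yQ, -, a, ha, n⟩ := hy
  rcases D.supp y yQ (fun e => v0 ((Submodule.mem_bot F).1 (e ▸ hv))) with rfl | e | t
  exacts [absurd (by simp) n, absurd (e ▸ B.p.h.central a ha.1) n, t]

end Hex

include h2 B D D'

open Hex in
theorem Bs.hex_le {f : V →ₗ[F] V'} (I : Iw ρ ρ' z {z} f) {y : G} (hy : HxG s Q Q' y) :
    W ρ Q y ≤ Yg ρ ρ' f σ := by
  intro v hv
  by_cases v0 : v = 0
  · exact v0 ▸ zero_mem _
  have E := B.p.h.toES
  have t := tw B D hy hv v0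
  have vz := W_le E hy.1 hv
  have m : ρ σ v ∈ Fx ρ {z} := by
    rw [mem_Fx1, ← B.tau.sz, ← rep_mul, inv_mul_cancel_right, rep_mul, hv s B.p.sQ,
      show ee F y s = 1 from sg_pos hy.2.1.symm, one_smul]
  have eq0 := fun c (hc : c * s = s * c) => tw_eqv I B.tau m hc
  set h := ρ' σ⁻¹ ∘ₗ f ∘ₗ ρ σ with hh
  have m1 : h v ∈ W ρ' (Q ⊓ centralizer {s}) y :=
    Wt.map (W_cent (Submodule.mem_sup_left hv)) fun a ha => eq0 a (mem_cent_iff.1 ha.2)
  have m2 := wt_cent h2 E B.p.sQ B.p.h'.sq hy.1 (by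
    rw [m1 z ⟨E.mem, mem_cent_iff.2 B.p.zs⟩, show ee F y z = 1 from sg_pos (E.central y hy.1).symm,
      one_smul]) m1
  have n := B.hx_s t hy
  have e0 : W ρ' Q (y * s) = ⊥ := by
    by_contra e
    rcases D'.supp _ (mul_mem hy.1 B.p.sQ) e with e | e | e
    exacts [n.2.1 e, n.2.2 e, n.1 e]
  rw [e0, sup_bot_eq] at m2
  obtain ⟨a, ha⟩ := exists_smul_of_line (D'.one y t).le
    (Wt.map hv fun q hq => I.eqv q (E.central q hq) vz) (mt (I.inj v vz) v0) m2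
  have hX : (⨆ y : {y // HxG s Q Q' y}, W ρ Q y) ≤ LinearMap.eqLocus h (a • f) := by
    refine iSup_le fun y' u hu => ?_
    by_cases u0 : u = 0
    · exact u0 ▸ zero_mem _
    obtain ⟨k, kz, ks, e⟩ := B.hx_trans t hy (tw B D y'.2 hu u0) y'.2
    obtain ⟨c, rfl⟩ := line B.M D t hv v0 kz (e ▸ hu)
    refine Submodule.smul_mem _ c ?_
    show h (ρ k v) = a • f (ρ k v)
    rw [mem_Yg.1 (eq0 k ks), ha, map_smul, mem_Yg.1 (I.eqv k kz vz)]
  have Xz : (⨆ y : {y // HxG s Q Q' y}, W ρ Q y) ≤ Fx ρ {z} := iSup_le fun y' => W_le E y'.2.1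
  obtain ⟨τ, hτ, eτ⟩ := E.exists_conj B.p.sQ B.p.h'.ne_one B.p.ne
  have τm : τ ∈ Q ⊔ Q' := mem_sup_left hτ
  have mm := mul_mem τm B.tau.mem
  refine glue3 (τ := τ) (c := (τ * σ)⁻¹ * (σ * (τ * σ))) (a := a) (mul_inv_cancel_left _ _).symm
    (fun u hu => ⟨inv h2 B.p B.tau.mem hu, inv h2 B.p τm hu,
      inv h2 B.p (mul_mem (inv_mem mm) (mul_mem B.tau.mem mm)) hu⟩)
    (Xz.trans (I.eqv τ (E.central τ hτ))) (Xz.trans (I.eqv _ ?_)) (fun u hu => I.inj u (Xz hu))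
    (fun u hu => ?_) (Submodule.mem_iSup_of_mem ⟨y, hy⟩ hv)
  · have e1 : τ * σ * z * (τ * σ)⁻¹ = s * z := by rw [← eτ, ← B.tau.zs]; group
    have e2 : σ * (s * z) * σ⁻¹ = s * z := by rw [← conj_mul, B.tau.zs, B.tau.sz, B.p.zs]
    calc _ = (τ * σ)⁻¹ * (σ * (τ * σ * z * (τ * σ)⁻¹) * σ⁻¹) * (σ * (τ * σ)) := by group
      _ = (τ * σ)⁻¹ * (τ * σ * z * (τ * σ)⁻¹) * (σ * (τ * σ)) := by rw [e1, e2]
      _ = _ := by group
  · have e : ρ' σ⁻¹ (f (ρ σ u)) = a • f u := hX hu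
    rw [← map_smul, ← e, rep_inv']

end H95.B4
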