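import Cfsg.Agent.Lib.B43.OrbB

/-! The monomial subgroup of the second Conway group. -/

set_option autoImplicit false

namespace H95.B4

open Cfsg Subgroup H15 H16 H48.BR H7.ML Module
open scoped Pointwise symmDiff

variable {m e : Stab vU}

theorem mem_MM : m ∈ MM ↔ Cu ((m : Co0) • e8 none) (e8 none) := by
  refine mem_monoGroup_iff_cg.trans ⟨Or.inl, fun h => h.resolve_right fun e => ?_⟩
  have n1 : sqNorm (((m : Co0) • e8 none : leechLattice) : GolayPt → ℤ) = 64 :=
    (sqNorm_co0 _ _).trans (sqNorm_e8 _)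
  have n2 := norm_UP
  have := ((cg_UU _).symm.trans ((e.add (Cg.refl vU)).trans H99.BC.cg_e8_U)).norm_eq (by omega) (by omega)
  omega

theorem EE_le : EE ≤ MM := fun _ h => epsGroup_le h

theorem Mo_mem_S2 {γ : Stab vU} : γ ∈ S2 ↔ (γ : Co0) • vX = vX ∨ (γ : Co0) • vX = vU - vX :=
  ⟨fun h => (tw_X.cu (tw_X.smul γ)).1 (Cu.symm h), fun h => Cu.symm ((tw_X.cu (tw_X.smul γ)).2 h)⟩

theorem Mo_perfect : commutator ↥(Stab vU ⊓ Stab vX) = ⊤ := by
  obtain ⟨e⟩ := Cfsg.Agent.S1577.base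
  have : H11.U.IsSq H30.F4 2 := ⟨rfl⟩
  have : IsSimpleGroup (PSU 6 H30.F4 2) := H11.U.isSimpleGroup_PSU (by omega) (by omega)
  have := e.isSimpleGroup
  refine (commutator_normal (⊤ : Subgroup ↥(Stab vU ⊓ Stab vX)) ⊤).eq_bot_or_eq_top.resolve_left fun h => ?_
  have c := (commutator_eq_bot_iff _).1 h
  let _ : CommGroup ↥(Stab vU ⊓ Stab vX) := { mul_comm := c.is_comm.comm }
  have := IsSimpleGroup.prime_card (α := ↥(Stab vU ⊓ Stab vX))
  rw [card_U62] at this
  exact absurd this (by norm_num)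

theorem Mo_fix {γ : Stab vU} (h : (γ : Co0) • vX = vX) : γ ∈ ⁅S2, S2⁆ := by
  have k : map (inclusion (inf_le_left : Stab vU ⊓ Stab vX ≤ Stab vU)) ⊤ ≤ S2 := by
    rintro _ ⟨x, -, rfl⟩
    exact Mo_mem_S2.2 (Or.inl x.2.2)
  refine commutator_mono k k ?_
  rw [← map_commutator]
  exact ⟨⟨γ, γ.2, h⟩, (Mo_perfect.ge (mem_top _) :), rfl⟩

theorem Mo_swap : ∃ m : Stab vU, m ∈ MM ∧ (m : Co0) • vX = vU - vX := by
  obtain ⟨σ, hσ, s1, s2, s3⟩ := M24_trans3 (a := none) (b := some 0) (c := some 1) (a' := some 0)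
    (b' := none) (c' := some 1) (by decide) (by decide) (by decide) (by decide) (by decide) (by decide)
  obtain ⟨c, hc, f⟩ := exists_code_inter_eq_of_card_lt {none, some 0, some 1} {some 1} (by decide)
    (by decide)
  have g : ∀ p ∈ ({none, some 0, some 1} : Finset GolayPt), p ∈ c ↔ p = some 1 := fun p hp => by
    rw [← Finset.mem_singleton, ← f, Finset.mem_inter, and_iff_left hp]
  have c1 : none ∉ c := fun h => absurd ((g _ (by decide)).1 h) (by decide)
  have c2 : some 0 ∉ c := fun h => absurd ((g _ (by decide)).1 h) (by decide)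
  have c3 : some 1 ∈ c := (g _ (by decide)).2 rfl
  have t1 : ∀ p, σ p = none ↔ p = some 0 := fun p => by rw [← s2, σ.apply_eq_iff_eq]
  have t2 : ∀ p, σ p = some 0 ↔ p = none := fun p => by rw [← s1, σ.apply_eq_iff_eq]
  have t3 : ∀ p, σ p = some 1 ↔ p = some 1 := fun p => by
    conv_lhs => rw [← s3, σ.apply_eq_iff_eq]
  have n1 : (some 0 : GolayPt) ≠ some 1 := by decide
  refine ⟨⟨mono σ hσ c hc, Subtype.ext (funext fun q => ?_)⟩, mono_mem hσ hc,
    Subtype.ext (funext fun q => ?_)⟩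
  · obtain ⟨p, rfl⟩ := σ.surjective q
    rw [mono_smul_apply, coe_U]
    simp only [v44_apply, t1, t2]
    by_cases a : p = none
    · subst a; simp [s1, c2]
    by_cases b : p = some 0
    · subst b; simp [s2, c1]
    simp [a, b]
  · obtain ⟨p, rfl⟩ := σ.surjective q
    rw [mono_smul_apply, AddSubgroup.coe_sub, Pi.sub_apply, coe_U, coe_X]
    simp only [v44_apply, t1, t2, t3]
    by_cases a : p = none
    · subst a; simp [s1, c2]
    by_cases b : p = some 1
    · subst b; simp [s3, c3, n1.symm]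
    simp [a, b]

theorem gen_S2 : S2 ≤ S2 ⊓ MM ⊔ ⁅S2, S2⁆ := by
  intro γ h
  rcases Mo_mem_S2.1 h with f | f
  · exact mem_sup_right (Mo_fix f)
  obtain ⟨m, hm, g⟩ := Mo_swap
  rw [← mul_inv_cancel_left m γ]
  refine mul_mem (mem_sup_left ⟨Mo_mem_S2.2 (Or.inr g), hm⟩) (mem_sup_right (Mo_fix ?_))
  rw [coe_mul, mul_smul, coe_inv, inv_smul_eq_iff, f, g]

theorem Mo_pow (σ : M24) {c : Finset GolayPt} (hc : c ∈ code) (n : ℕ) : ∃ d, ∃ hd : d ∈ code,
    (eps c hc * permHom σ) ^ n = eps d hd * permHom (σ ^ n) := by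
  induction n with
  | zero => exact ⟨∅, empty_mem_code, by rw [pow_zero, pow_zero, map_one, eps_empty, mul_one]⟩
  | succ n ih =>
    obtain ⟨d, hd, e⟩ := ih
    refine ⟨_, symmDiff_mem_code hc (smul_mem_code σ.2 hd), ?_⟩
    rw [pow_succ', e, mul_assoc, ← mul_assoc (permHom σ), permHom_mul_eps, ← mul_assoc, ← mul_assoc,
      eps_mul_eps, mul_assoc, ← map_mul, pow_succ']

theorem Mo_in : inM24 978289636785493425670457391024714784 = true := by decide +kernel

theorem Mo_empty {d : Finset GolayPt} (hd : d ∈ code)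
    (h : permOf 978289636785493425670457391024714784 • d = d) (h1 : none ∉ d) (h2 : some 0 ∉ d)
    (h3 : some 1 ∉ d) : d = ∅ := by
  obtain ⟨u, hu, rfl⟩ := exists_cw_of_mem_codeSets hd
  have ok := okP_of_inM24 Mo_in
  rw [permOf_smul ok] at h
  have k := ofMask_inj (imgM_lt ok _) (cw_lt hu) h
  have c2 : allLt2 64 64 (fun u => force (cw u) fun m => bit m 23 || (bit m 0 || (bit m 1 ||
      (Nat.beq m 0 || !(Nat.beq (imgM 978289636785493425670457391024714784 m) m))))) = true := by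
    decide +kernel
  have := allLt2_iff.1 c2 u hu
  simp only [force_eq, Bool.or_eq_true, Bool.not_eq_true', ← Bool.not_eq_true, Nat.beq_eq, bit_eq] at this
  rcases this with a | a | a | a | a
  · exact absurd (mem_ofMask.2 a) h1
  · exact absurd (mem_ofMask.2 a) h2
  · exact absurd (mem_ofMask.2 a) h3
  · rw [a, ofMask_zero]
  · exact absurd k a

theorem Mo_not_mem {d : Finset GolayPt} {hd : d ∈ code} {v : leechLattice} (h : eps d hd • v = v)
    {p : GolayPt} (hp : (v : GolayPt → ℤ) p ≠ 0) : p ∉ d := fun a => by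
  have := eps_smul_apply hd v p
  rw [h, if_pos a] at this
  omega

theorem exists_seven : ∃ π : Stab vU, (π : Co0) • vX = vX ∧ π ^ 7 = 1 ∧
    ∀ e ∈ EE, (e : Co0) • vX = vX → (e * π) ^ 7 = 1 := by
  have ok := okP_of_inM24 Mo_in
  set σ : M24 := ⟨_, permOf_mem_M24 Mo_in⟩ with hσ
  have s7 : σ ^ 7 = 1 := Subtype.ext (permOf_pow_eq_one ok (by decide +kernel))
  have s1 : (σ : Equiv.Perm GolayPt) none = none := (permOf_apply ok _).trans (by decide +kernel)
  have s2 : (σ : Equiv.Perm GolayPt) (some 0) = some 0 := (permOf_apply ok _).trans (by decide +kernel)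
  have s3 : (σ : Equiv.Perm GolayPt) (some 1) = some 1 := (permOf_apply ok _).trans (by decide +kernel)
  have t : ∀ q, (σ : Equiv.Perm GolayPt) q = q → ∀ p, (σ : Equiv.Perm GolayPt) p = q ↔ p = q :=
    fun q h p => by conv_lhs => rw [← h, Equiv.apply_eq_iff_eq]
  have hU : permHom σ • vU = vU := Subtype.ext (funext fun q => by
    obtain ⟨p, rfl⟩ := (σ : Equiv.Perm GolayPt).surjective q
    rw [permHom_smul_apply, coe_U]
    simp only [v44_apply, t _ s1, t _ s2])
  have hX : permHom σ • vX = vX := Subtype.ext (funext fun q => by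
    obtain ⟨p, rfl⟩ := (σ : Equiv.Perm GolayPt).surjective q
    rw [permHom_smul_apply, coe_X]
    simp only [v44_apply, t _ s1, t _ s3])
  refine ⟨⟨permHom σ, hU⟩, hX, Subtype.ext ?_, ?_⟩
  · rw [coe_pow, ← map_pow, s7, map_one]; rfl
  rintro ⟨_, eU⟩ ⟨c, hc, rfl⟩ eX
  obtain ⟨d, hd, f⟩ := Mo_pow σ hc 7
  rw [s7, map_one, mul_one] at f
  have dU : eps d hd • vU = vU := f ▸ pow_mem (mul_mem eU hU) 7
  have dX : eps d hd • vX = vX :=
    f ▸ pow_mem (mul_mem (show eps c hc ∈ Stab vX from eX) (show permHom σ ∈ Stab vX from hX)) 7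
  have cm : eps c hc * permHom σ * eps d hd = eps d hd * (eps c hc * permHom σ) := by
    rw [← f, ← pow_succ, ← pow_succ']
  rw [mul_assoc, permHom_mul_eps, ← mul_assoc, ← mul_assoc, mul_left_inj, eps_mul_eps, eps_mul_eps] at cm
  have k := (mono_inj cm).2
  rw [symmDiff_comm d, symmDiff_right_inj] at k
  obtain rfl := Mo_empty hd k (Mo_not_mem dU (by rw [coe_U, v44_apply]; decide))
    (Mo_not_mem dU (by rw [coe_U, v44_apply]; decide)) (Mo_not_mem dX (by rw [coe_X, v44_apply]; decide))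
  exact Subtype.ext (f.trans eps_empty)

end H95.B4
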