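import Cfsg.Agent.Lib.B43.OrbG

/-! Orbits of the second Conway group on the module of order 2 ^ 22: classes of type 3. -/

set_option autoImplicit false

namespace H95.B4

open Cfsg Subgroup H15 H16 H48.BR H7.ML Module

/-- the stabiliser of the class of `u` -/
def orb3T (u : leechLattice) : Subgroup (Stab vU) where
  carrier := {γ | Cu ((γ : Co0) • u) u}
  one_mem' := by rw [Set.mem_ofPred_eq, coe_one, one_smul]; exact Cu.refl _
  mul_mem' := fun {a b} h k => by
    rw [Set.mem_ofPred_eq, coe_mul, mul_smul]; exact (Cu.smul k a).trans h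
  inv_mem' := fun {a} h => by
    have := (Cu.smul h a⁻¹).symm
    rwa [coe_inv, inv_smul_smul] at this

theorem orb3_cnt (d : ℤ) :
    ((mclL.filter fun e => decide (-(e.1.1 + e.1.2) = d)).map Prod.snd).sum = 0 ∨
      205 ≤ ((mclL.filter fun e => decide (-(e.1.1 + e.1.2) = d)).map Prod.snd).sum := by
  by_cases h : ∃ e ∈ mclL, -(e.1.1 + e.1.2) = d
  · obtain ⟨e, he, rfl⟩ := h
    refine Or.inr ?_
    revert e
    decide
  · left
    rw [List.filter_eq_nil_iff.2 fun e he h' => h ⟨e, he, of_decide_eq_true h'⟩]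
    rfl

theorem orb3_stab {u : leechLattice} (hu : sqNorm (u : GolayPt → ℤ) = 48) :
    205 * Nat.card ↥(Stab vU ⊓ Stab u) ≤ 495766656000 := by
  have h1 : Nat.card (Stab u) = 495766656000 := by
    obtain ⟨g, rfl⟩ := exists_smul_V hu
    rw [← card_Co3]
    exact Nat.card_congr (MulAction.stabilizerEquivStabilizer rfl).symm.toEquiv
  have h2 := card_eq_of_orbit (Stab u) vU
    {x : leechLattice | sqNorm (x : GolayPt → ℤ) = 32 ∧
      dotInt (u : GolayPt → ℤ) (x : GolayPt → ℤ) = dotInt (u : GolayPt → ℤ) (vU : GolayPt → ℤ)}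
    (fun g hg => ⟨smul_mem_Min g norm_U, dot_of_fix hg _⟩)
    (fun y hy => pair_trans3 hu norm_U hu hy.1 hy.2.symm)
  rw [co3_count' hu (fun p => p = dotInt (u : GolayPt → ℤ) (vU : GolayPt → ℤ)), h1, inf_comm] at h2
  rcases orb3_cnt (dotInt (u : GolayPt → ℤ) (vU : GolayPt → ℤ)) with h | h
  · rw [h] at h2
    omega
  · rw [h2]
    exact Nat.mul_le_mul_right _ h

theorem big3 {u : leechLattice} (hu : sqNorm (u : GolayPt → ℤ) = 48) (h : Pp u) : Big u := by
  have _ := h
  obtain ⟨w, hw, hw'⟩ := exists_short (u + vU)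
  have hn : sqNorm (w : GolayPt → ℤ) ≤ 64 := by
    rcases hw' with rfl | e | e | e
    · simp [sqNorm]
    all_goals omega
  have h1 := card_eq_of_orbit ((orb3T u).map (Stab vU).subtype) u
    {y | ∃ g ∈ (orb3T u).map (Stab vU).subtype, g • u = y} (fun g hg => ⟨g, hg, rfl⟩) fun y hy => hy
  have h2 : {y | ∃ g ∈ (orb3T u).map (Stab vU).subtype, g • u = y} ⊆ {u, -u, w, -w} := by
    rintro _ ⟨_, ⟨g, hg, rfl⟩, rfl⟩
    have e : sqNorm (((g : Co0) • u : leechLattice) : GolayPt → ℤ) = 48 := (sqNorm_co0 _ _).trans hu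
    rcases hg with hg | hg
    · rcases hg.short (by omega) (by omega) with e1 | e1 | e1
      · exact Or.inl e1
      · exact Or.inr (Or.inl e1)
      · omega
    · rcases (((cg_UU _).symm.trans (hg.add (Cg.refl vU))).trans hw).short (by omega) hn with
        e1 | e1 | e1
      · exact Or.inr (Or.inr (Or.inl e1))
      · exact Or.inr (Or.inr (Or.inr e1))
      · omega
  have h3 : {y | ∃ g ∈ (orb3T u).map (Stab vU).subtype, g • u = y}.ncard ≤ 4 := by
    have a0 := Set.ncard_le_ncard h2 (Set.toFinite _)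
    have a1 := Set.ncard_insert_le u {-u, w, -w}
    have a2 := Set.ncard_insert_le (-u) {w, -w}
    have a3 := Set.ncard_insert_le w {-w}
    rw [Set.ncard_singleton] at a3
    omega
  have : Finite ↥(Stab vU) := Nat.finite_of_card_ne_zero (by rw [card_Co2]; decide)
  have : Finite ↥(Stab vU ⊓ Stab u) :=
    Finite.of_injective _ (inclusion_injective (inf_le_left : Stab vU ⊓ Stab u ≤ _))
  have h4 : Nat.card ↥((orb3T u).map (Stab vU).subtype ⊓ MulAction.stabilizer Co0 u) ≤
      Nat.card ↥(Stab vU ⊓ Stab u) := card_le_of_le (inf_le_inf_right _ (map_subtype_le _))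
  rw [card_map_of_injective (Stab vU).subtype_injective] at h1
  have h5 := orb3_stab hu
  have h6 : Nat.card (orb3T u) ≤ 4 * Nat.card ↥(Stab vU ⊓ Stab u) := h1 ▸ Nat.mul_le_mul h3 h4
  refine big_of ?_
  change 4371 * Nat.card (orb3T u) < _
  omega

end H95.B4
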