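import Cfsg.Agent.Lib.B43.Orb3

/-! Orbits of the second Conway group on the module of order 2 ^ 22. -/

set_option autoImplicit false

namespace H95.B4

open Cfsg Subgroup H15 H16 H48.BR H7.ML Module

theorem orbA_u0 : 759 * Nat.card ↥(monoGroup ⊓ Stab H99.BC.u0) ≤ 4096 * 244823040 := by
  let f : octads → leechLattice := fun o => ⟨rep 0 o.1, (cong_rep 0 o.2.1).mem o.2.1⟩
  have hf : Function.Injective f := fun a b e => Subtype.ext (Finset.ext fun i => by
    have := congrFun (congrArg Subtype.val e) i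
    simp only [f, rep_zero, ind_apply] at this
    split_ifs at this with h1 h2 h2
    · exact iff_of_true h1 h2
    · omega
    · omega
    · exact iff_of_false h1 h2)
  have h := card_ge_of_orbit monoGroup H99.BC.u0 (Set.range f) (by
    rintro _ ⟨o, rfl⟩
    obtain ⟨τ, hτ, e⟩ := M24_trans_octads oct0_mem o.2
    refine ⟨permHom ⟨τ, hτ⟩, permHom_mem _, Subtype.ext (funext fun i => ?_)⟩
    rw [permHom_smul_apply']
    simp only [H99.BC.u0, f, rep_zero, ind_apply]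
    rw [if_congr (show τ⁻¹ i ∈ P8.O0 ↔ i ∈ o.1 from by
      rw [← e]; exact Finset.inv_smul_mem_iff (a := τ)) rfl rfl])
  rw [Set.ncard_range_of_injective hf, card_monoGroup] at h
  rwa [show Nat.card octads = 759 from ncard_octads] at h

/-- the stabiliser in `Co2` of a class -/
def orbA_T (u : leechLattice) : Subgroup Co0 where
  carrier := {γ | γ • vU = vU ∧ Cu (γ • u) u}
  one_mem' := ⟨one_smul _ _, by rw [one_smul]; exact Cu.refl _⟩
  mul_mem' := fun {a b} h k => ⟨by rw [mul_smul, k.1, h.1], by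
    rw [mul_smul]; exact (Cu.smul k.2 ⟨a, h.1⟩).trans h.2⟩
  inv_mem' := fun {a} h => ⟨by rw [inv_smul_eq_iff, h.1], by
    have := (Cu.smul h.2 (⟨a, h.1⟩ : Stab vU)⁻¹).symm
    rwa [coe_inv, inv_smul_smul] at this⟩

theorem big4 {u w : leechLattice} (hu : sqNorm (u : GolayPt → ℤ) = 64) (hw : sqNorm (w : GolayPt → ℤ) = 64)
    (e : Cg (u + vU) w) (h : Pp u) : Big u := by
  obtain ⟨k, k1, k2⟩ := H99.BC.exists_td hu hw e h
  have c0 : Nat.card {γ : Stab vU // Cu ((γ : Co0) • u) u} ≤ Nat.card (orbA_T u) :=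
    Nat.card_le_card_of_injective (fun x => ⟨x.1.1, x.1.2, x.2⟩) fun a b f =>
      Subtype.ext (Subtype.ext (Subtype.mk.inj f))
  have c1 := H75.WC.card_le_two_mul (H := orbA_T u) (K := orbA_T u ⊓ H99.BC.Cst u) inf_le_left
    fun a ha b hb h1 h2 => ⟨(orbA_T u).mul_mem ((orbA_T u).inv_mem ha) hb, by
      have e1 := ha.2.resolve_left fun e => h1 ⟨ha, e⟩
      have e2 := hb.2.resolve_left fun e => h2 ⟨hb, e⟩
      have := ((cg_UU _).symm.trans (((e2.trans e1.symm).add (Cg.refl vU)).trans (cg_UU _))).smul a⁻¹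
      rwa [inv_smul_smul, ← mul_smul] at this⟩
  have c2 : (orbA_T u ⊓ H99.BC.Cst u).map (MulAut.conj k).toMonoidHom ≤ monoGroup ⊓ Stab H99.BC.u0 := by
    intro x hx
    obtain ⟨⟨a, -⟩, b⟩ := mem_map_conj.1 hx
    refine ⟨mem_monoGroup_iff_cg.2 ?_, ?_⟩
    · have f : Cg ((k⁻¹ * x * k) • u) u := b
      rw [mul_smul, mul_smul] at f
      have := f.smul k
      rw [smul_inv_smul] at this
      exact ((k2.smul x).symm.trans this).trans k2
    · rw [mul_smul, mul_smul, inv_smul_eq_iff, k1] at a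
      exact a
  have c3 := card_le_of_le c2
  rw [card_map_of_injective (MulAut.conj k).injective] at c3
  have := orbA_u0
  exact big_of (by omega)

theorem orbA_min {v : leechLattice} (h : Pp v) (hv : sqNorm (v : GolayPt → ℤ) = 32) :
    Cu 0 v ∨ (∃ w, Tw w ∧ Cu v w) ∨ Big v := by
  have b1 := sqNorm_nonneg ((vU : GolayPt → ℤ) + v)
  have b2 := sqNorm_nonneg ((vU : GolayPt → ℤ) - v)
  rw [sqNorm_add, norm_U, hv] at b1
  rw [sqNorm_sub, norm_U, hv] at b2
  have hn := neg_mem_Min hv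
  have dn : dotInt (vU : GolayPt → ℤ) ((-v : leechLattice) : GolayPt → ℤ) =
      -dotInt (vU : GolayPt → ℤ) (v : GolayPt → ℤ) := by
    rw [AddSubgroup.coe_neg, dotInt_neg_right]
  have cU : Cu 0 vU := Or.inr (by rw [zero_add]; exact Cg.refl _)
  rw [Pp, dotInt_comm] at h
  have : dotInt (vU : GolayPt → ℤ) (v : GolayPt → ℤ) = 0 ∨
      dotInt (vU : GolayPt → ℤ) (v : GolayPt → ℤ) = 16 ∨
      dotInt (vU : GolayPt → ℤ) (v : GolayPt → ℤ) = -16 ∨
      dotInt (vU : GolayPt → ℤ) (v : GolayPt → ℤ) = 32 ∨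
      dotInt (vU : GolayPt → ℤ) (v : GolayPt → ℤ) = -32 := by omega
  rcases this with e | e | e | e | e
  · exact Or.inr (Or.inr (big2 hv e))
  · exact Or.inr (Or.inl ⟨v, ⟨hv, e⟩, Cu.refl _⟩)
  · exact Or.inr (Or.inl ⟨-v, ⟨hn, by rw [dn, e]; rfl⟩, cu_neg v⟩)
  · exact Or.inl (eq_of_dot norm_U hv e ▸ cU)
  · exact Or.inl (Cu.trans (eq_of_dot norm_U hn (by rw [dn, e]; rfl) ▸ cU) (cu_neg v).symm)

theorem classify {u : leechLattice} (h : Pp u) : Cu 0 u ∨ (∃ w, Tw w ∧ Cu u w) ∨ Big u := by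
  have key : ∀ v, Cu u v → (v = 0 ∨ sqNorm (v : GolayPt → ℤ) = 32 ∨ sqNorm (v : GolayPt → ℤ) = 48) →
      Cu 0 u ∨ (∃ w, Tw w ∧ Cu u w) ∨ Big u := fun v e hv => by
    rcases hv with rfl | hv | hv
    · exact Or.inl e.symm
    · rcases orbA_min (h.cu e) hv with a | ⟨w, a, b⟩ | a
      exacts [Or.inl (a.trans e.symm), Or.inr (Or.inl ⟨w, a, e.trans b⟩), Or.inr (Or.inr (a.congr e.symm))]
    · exact Or.inr (Or.inr ((big3 hv (h.cu e)).congr e.symm))
  obtain ⟨v, e, hv⟩ := exists_short u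
  obtain ⟨w, f, hw⟩ := exists_short (v + vU)
  have e1 : Cu u v := Or.inl e
  have e2 : Cu u w := e1.trans (Or.inr f)
  by_cases n : sqNorm (v : GolayPt → ℤ) = 64
  · by_cases m : sqNorm (w : GolayPt → ℤ) = 64
    · exact Or.inr (Or.inr ((big4 n m f (h.cu e1)).congr e1.symm))
    · exact key w e2 (by tauto)
  · exact key v e1 (by tauto)

end H95.B4
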