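import Cfsg.Agent.Lib.B43.Defs

/-! The orbit of length 2300. -/

set_option autoImplicit false

namespace H95.B4

open Cfsg Subgroup H15 H16 H48.BR H7.ML Module

theorem Tw.pp {w : leechLattice} (h : Tw w) : Pp w := by
  unfold Pp
  rw [dotInt_comm, h.2]

theorem Tw.not_zero {w : leechLattice} (h : Tw w) : ¬ Cu 0 w := by
  have h1 := h.1
  have h2 := h.2
  have n0 := sqNorm_zero'
  have nU := norm_U
  rintro (e | e)
  · have := e.norm_eq (by omega) (by omega)
    omega
  · rw [zero_add] at e
    rcases e.short (by omega) (by omega) with k | k | k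
    · rw [← k, dotInt_self] at h2; omega
    · have : w = -vU := by rw [k, neg_neg]
      rw [this, AddSubgroup.coe_neg, dotInt_neg_right, dotInt_self] at h2; omega
    · omega

theorem Tw.smul {w : leechLattice} (h : Tw w) (γ : Stab vU) : Tw ((γ : Co0) • w) :=
  ⟨(sqNorm_co0 _ _).trans h.1, (dot_of_fix γ.2 _).trans h.2⟩

theorem OrbB_sub {w : leechLattice} (h : Tw w) : Tw (vU - w) := by
  have h1 := h.1
  have h2 := h.2
  have nU := norm_U
  constructor
  · rw [AddSubgroup.coe_sub, sqNorm_sub]; omega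
  · rw [AddSubgroup.coe_sub, dotInt_sub_right, dotInt_self]; omega

theorem OrbB_cg_sub (w : leechLattice) : Cg (w + vU) (vU - w) := cg_iff.2 ⟨w, by abel⟩

theorem OrbB_cg {w w' : leechLattice} (h : Tw w) (h' : Tw w') (e : Cg w w') : w' = w := by
  have h1 := h.1
  have h2 := h.2
  have k1 := h'.1
  have k2 := h'.2
  rcases e.short (by omega) (by omega) with k | k | k
  · exact k.symm
  · rw [k, AddSubgroup.coe_neg, dotInt_neg_right] at h2; omega
  · omega

theorem Tw.cu {w w' : leechLattice} (h : Tw w) (h' : Tw w') : Cu w w' ↔ w' = w ∨ w' = vU - w := by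
  constructor
  · rintro (e | e)
    · exact Or.inl (OrbB_cg h h' e)
    · exact Or.inr (OrbB_cg (OrbB_sub h) h' ((OrbB_cg_sub w).symm.trans e))
  · rintro (rfl | rfl)
    · exact Cu.refl _
    · exact Or.inr (OrbB_cg_sub w)

theorem tw_X : Tw vX := ⟨norm_X, dot_UX⟩

theorem OrbB_half {α β : Type*} [LinearOrder β] (S : Finset α) (f : α → α) (e : α → β)
    (he : Function.Injective e) (hf : ∀ x ∈ S, f x ∈ S ∧ f (f x) = x ∧ f x ≠ x) :
    2 * (S.filter fun x => e (f x) < e x).card = S.card := by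
  classical
  have h1 := Finset.card_filter_add_card_filter_not (s := S) (fun x => e (f x) < e x)
  have h2 : (S.filter fun x => e (f x) < e x).card = (S.filter fun x => ¬ e (f x) < e x).card := by
    refine Finset.card_bij (fun x _ => f x) (fun x hx => ?_) (fun x hx y hy k => ?_) fun y hy => ?_
    · rw [Finset.mem_filter] at hx ⊢
      exact ⟨(hf x hx.1).1, by rw [(hf x hx.1).2.1]; exact not_lt.2 hx.2.le⟩
    · rw [Finset.mem_filter] at hx hy
      have := congrArg f k
      rwa [(hf x hx.1).2.1, (hf y hy.1).2.1] at this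
    · rw [Finset.mem_filter] at hy
      refine ⟨f y, Finset.mem_filter.2 ⟨(hf y hy.1).1, ?_⟩, (hf y hy.1).2.1⟩
      rw [(hf y hy.1).2.1]
      exact lt_of_le_of_ne (not_lt.1 hy.2) fun k => (hf y hy.1).2.2 (he k).symm
  omega

theorem OrbB_coord {w : leechLattice} (h : Tw w) :
    (w : GolayPt → ℤ) none + (w : GolayPt → ℤ) (some 0) = 4 := by
  have := h.2
  rw [dot_U] at this
  omega

theorem OrbB_U_none : (vU : GolayPt → ℤ) none = 4 := by
  rw [coe_U, v44_apply]; simp

theorem OrbB_odd {w : leechLattice} (h : Tw w) (o : ¬ (2 : ℤ) ∣ (w : GolayPt → ℤ) none) :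
    ∃ c ∈ code, ∃ j, (w : GolayPt → ℤ) = H16.sgn c (odd3 j) := by
  rcases min_shape w.2 h.1 with ⟨i, j, _, s, t, _, _, e⟩ | ⟨o', _, s, _, _, e⟩ | k
  · refine absurd ?_ o
    rw [e, v44_apply]
    split_ifs <;> omega
  · refine absurd ?_ o
    rw [e, oct_apply]
    split_ifs <;> omega
  · exact k

theorem OrbB_three : {w : leechLattice | Tw w ∧ (w : GolayPt → ℤ) none = 3}.ncard = 1024 := by
  have h2 := ncard_codeSets_filter (fun m => (m.testBit 23) && !(m.testBit 0))
    {c | c ∈ code ∧ none ∈ c ∧ some 0 ∉ c} (fun u hu => by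
      rw [Set.mem_ofPred_eq, and_iff_right (ofMask_cw_mem hu)]
      simp [mem_ofMask, idx]) fun _ h => h.1
  rw [show countLt2 64 64 (fun u => ((cw u).testBit 23) && !((cw u).testBit 0)) = 1024 by
      decide +kernel] at h2
  rw [← h2]
  symm
  refine Set.ncard_congr (fun c hc => (⟨H16.sgn c (odd3 none), odd_mem hc.1 none⟩ : leechLattice))
    (fun c hc => ⟨⟨sqNorm_odd c none, ?_⟩, ?_⟩) (fun c d hc hd k => ?_) fun w hw => ?_
  · rw [dot_U]
    show 4 * H16.sgn c (odd3 none) none + 4 * H16.sgn c (odd3 none) (some 0) = 16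
    rw [odd_apply, odd_apply, if_pos rfl, if_pos hc.2.1, if_neg (by simp), if_neg hc.2.2]
    norm_num
  · show H16.sgn c (odd3 none) none = 3
    rw [odd_apply, if_pos rfl, if_pos hc.2.1]
  · have k' : H16.sgn c (odd3 none) = H16.sgn d (odd3 none) := congrArg Subtype.val k
    ext i
    have := congrFun k' i
    rw [odd_apply, odd_apply] at this
    by_cases a : i ∈ c <;> by_cases b : i ∈ d <;> simp only [a, b, if_true, if_false] at this ⊢ <;>
      split_ifs at this <;> omega
  · obtain ⟨c, hc, j, e⟩ := OrbB_odd hw.1 (by rw [hw.2]; omega)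
    have a := hw.2
    have b := OrbB_coord hw.1
    rw [a] at b
    rw [e, odd_apply] at a b
    have hj : none = j := by
      by_contra n
      rw [if_neg n] at a
      split_ifs at a <;> omega
    subst hj
    rw [if_pos rfl] at a
    rw [if_neg (by simp)] at b
    refine ⟨c, ⟨hc, ?_, ?_⟩, Subtype.ext e.symm⟩
    · by_contra n
      rw [if_neg n] at a; omega
    · intro n
      rw [if_pos n] at b; omega

theorem exists_I : ∃ I : Finset leechLattice, I.card = 2300 ∧ (∀ w ∈ I, Tw w) ∧
    (∀ w ∈ I, ∀ w' ∈ I, Cu w w' → w = w') ∧ (∀ w, Tw w → ∃ w' ∈ I, Cu w w') ∧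
    (I.filter fun w : leechLattice => ¬ (16 : ℤ) ∣ dotInt (w : GolayPt → ℤ) (e8 none : leechLattice)).card = 1024 := by
  classical
  have fin : {w : leechLattice | Tw w}.Finite := (finite_leech_norm 32).subset fun w h => h.1
  have cT : fin.toFinset.card = 4600 := by
    rw [← Set.ncard_eq_toFinset_card _ fin]
    exact (mcl_count (fun p _ => p = 16)).trans (by decide)
  obtain ⟨enc, henc⟩ := exists_injective_nat leechLattice
  let e : leechLattice → Lex (ℤ × ℕ) := fun w => toLex ((w : GolayPt → ℤ) none, enc w)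
  have he : Function.Injective e := fun a b k => henc (congrArg (fun x => (ofLex x).2) k)
  have mT : ∀ w, w ∈ fin.toFinset ↔ Tw w := fun w => by simp
  have hne : ∀ w, Tw w → vU - w ≠ w := fun w h k => by
    have : vU = w + w := sub_eq_iff_eq_add.1 k
    have n := norm_U
    have h1 := h.1
    rw [this, AddSubgroup.coe_add, sqNorm_add, dotInt_self] at n
    omega
  have hh := OrbB_half fin.toFinset (fun w => vU - w) e he fun w hw =>
    ⟨(mT _).2 (OrbB_sub ((mT _).1 hw)), sub_sub_cancel _ _, hne w ((mT _).1 hw)⟩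
  refine ⟨fin.toFinset.filter fun w => e (vU - w) < e w, by omega,
    fun w hw => (mT _).1 (Finset.mem_filter.1 hw).1, fun w hw w' hw' k => ?_, fun w hw => ?_, ?_⟩
  · rw [Finset.mem_filter] at hw hw'
    rcases (((mT _).1 hw.1).cu ((mT _).1 hw'.1)).1 k with k | k
    · exact k.symm
    · have := hw'.2
      rw [k, sub_sub_cancel] at this
      exact absurd hw.2 (not_lt.2 this.le)
  · by_cases k : e (vU - w) < e w
    · exact ⟨w, Finset.mem_filter.2 ⟨(mT _).2 hw, k⟩, Cu.refl _⟩
    · refine ⟨vU - w, Finset.mem_filter.2 ⟨(mT _).2 (OrbB_sub hw), ?_⟩, Or.inr (OrbB_cg_sub w)⟩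
      rw [sub_sub_cancel]
      exact lt_of_le_of_ne (not_lt.1 k) fun k' => hne w hw (he k').symm
  · rw [← OrbB_three, ← Set.ncard_coe_finset]
    congr 1
    ext w
    rw [Finset.mem_coe, Finset.mem_filter, Finset.mem_filter, mT, Set.mem_ofPred_eq, coe_e8,
      dotInt_single_right]
    have hU : ((vU - w : leechLattice) : GolayPt → ℤ) none = 4 - (w : GolayPt → ℤ) none := by
      rw [AddSubgroup.coe_sub, Pi.sub_apply, OrbB_U_none]
    have hlt : e (vU - w) < e w ↔ 4 - (w : GolayPt → ℤ) none < (w : GolayPt → ℤ) none ∨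
        4 - (w : GolayPt → ℤ) none = (w : GolayPt → ℤ) none ∧ enc (vU - w) < enc w := by
      rw [← hU]; exact Prod.Lex.toLex_lt_toLex
    rw [hlt]
    constructor
    · rintro ⟨⟨h, k⟩, o⟩
      refine ⟨h, ?_⟩
      obtain ⟨c, -, j, e'⟩ := OrbB_odd h (by omega)
      have := congrFun e' none
      rw [odd_apply] at this
      split_ifs at this <;> omega
    · rintro ⟨h, k⟩
      exact ⟨⟨h, Or.inl (by omega)⟩, by omega⟩

end H95.B4
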