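import Cfsg.Agent.Lib.B43.Defs

/-! Orbits of the second Conway group on the module of order 2 ^ 22: long orbits. -/

set_option autoImplicit false

namespace H95.B4

open Cfsg Subgroup H15 H16 H48.BR H7.ML Module

variable {u u' : leechLattice}

theorem OrbG_sub (u : leechLattice) :
    ∃ T : Subgroup (Stab vU), ∀ γ, γ ∈ T ↔ Cu ((γ : Co0) • u) u := by
  refine ⟨⟨⟨⟨{γ | Cu ((γ : Co0) • u) u}, fun {a b} h k => ?_⟩, ?_⟩, fun {a} h => ?_⟩,
    fun _ => Iff.rfl⟩
  · change Cu (((a * b : Stab vU) : Co0) • u) u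
    rw [coe_mul, mul_smul]; exact (Cu.smul k a).trans h
  · change Cu (((1 : Stab vU) : Co0) • u) u
    rw [coe_one, one_smul]; exact Cu.refl _
  · have := (Cu.smul h a⁻¹).symm
    rwa [coe_inv, inv_smul_smul] at this

theorem OrbG_fin : Finite (Stab vU) := Nat.finite_of_card_ne_zero (by rw [card_Co2]; norm_num)

theorem big_of (h : 4371 * Nat.card {γ : Stab vU // Cu ((γ : Co0) • u) u} < 42305421312000) : Big u := by
  classical
  obtain ⟨T, hT⟩ := OrbG_sub u
  have := OrbG_fin
  have := Fintype.ofFinite (Stab vU ⧸ T)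
  have key : ∀ p q : Stab vU ⧸ T, Cu ((p.out : Co0) • u) ((q.out : Co0) • u) → p = q := by
    intro p q e
    have e' := Cu.smul e q.out⁻¹
    rw [coe_inv, inv_smul_smul, ← mul_smul] at e'
    rw [← QuotientGroup.out_eq' p, ← QuotientGroup.out_eq' q, eq_comm, QuotientGroup.eq]
    exact (hT _).2 e'
  refine ⟨Finset.univ.image fun q : Stab vU ⧸ T => (q.out : Co0) • u, ?_, ?_, ?_⟩
  · rw [Finset.card_image_of_injective _ fun p q e => key p q (by rw [e]; exact Cu.refl _),
      Finset.card_univ, ← Nat.card_eq_fintype_card, ← index_eq_card]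
    rw [← Nat.card_congr (Equiv.subtypeEquivRight hT), ← card_Co2, ← T.index_mul_card] at h
    exact Nat.lt_of_mul_lt_mul_right h
  · intro x hx
    obtain ⟨q, -, rfl⟩ := Finset.mem_image.1 hx
    exact ⟨_, rfl⟩
  · intro x hx y hy e
    obtain ⟨p, -, rfl⟩ := Finset.mem_image.1 hx
    obtain ⟨q, -, rfl⟩ := Finset.mem_image.1 hy
    rw [key p q e]

theorem Big.congr (h : Big u) (e : Cu u u') : Big u' := by
  classical
  obtain ⟨S, h1, h2, h3⟩ := h
  choose! γ hγ using h2
  have k : ∀ x ∈ S, Cu x ((γ x : Co0) • u') := fun x hx => by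
    have := Cu.smul e (γ x)
    rwa [hγ x hx] at this
  have key : ∀ x ∈ S, ∀ y ∈ S, Cu ((γ x : Co0) • u') ((γ y : Co0) • u') → x = y :=
    fun x hx y hy c => h3 x hx y hy ((k x hx).trans (c.trans (k y hy).symm))
  refine ⟨S.image fun x => (γ x : Co0) • u', ?_, ?_, ?_⟩
  · rwa [Finset.card_image_of_injOn fun x hx y hy c =>
      key x hx y hy (by rw [show (γ x : Co0) • u' = (γ y : Co0) • u' from c]; exact Cu.refl _)]
  · intro x hx
    obtain ⟨q, -, rfl⟩ := Finset.mem_image.1 hx
    exact ⟨_, rfl⟩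
  · intro x hx y hy c
    obtain ⟨p, hp, rfl⟩ := Finset.mem_image.1 hx
    obtain ⟨q, hq, rfl⟩ := Finset.mem_image.1 hy
    rw [key p hp q hq c]

theorem big2 (hu : sqNorm (u : GolayPt → ℤ) = 32) (h : dotInt (vU : GolayPt → ℤ) (u : GolayPt → ℤ) = 0) :
    Big u := by
  obtain ⟨T, hT⟩ := OrbG_sub u
  have := OrbG_fin
  have pm : ∀ γ ∈ T, (γ : Co0) • u = u ∨ (γ : Co0) • u = -u := by
    intro γ hγ
    have n : sqNorm (((γ : Co0) • u : leechLattice) : GolayPt → ℤ) = 32 := (sqNorm_co0 _ _).trans hu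
    rcases (hT γ).1 hγ with c | c
    · rcases c.short (by omega) (by omega) with e | e | e
      exacts [.inl e, .inr e, by omega]
    · have n2 : sqNorm (((γ : Co0) • u + vU : leechLattice) : GolayPt → ℤ) = 64 := by
        rw [AddSubgroup.coe_add, sqNorm_add, n, norm_U, dotInt_comm, dot_of_fix γ.2, h]
        norm_num
      have := c.norm_eq (by omega) (by omega)
      omega
  have h1 := H75.WC.card_le_two_mul (H := T) (K := (Stab u).subgroupOf (Stab vU))
    (fun γ hγ => (hT γ).2 (by rw [show (γ : Co0) • u = u from hγ]; exact Cu.refl _))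
    fun a ha b hb na nb => by
      change ((a⁻¹ * b : Stab vU) : Co0) • u = u
      rw [coe_mul, coe_inv, mul_smul, (pm b hb).resolve_left nb, ← (pm a ha).resolve_left na,
        inv_smul_smul]
  have h2 := card_eq_of_orbit (Stab vU) u
    {x : leechLattice | sqNorm (x : GolayPt → ℤ) = 32 ∧
      dotInt (vU : GolayPt → ℤ) (x : GolayPt → ℤ) = 0}
    (fun g hg => ⟨smul_mem_Min g hu, (dot_of_fix hg _).trans h⟩)
    (fun y hy => co2_trans hu hy.1 (h.trans hy.2.symm))
  rw [mcl_count (fun p _ => p = 0), card_Co2,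
    show ((mclL.filter fun e => decide (e.1.1 = 0)).map Prod.snd).sum = 93150 by decide] at h2
  have h3 : Nat.card ((Stab u).subgroupOf (Stab vU)) =
      Nat.card ↥(Stab vU ⊓ MulAction.stabilizer Co0 u) := by
    rw [← inf_subgroupOf_left]
    exact Nat.card_congr (subgroupOfEquivOfLe inf_le_left).toEquiv
  refine big_of ?_
  rw [← Nat.card_congr (Equiv.subtypeEquivRight hT)]
  change 4371 * Nat.card T < _
  omega

end H95.B4
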