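import Cfsg.Agent.Lib.B43.PlA

/-! The planes. -/

set_option autoImplicit false

namespace H95.B4

open Cfsg Subgroup H15 H16 H48.BR H7.ML Module

variable {F : Type*} [Field F] {G : Type*} [Group G] {V V' : Type*} [AddCommGroup V] [Module F V]
  [AddCommGroup V'] [Module F V'] {ρ : Representation F G V} {ρ' : Representation F G V'}
  [Finite G] [FiniteDimensional F V]

variable {z s σ x : G} {Q Q' : Subgroup G} {φ : centralizer ({z} : Set G) →* Stab vU}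
  {cls : leechLattice → G → Prop}
  (h2 : (2 : F) ≠ 0) (B : Bs z s σ x Q Q' φ cls) (D : Dm ρ z Q cls) {v w : V} {b : G}

namespace Bs

include h2 B D

omit h2 D [FiniteDimensional F V] in
theorem Pl_exists_q : ∃ q ∈ Q, q * s = s * q ∧ q * x ≠ x * q := by
  by_contra n
  have k : ∀ a ∈ Q, a * s = s * a → a * x = x * a := fun a ha e => by
    by_contra m
    exact n ⟨a, ha, e, m⟩
  rcases B.p.h.mem_of_centralizes B.p.sQ B.p.h'.sq B.PlA_xQ k with e | e | e | e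
  · exact (B.twx.ne B.M).1 e
  · exact (B.twx.ne B.M).2 e
  · exact B.not_s (e ▸ B.twx)
  · have := B.twx.mul_z B.M
    rw [e, B.p.zs, mul_assoc, B.p.h.sq, mul_one] at this
    exact B.not_s this

theorem nontriv : ∃ c, c * z = z * c ∧ ∃ v ∈ Fx ρ Q, ρ c v ≠ v := by
  obtain ⟨b, hb, bz, bx⟩ := B.exists_b
  obtain ⟨w, hw, w0⟩ := exists_ne_zero (L := W ρ Q x) (by rw [D.one x B.twx]; exact one_ne_zero)
  obtain ⟨h1, h3⟩ := B.y_mem h2 D hw hb bz bx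
  obtain ⟨q, hq, qs, qx⟩ := B.Pl_exists_q
  have e : ρ q (w + ρ b w) = -(w + ρ b w) := by
    rw [map_add, PlA_neg hw hq qx, PlA_neg h1 hq fun e => qx (by
      rwa [mul_assoc x, ← qs, ← mul_assoc, ← mul_assoc, mul_left_inj] at e), neg_add]
  refine ⟨σ * q * σ⁻¹, B.tau.comm_z qs, _, (B.fx_tau B.tau).2 h3, fun n => w0 (B.indep h2 D hw h1 ?_).1⟩
  rw [rep_mul, rep_inv, rep_mul, e, map_neg, neg_eq_iff_add_eq_zero, ← two_smul F] at n
  exact rep_eq_zero ((smul_eq_zero.1 n).resolve_left h2)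

theorem Pl_wt (hb : b ∈ Q') (bz : b * z = z * b) (bx : b * x * b⁻¹ = x * s) (h1 : v ∈ Fx ρ Q') (v0 : v ≠ 0)
    {y : G} (hy : y ∈ Q) (h : v ∈ W ρ (Q ⊓ centralizer {s}) y) (n : W ρ Q y ≠ ⊥) :
    v ∈ Fx ρ Q ∨ ∃ k, k * z = z * k ∧ k * s = s * k ∧ ∃ w ∈ W ρ Q x, v = ρ k (w + ρ b w) := by
  have hz : ρ z v = v := mem_Fx.1 h1 z B.p.zQ
  have c : ∀ a ∈ Q ⊓ Q', a * y = y * a := fun a ha => by
    by_contra m
    have := PlA_neg h (q := a) ⟨ha.1, mem_cent_iff.2 (B.p.h'.central a ha.2)⟩ m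
    rw [mem_Fx.1 h1 a ha.2, eq_neg_iff_add_eq_zero, ← two_smul F] at this
    exact v0 ((smul_eq_zero.1 this).resolve_left h2)
  rcases D.supp y hy n with rfl | rfl | e
  · exact Or.inl (B.fx_of h2 D hz (by rwa [W_one] at h))
  · rw [← one_mul y, W_mul fun q hq => B.p.h.central q (mem_inf.1 hq).1, W_one] at h
    exact Or.inl (B.fx_of h2 D hz h)
  rcases B.cases e (c s ⟨B.p.sQ, B.p.h'.mem⟩).symm with ⟨k, kz, ks, rfl⟩ | ⟨-, -, a, ha, m⟩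
  · have kz' : k⁻¹ * z = z * k⁻¹ := (Commute.inv_left (a := k) kz :)
    have ks' : k⁻¹ * s = s * k⁻¹ := (Commute.inv_left (a := k) ks :)
    have a1 : ρ k⁻¹ v ∈ Fx ρ Q' := PlA_conj_fx B.p.h' ks' h1
    have a2 : ρ k⁻¹ v ∈ W ρ (Q ⊓ centralizer {s}) (k⁻¹ * (k * x * k⁻¹) * k⁻¹⁻¹) := W.conj h fun a ha =>
      ⟨conj_mem_of_normalizer' (B.p.h.norm _ kz') ha.1, mem_cent_iff.2
        (((Commute.inv_left (a := k⁻¹) ks').mul_left (mem_cent_iff.1 ha.2)).mul_left ks' :)⟩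
    rw [show k⁻¹ * (k * x * k⁻¹) * k⁻¹⁻¹ = x by group] at a2
    obtain ⟨w, hw, e⟩ := B.plane h2 D hb bz bx a1
      (wt_cent h2 B.p.h.toES B.p.sQ B.p.h'.sq B.PlA_xQ (mem_Fx.1 a1 z B.p.zQ) a2)
    exact Or.inr ⟨k, kz, ks, w, hw, by rw [← e, rep_inv']⟩
  · exact absurd (c a ha) m

/-- weight vectors in the fixed space of `Q'` -/
theorem wt_fx (hb : b ∈ Q') (bz : b * z = z * b) (bx : b * x * b⁻¹ = x * s) (h1 : v ∈ Fx ρ Q')
    (h : ∀ q ∈ Q, q * s = s * q → ρ q v = v ∨ ρ q v = -v) :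
    v ∈ Fx ρ Q ∨ ∃ k, k * z = z * k ∧ k * s = s * k ∧ ∃ w ∈ W ρ Q x, v = ρ k (w + ρ b w) := by
  by_cases v0 : v = 0
  · exact Or.inl (v0 ▸ zero_mem _)
  have hz : ρ z v = v := mem_Fx.1 h1 z B.p.zQ
  obtain ⟨y, hy, k⟩ := exists_wt_cent h2 B.p.h.toES hz h
  by_cases n : W ρ Q y = ⊥
  · refine B.Pl_wt h2 D hb bz bx h1 v0 (mul_mem hy B.p.sQ)
      (by rwa [W_mul fun q hq => mem_cent_iff.1 (mem_inf.1 hq).2]) fun m => v0 ?_
    simpa [n, m] using wt_cent h2 B.p.h.toES B.p.sQ B.p.h'.sq hy hz k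
  · exact B.Pl_wt h2 D hb bz bx h1 v0 hy k n

end Bs

end H95.B4
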