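import Cfsg.Agent.Lib.B43.Es
import Cfsg.Agent.Lib.B43.Cl

/-! The planes, first part. -/

set_option autoImplicit false

namespace H95.B4

open Cfsg Subgroup H15 H16 H48.BR H7.ML Module

variable {F : Type*} [Field F] {G : Type*} [Group G] {V V' : Type*} [AddCommGroup V] [Module F V]
  [AddCommGroup V'] [Module F V'] {ρ : Representation F G V} {ρ' : Representation F G V'}

theorem PlA_symm {z s τ : G} {Q Q' : Subgroup G} (T : Tau z s Q Q' τ) : Tau s z Q' Q τ :=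
  ⟨by rw [sup_comm]; exact T.mem, T.sz, T.zs⟩

theorem PlA_fix {Q : Subgroup G} {x q : G} {w : V} (hw : w ∈ W ρ Q x) (hq : q ∈ Q) (e : q * x = x * q) :
    ρ q w = w := by
  rw [mem_Wt.1 hw q hq, show ee F x q = 1 from sg_pos e, one_smul]

theorem PlA_neg {Q : Subgroup G} {x q : G} {w : V} (hw : w ∈ W ρ Q x) (hq : q ∈ Q) (e : q * x ≠ x * q) :
    ρ q w = -w := by
  rw [mem_Wt.1 hw q hq, show ee F x q = -1 from sg_neg e, neg_smul, one_smul]

theorem PlA_pow {g : G} {w : V} {a : F} (h : ρ g w = a • w) (n : ℕ) : ρ (g ^ n) w = a ^ n • w := by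
  induction n with
  | zero => simp
  | succ n ih => rw [pow_succ, rep_mul, h, map_smul, ih, smul_smul, pow_succ']

theorem PlA_one {w : V} (w0 : w ≠ 0) {a : F} (h : w = a • w) : a = 1 :=
  smul_left_injective F w0 (by simpa using h.symm)

theorem PlA_conj {Q : Subgroup G} {z c y : G} (h : L3 Q z) (hc : c * z = z * c) {w : V} (hw : w ∈ W ρ Q y) :
    ρ c w ∈ W ρ Q (c * y * c⁻¹) :=
  W.conj hw fun _ hb => conj_mem_of_normalizer' (h.norm c hc) hb

theorem PlA_conj_fx {Q : Subgroup G} {z c : G} (h : L3 Q z) (hc : c * z = z * c) {w : V} (hw : w ∈ Fx ρ Q) :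
    ρ c w ∈ Fx ρ Q :=
  Wt.conj hw c fun _ hb => ⟨conj_mem_of_normalizer' (h.norm c hc) hb, rfl⟩

variable [Finite G] [FiniteDimensional F V]

variable {z s σ x : G} {Q Q' : Subgroup G} {φ : centralizer ({z} : Set G) →* Stab vU}
  {cls : leechLattice → G → Prop}
  (h2 : (2 : F) ≠ 0) (B : Bs z s σ x Q Q' φ cls) (D : Dm ρ z Q cls) {v w : V} {b : G}

namespace Bs

include h2 B D

omit h2 D [Finite G] [FiniteDimensional F V] in
theorem fx_tau {τ : G} (T : Tau z s Q Q' τ) : (v ∈ Fx ρ Q → ρ τ v ∈ Fx ρ Q') ∧ (v ∈ Fx ρ Q' → ρ τ v ∈ Fx ρ Q) :=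
  ⟨fun h => Wt.conj h τ fun _ hb => ⟨by simpa using Tau.memQ' B.p.symm (PlA_symm T.inv) hb, rfl⟩,
    fun h => Wt.conj h τ fun _ hb => ⟨by simpa using Tau.memQ' B.p T.inv hb, rfl⟩⟩

omit h2 D [FiniteDimensional F V] in
theorem PlA_xQ : x ∈ Q := B.twx.mem B.M

omit h2 D [FiniteDimensional F V] in
theorem PlA_sx : s * x = x * s := (B.p.h'.central x B.xQ').symm

omit h2 [FiniteDimensional F V] in
theorem PlA_Ws : W ρ Q s = ⊥ := by
  by_contra n
  rcases D.supp s B.p.sQ n with e | e | e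
  exacts [B.p.h'.ne_one e, B.p.ne e, B.not_s e]

theorem fx_of (hz : ρ z v = v) (h : v ∈ Fx ρ (Q ⊓ centralizer {s} : Subgroup G)) : v ∈ Fx ρ Q := by
  have := wt_cent h2 B.p.h.toES B.p.sQ B.p.h'.sq (one_mem Q) hz (by rw [W_one]; exact h)
  rwa [one_mul, B.PlA_Ws D, sup_bot_eq, W_one] at this

theorem fx_of' (hs : ρ s v = v) (h : v ∈ Fx ρ (Q' ⊓ centralizer {z} : Subgroup G)) : v ∈ Fx ρ Q' := by
  have e : z * σ = σ * s := by rw [← B.tau.sz]; group
  have k : ρ σ v ∈ Fx ρ Q := B.fx_of h2 D (by rw [← rep_mul, e, rep_mul, hs]) (Wt.conj h σ fun a ha =>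
    ⟨⟨by simpa using Tau.memQ' B.p B.tau.inv ha.1,
      mem_cent_iff.2 (by simpa using B.tau.inv.comm_z (mem_cent_iff.1 ha.2))⟩, rfl⟩)
  simpa only [rep_inv] using (B.fx_tau B.tau.inv).1 k

omit h2 in
theorem PlA_line (hw : w ∈ W ρ Q x) (w0 : w ≠ 0) {c : G} (cz : c * z = z * c) (cx : c * x = x * c) :
    ∃ a : F, ρ c w = a • w := by
  have := PlA_conj B.p.h cz hw
  rw [cx, mul_inv_cancel_right] at this
  exact exists_smul_of_line (D.one x B.twx).le hw w0 this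

omit h2 D [FiniteDimensional F V] in
theorem PlA_sq (hw : w ∈ W ρ Q x) (hb : b ∈ Q') : ρ b (ρ b w) = w := by
  rw [← rep_mul]
  rcases B.p.h'.sq_mem hb with e | e <;> rw [e]
  · simp
  · exact PlA_fix hw B.p.sQ B.PlA_sx

theorem fix_b (hw : w ∈ W ρ Q x) (hb : b ∈ Q') (bz : b * z = z * b) (bx : b * x = x * b) : ρ b w = w := by
  have := h2
  by_cases w0 : w = 0
  · simp [w0]
  obtain ⟨k, kz, kx, k7, hk⟩ := B.seven
  obtain ⟨β, hβ⟩ := B.PlA_line D hw w0 bz bx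
  obtain ⟨κ, hκ⟩ := B.PlA_line D hw w0 kz kx
  have c1 : Commute k x := kx
  have c2 : Commute b x := bx
  have e1 : κ ^ 7 = 1 := PlA_one w0 (by rw [← PlA_pow hκ, PlA_fix hw k7 (c1.pow_left 7)])
  have e2 : (κ * β) ^ 7 = 1 := PlA_one w0 (by
    rw [← PlA_pow (g := b * k) (ρ := ρ) (by rw [rep_mul, hκ, map_smul, hβ, smul_smul]),
      PlA_fix hw (hk b hb bz bx) ((c2.mul_left c1).pow_left 7)])
  have e3 : β * β = 1 := PlA_one w0 (by
    conv_lhs => rw [← B.PlA_sq hw hb, hβ, map_smul, hβ, smul_smul])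
  have e4 : β = 1 := by
    rw [mul_pow, e1, one_mul] at e2
    calc β = (β * β) ^ 3 * β := by rw [e3, one_pow, one_mul]
      _ = β ^ 7 := by ring
      _ = 1 := e2
  rw [hβ, e4, one_smul]

theorem indep (hw : w ∈ W ρ Q x) (hv : v ∈ W ρ Q (x * s)) (e : w + v = 0) : w = 0 ∧ v = 0 := by
  have := D
  obtain ⟨q, hq, n⟩ := W_ne h2 B.p.h.toES B.PlA_xQ (mul_mem B.PlA_xQ B.p.sQ)
    (fun e => B.p.h'.ne_one (by simpa using e)) (fun e => B.p.ne (by simpa using e))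
  have k : w = 0 := Wt.eq_zero hw (by rw [eq_neg_of_add_eq_zero_left e]; exact neg_mem hv) hq n
  exact ⟨k, by simpa [k] using e⟩

theorem y_mem (hw : w ∈ W ρ Q x) (hb : b ∈ Q') (bz : b * z = z * b) (bx : b * x * b⁻¹ = x * s) :
    ρ b w ∈ W ρ Q (x * s) ∧ w + ρ b w ∈ Fx ρ Q' := by
  have h1 : ρ b w ∈ W ρ Q (x * s) := bx ▸ PlA_conj B.p.h bz hw
  have cz : ∀ {a c : G}, a * z = z * a → c * z = z * c → a⁻¹ * c * z = z * (a⁻¹ * c) := fun {a c} p q =>
    (Commute.mul_left (Commute.inv_left (a := a) p) q :)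
  have k : ∀ c ∈ Q', c * z = z * c → c * x = x * c → ρ c (w + ρ b w) = w + ρ b w := fun c hc p q => by
    have t : ρ (b⁻¹ * c * b) w = w := B.fix_b h2 D hw (mul_mem (mul_mem (inv_mem hb) hc) hb)
      (Commute.mul_left (cz bz p) bz :) (by
        calc _ = b⁻¹ * (c * (b * x * b⁻¹)) * b := by group
          _ = b⁻¹ * ((b * x * b⁻¹) * c) * b := by
            rw [bx, ← mul_assoc c, q, mul_assoc x, B.p.h'.central c hc, mul_assoc x]
          _ = _ := by group)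
    rw [map_add, B.fix_b h2 D hw hc p q, ← rep_mul, show c * b = b * (b⁻¹ * c * b) by group, rep_mul, t]
  refine ⟨h1, B.fx_of' h2 D (k s B.p.h'.mem B.p.zs.symm B.PlA_sx) (mem_Fx.2 fun c hc => ?_)⟩
  have p := mem_cent_iff.1 hc.2
  by_cases q : c * x = x * c
  · exact k c hc.1 p q
  have n : b⁻¹ * x ≠ x * b⁻¹ := fun e => B.p.h'.ne_one (by
    rw [mul_assoc, ← e, mul_inv_cancel_left] at bx
    simpa using bx.symm)
  rw [show c = b * (b⁻¹ * c) by group, rep_mul, k _ (mul_mem (inv_mem hb) hc.1) (cz bz p)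
    (B.p.h'.mul_comm_of_ne B.xQ' (inv_mem hb) hc.1 n q), map_add, B.PlA_sq hw hb, add_comm]

theorem plane (hb : b ∈ Q') (bz : b * z = z * b) (bx : b * x * b⁻¹ = x * s) (h1 : v ∈ Fx ρ Q')
    (h : v ∈ W ρ Q x ⊔ W ρ Q (x * s)) : ∃ w ∈ W ρ Q x, v = w + ρ b w := by
  obtain ⟨w, hw, u, hu, rfl⟩ := Submodule.mem_sup.1 h
  have e : b * (x * s) * b⁻¹ = x := by
    calc _ = b * x * b⁻¹ * (b * s * b⁻¹) := by group
      _ = x := by rw [bx, B.p.h'.central b hb, mul_inv_cancel_right, mul_assoc, B.p.h'.sq, mul_one]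
  have k : ρ b u ∈ W ρ Q x := e ▸ PlA_conj B.p.h bz hu
  have t := mem_Fx.1 h1 b hb
  rw [map_add] at t
  have := (B.indep h2 D (sub_mem hw k) (sub_mem hu (B.y_mem h2 D hw hb bz bx).1)
    (by rw [sub_add_sub_comm, add_comm (ρ b u), t, sub_self])).2
  exact ⟨w, hw, by rw [sub_eq_zero.1 this]⟩

end Bs

end H95.B4
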