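import Cfsg.Agent.Lib.B43.ShA

/-! Shapes of the vectors of the orbit of length 2300. -/

set_option autoImplicit false

namespace H95.B4

open Cfsg Subgroup H15 H16 H48.BR H7.ML Module
open scoped Pointwise

variable {w w' : leechLattice}

namespace Sh

theorem ne0 : (none : GolayPt) ≠ some 0 := by simp

theorem dot_U (x : GolayPt → ℤ) : dotInt (vU : GolayPt → ℤ) x = 4 * x none + 4 * x (some 0) := by
  rw [coe_U, dotInt_v44]; ring

theorem hx_shape (h : Hx w) : ∃ o ∈ octads, ∃ s ⊆ o, 2 ∣ s.card ∧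
    (w : GolayPt → ℤ) = H16.sgn s (rep 0 o) ∧ none ∈ o ∧ some 0 ∈ o ∧ none ∉ s ∧ some 0 ∉ s := by
  obtain ⟨⟨h1, h2⟩, h3⟩ := h
  rw [dot_U, h3] at h2
  have h4 : (w : GolayPt → ℤ) (some 0) = 2 := by omega
  rcases min_shape w.2 h1 with ⟨i, j, -, s, t, hs, ht, e⟩ | ⟨o, ho, s, hs, h5, e⟩ | ⟨c, -, j, e⟩
  · rw [e, v44_apply] at h3
    split_ifs at h3 <;> omega
  · rw [e, oct_apply] at h3 h4
    refine ⟨o, ho, s, hs, h5, e, ?_, ?_, ?_, ?_⟩
    · by_contra hn
      rw [if_neg hn] at h3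
      omega
    · by_contra hn
      rw [if_neg hn] at h4
      omega
    · intro hn
      rw [if_pos (hs hn), if_pos hn] at h3
      omega
    · intro hn
      rw [if_pos (hs hn), if_pos hn] at h4
      omega
  · rw [e, odd_apply] at h3
    split_ifs at h3 <;> omega

theorem mono_U {σ : Equiv.Perm GolayPt} (hσ : σ ∈ M24) {c : Finset GolayPt} (hc : c ∈ code)
    (h1 : σ none = none) (h2 : σ (some 0) = some 0) (c1 : none ∉ c) (c2 : some 0 ∉ c) :
    mono σ hσ c hc ∈ Stab vU := by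
  rw [mem_Stab]
  apply Subtype.ext
  rw [coe_mono_smul, coe_U, signedPerm_v44, h1, h2, if_neg c1, if_neg c2]

/-- the vector `(4, 4)` at a duad is a commutator -/
theorem duad {a b : GolayPt} (hab : a ≠ b) (a1 : a ≠ none) (a2 : a ≠ some 0) (b1 : b ≠ none)
    (b2 : b ≠ some 0) : ∃ e ∈ EE, ∃ w : leechLattice, Hx w ∧
      Cg ((e : Co0) • w + w) ⟨v44 a b 1 1, v44_mem a b (Or.inl rfl) (Or.inl rfl)⟩ := by
  obtain ⟨o, ho, hso⟩ := exists_octad_superset (s := {none, some 0, a, b})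
    (Finset.card_le_four.trans (by norm_num))
  have m1 : none ∈ o := hso (by simp)
  have m2 : some 0 ∈ o := hso (by simp)
  have ma : a ∈ o := hso (by simp)
  have mb : b ∈ o := hso (by simp)
  have hp : ({a, b} : Finset GolayPt) ⊆ o := by
    intro x hx
    rcases Finset.mem_insert.1 hx with rfl | hx
    · exact ma
    · rw [Finset.mem_singleton.1 hx]; exact mb
  have h8 : o.card = 8 := ((H16.mem_octads_iff _).1 ho).2
  obtain ⟨c, hc, hco⟩ := exists_code_inter_eq_octad ho o {a, b} subset_rfl hp (by omega)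
    (by rw [Finset.inter_eq_right.2 hp, Finset.card_pair hab])
  have hmem : ∀ x ∈ o, x ∈ c ↔ x = a ∨ x = b := fun x hx => by
    have : x ∈ c ∩ o ↔ x ∈ ({a, b} : Finset GolayPt) := by rw [hco]
    simpa [hx] using this
  have c1 : none ∉ c := fun h => ((hmem _ m1).1 h).elim a1.symm b1.symm
  have c2 : some 0 ∉ c := fun h => ((hmem _ m2).1 h).elim a2.symm b2.symm
  have hoc : o ∈ code := ((H16.mem_octads_iff _).1 ho).1
  let w : leechLattice := ⟨H16.sgn ∅ (rep 0 o), (cong_oct hoc (Finset.empty_subset _) (by simp)).mem hoc⟩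
  have hw : ∀ i, (w : GolayPt → ℤ) i = if i ∈ o then 2 else 0 := fun i => by
    change H16.sgn ∅ (rep 0 o) i = _
    rw [oct_apply]
    simp
  refine ⟨⟨eps c hc, mono_U M24.one_mem hc rfl rfl c1 c2⟩, ⟨c, hc, rfl⟩, w,
    ⟨⟨sqNorm_oct ho ∅, ?_⟩, ?_⟩, ?_⟩
  · rw [dot_U, hw, hw, if_pos m1, if_pos m2]; norm_num
  · rw [hw, if_pos m1]
  · refine cg_iff.2 ⟨w - ⟨v44 a b 1 1, v44_mem a b (Or.inl rfl) (Or.inl rfl)⟩, ?_⟩
    apply Subtype.ext
    funext i
    simp only [AddSubgroup.coe_add, AddSubgroup.coe_sub, Pi.add_apply, Pi.sub_apply]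
    rw [eps_smul_apply, hw, v44_apply]
    by_cases hi : i ∈ o
    · rw [if_pos hi]
      by_cases ia : i = a
      · rw [if_pos ((hmem i hi).2 (Or.inl ia)), if_pos ia, if_neg (fun ib => hab (ia.symm.trans ib))]
        norm_num
      · by_cases ib : i = b
        · rw [if_pos ((hmem i hi).2 (Or.inr ib)), if_neg ia, if_pos ib]
          norm_num
        · rw [if_neg (fun h => ((hmem i hi).1 h).elim ia ib), if_neg ia, if_neg ib]
          norm_num
    · rw [if_neg hi, if_neg (fun h : i = a => hi (h ▸ ma)), if_neg (fun h : i = b => hi (h ▸ mb))]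
      simp

theorem oct1 : ofMask 8683614 ∈ octads := ofMask_mem_octads (by decide +kernel)

end Sh

open Sh

theorem Hx.trans (h : Hx w) (h' : Hx w') : ∃ γ ∈ MM, (γ : Co0) • w = w' := by
  obtain ⟨o, ho, s, hs, s2, e, m1, m2, n1, n2⟩ := hx_shape h
  obtain ⟨o', ho', s', hs', s2', e', m1', m2', n1', n2'⟩ := hx_shape h'
  obtain ⟨σ, hσ, hσo, hfix⟩ := M24_trans_octad_flag_le ho ho' (k := 2) (by norm_num)
    ![none, some 0] ![none, some 0] (injective_vec2 ne0) (injective_vec2 ne0)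
    (fun i => by fin_cases i <;> assumption) (fun i => by fin_cases i <;> assumption)
  have f1 : σ none = none := hfix 0
  have f2 : σ (some 0) = some 0 := hfix 1
  have hss : σ • s ⊆ o' := hσo ▸ Finset.smul_finset_subset_smul_finset hs
  have hp : symmDiff (σ • s) s' ⊆ o' := fun x hx => by
    rcases Finset.mem_symmDiff.1 hx with h1 | h1
    exacts [hss h1.1, hs' h1.1]
  have h8 : o'.card = 8 := ((H16.mem_octads_iff _).1 ho').2
  have hev : 2 ∣ (symmDiff (σ • s) s').card := by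
    have h1 := H16.card_symmDiff_add (σ • s) s'
    rw [Finset.card_smul_finset] at h1
    omega
  obtain ⟨c, hc, hco⟩ := exists_code_inter_eq_octad ho' o' _ subset_rfl hp (by omega)
    (by rw [Finset.inter_eq_right.2 hp]; exact hev)
  have hmem : ∀ x ∈ o', x ∈ c ↔ x ∈ symmDiff (σ • s) s' := fun x hx => by
    rw [← hco]
    simp [hx]
  have k1 : none ∉ σ • s := fun hx => n1 (by
    rw [← f1] at hx
    exact Finset.smul_mem_smul_finset_iff σ |>.1 hx)
  have k2 : some 0 ∉ σ • s := fun hx => n2 (by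
    rw [← f2] at hx
    exact Finset.smul_mem_smul_finset_iff σ |>.1 hx)
  have c1 : none ∉ c := fun hx => by
    rcases Finset.mem_symmDiff.1 ((hmem _ m1').1 hx) with h1 | h1
    exacts [k1 h1.1, n1' h1.1]
  have c2 : some 0 ∉ c := fun hx => by
    rcases Finset.mem_symmDiff.1 ((hmem _ m2').1 hx) with h1 | h1
    exacts [k2 h1.1, n2' h1.1]
  refine ⟨⟨mono σ hσ c hc, mono_U hσ hc f1 f2 c1 c2⟩, ⟨σ, hσ, c, hc, rfl⟩, ?_⟩
  apply Subtype.ext
  change ((mono σ hσ c hc • w : leechLattice) : GolayPt → ℤ) = w'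
  rw [coe_mono_smul, e, e', signedPerm_oct, hσo]
  apply sgn_rep_congr
  ext x
  simp only [Finset.mem_inter, Finset.mem_symmDiff]
  refine and_congr_left fun hx => ?_
  rw [hmem x hx, Finset.mem_symmDiff]
  tauto

/-- `vX` is a sum of three commutators -/
theorem X_comm : ∃ e₁ ∈ EE, ∃ e₂ ∈ EE, ∃ e₃ ∈ EE, ∃ w₁ w₂ w₃ : leechLattice, Hx w₁ ∧ Hx w₂ ∧ Hx w₃ ∧
    (Cu (((e₁ : Co0) • w₁ + w₁) + ((e₂ : Co0) • w₂ + w₂) + ((e₃ : Co0) • w₃ + w₃)) vX ∨
      Cu (((e₁ : Co0) • w₁ + w₁) + ((e₂ : Co0) • w₂ + w₂) + ((e₃ : Co0) • w₃ + w₃) + e8 none) vX) := by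
  obtain ⟨e₁, h₁, w₁, k₁, c₁⟩ := duad (a := some 2) (b := some 3) (by decide) (by decide) (by decide)
    (by decide) (by decide)
  obtain ⟨e₂, h₂, w₂, k₂, c₂⟩ := duad (a := some 4) (b := some 6) (by decide) (by decide) (by decide)
    (by decide) (by decide)
  obtain ⟨e₃, h₃, w₃, k₃, c₃⟩ := duad (a := some 15) (b := some 18) (by decide) (by decide) (by decide)
    (by decide) (by decide)
  refine ⟨e₁, h₁, e₂, h₂, e₃, h₃, w₁, w₂, w₃, k₁, k₂, k₃, Or.inl (Or.inl ?_)⟩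
  refine ((c₁.add c₂).add c₃).trans ?_
  have hoc : ofMask 8683614 ∈ code := ((H16.mem_octads_iff _).1 oct1).1
  refine cg_iff.2 ⟨⟨rep 0 (ofMask 8683614), (cong_rep 0 hoc).mem hoc⟩ - vX, ?_⟩
  apply Subtype.ext
  funext i
  simp only [AddSubgroup.coe_add, AddSubgroup.coe_sub, Pi.add_apply, Pi.sub_apply, coe_X, v44_apply,
    rep_apply, ind_apply, mem_ofMask, mul_zero, Pi.single_zero, Pi.zero_apply]
  revert i
  decide +kernel

end H95.B4
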