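import Cfsg.Agent.Lib.B43.OrbB
import Cfsg.Agent.Lib.B43.Mo

/-! Shapes of the vectors of the orbit of length 2300, first part. -/

set_option autoImplicit false

namespace H95.B4

open Cfsg Subgroup H15 H16 H48.BR H7.ML Module

variable {w w' : leechLattice}

theorem not_zero_e8 : ¬ Cu 0 (e8 none) := by
  have n0 := sqNorm_zero'
  have nU := norm_U
  have n8 := sqNorm_e8 none
  rintro (e | e)
  · have := e.norm_eq (by omega) (by omega)
    omega
  · rw [zero_add] at e
    have := e.norm_eq (by omega) (by omega)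
    omega

theorem Tw.not_e8 (h : Tw w) : ¬ Cu (e8 none) w := by
  have h1 := h.1
  have h2 := h.2
  have nU := norm_UP
  have n8 := sqNorm_e8 none
  have d := dot_UUP
  rintro (e | e)
  · have := e.norm_eq (by omega) (by omega)
    omega
  · rcases (H99.BC.cg_e8_U.symm.trans e).short (by omega) (by omega) with k | k | k
    · rw [k] at d; omega
    · rw [k, AddSubgroup.coe_neg, dotInt_neg_right] at d; omega
    · omega

theorem ShA_ex {k : GolayPt} (h1 : k ≠ none) (h2 : k ≠ some 0) {t : ℤ} (ht : t = 1 ∨ t = -1) :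
    ∃ γ ∈ MM, (((γ : Co0) • vX : leechLattice) : GolayPt → ℤ) = v44 none k 1 t := by
  classical
  obtain ⟨σ, hσ, a, b, c⟩ := M24_trans3 (a := none) (b := some 0) (c := some 1) (a' := none)
    (b' := some 0) (c' := k) (by simp) (by simp) (by decide) (by simp) h1.symm h2.symm
  obtain ⟨d, hd, e⟩ := exists_code_inter_eq_of_card_lt {none, some 0, k} (if t = 1 then ∅ else {k})
    (by split_ifs <;> simp) (lt_of_le_of_lt Finset.card_le_three (by norm_num))
  have m : ∀ x, x = none ∨ x = some 0 ∨ x = k → (x ∈ d ↔ x ∈ (if t = 1 then ∅ else {k} : Finset GolayPt)) :=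
    fun x hx => by rw [← e]; simp [hx]
  have m1 : none ∉ d := by
    rw [m _ (Or.inl rfl)]; split_ifs <;> simp [h1.symm]
  have m2 : some 0 ∉ d := by
    rw [m _ (Or.inr (Or.inl rfl))]; split_ifs <;> simp [h2.symm]
  have m3 : (if k ∈ d then (-1 : ℤ) else 1) = t := by
    simp only [m _ (Or.inr (Or.inr rfl))]
    rcases ht with rfl | rfl <;> simp
  refine ⟨⟨mono σ hσ d hd, mem_Stab.2 (Subtype.ext ?_)⟩, mono_mem hσ hd, ?_⟩
  · rw [coe_mono_smul, coe_U, signedPerm_v44, a, b, if_neg m1, if_neg m2]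
  · show ((mono σ hσ d hd • vX : leechLattice) : GolayPt → ℤ) = _
    rw [coe_mono_smul, coe_X, signedPerm_v44, a, c, if_neg m1, m3]

theorem ShA_v44 (h : Tw w) {i j : GolayPt} (hij : i ≠ j) {s t : ℤ} (hs : s = 1 ∨ s = -1)
    (ht : t = 1 ∨ t = -1) (e : (w : GolayPt → ℤ) = v44 i j s t) (hi : i = none ∨ i = some 0) :
    ∃ γ ∈ MM, Cu ((γ : Co0) • vX) w := by
  have c := OrbB_coord h
  rw [e, v44_apply, v44_apply] at c
  have j1 : j ≠ none := by
    rintro rfl
    rcases hi with rfl | rfl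
    · exact hij rfl
    · simp at c; omega
  have j2 : j ≠ some 0 := by
    rintro rfl
    rcases hi with rfl | rfl
    · simp at c; omega
    · exact hij rfl
  rw [if_neg j1.symm, if_neg j2.symm] at c
  rcases hi with rfl | rfl
  · obtain rfl : s = 1 := by simp at c; omega
    obtain ⟨γ, hγ, k⟩ := ShA_ex j1 j2 ht
    exact ⟨γ, hγ, by rw [Subtype.ext (k.trans e.symm)]; exact Cu.refl _⟩
  · obtain rfl : s = 1 := by simp at c; omega
    obtain ⟨γ, hγ, k⟩ := ShA_ex (t := -t) j1 j2 (by omega)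
    refine ⟨γ, hγ, ((tw_X.smul γ).cu h).2 (Or.inr (Subtype.ext ?_))⟩
    rw [AddSubgroup.coe_sub, k, e, coe_U]
    funext x
    simp only [Pi.sub_apply, v44_apply]
    split_ifs <;> omega

theorem shape (h : Tw w) (e : (16 : ℤ) ∣ dotInt (w : GolayPt → ℤ) (e8 none : leechLattice)) :
    (∃ γ ∈ MM, Cu ((γ : Co0) • vX) w) ∨ Hx w := by
  rw [coe_e8, dotInt_single_right] at e
  have c := OrbB_coord h
  rcases min_shape w.2 h.1 with ⟨i, j, hij, s, t, hs, ht, k⟩ | ⟨o, _, s, _, _, k⟩ | ⟨d, _, j, k⟩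
  · left
    by_cases hi : i = none ∨ i = some 0
    · exact ShA_v44 h hij hs ht k hi
    · refine ShA_v44 h hij.symm ht hs (k.trans (v44_comm _ _ _ _)) ?_
      by_contra hj
      rw [not_or] at hi hj
      rw [k, v44_apply, v44_apply, if_neg (Ne.symm hi.1), if_neg (Ne.symm hi.2), if_neg (Ne.symm hj.1),
        if_neg (Ne.symm hj.2)] at c
      omega
  · refine Or.inr ⟨h, ?_⟩
    rw [k, oct_apply, oct_apply] at c
    rw [k, oct_apply]
    split_ifs at c ⊢ <;> omega
  · rw [k, odd_apply] at e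
    split_ifs at e <;> omega

theorem ShA_norm (h : Hx w) (e : Cu (w + e8 none) w') (n : sqNorm (w' : GolayPt → ℤ) ≤ 64) :
    sqNorm (w' : GolayPt → ℤ) = 64 := by
  have h1 := h.1.1
  have h2 := h.2
  have c := OrbB_coord h.1
  rcases e with e | e
  · have k : Cg (w - e8 none) (w + e8 none) := by
      rw [sub_eq_add_neg]; exact (Cg.refl w).add (cg_neg _).symm
    have n1 : sqNorm ((w - e8 none : leechLattice) : GolayPt → ℤ) = 64 := by
      rw [AddSubgroup.coe_sub, sqNorm_sub, sqNorm_e8, coe_e8, dotInt_single_right]; omega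
    rw [← (k.trans e).norm_eq (by omega) n, n1]
  · have k : Cg (w - vUP) (w + e8 none + vU) := by
      rw [sub_eq_add_neg, add_assoc]
      exact (Cg.refl w).add ((cg_neg _).symm.trans H99.BC.cg_e8_U.symm)
    have n1 : sqNorm ((w - vUP : leechLattice) : GolayPt → ℤ) = 64 := by
      rw [AddSubgroup.coe_sub, sqNorm_sub, norm_UP, dotInt_comm, H16.dot_UP]; omega
    rw [← (k.trans e).norm_eq (by omega) n, n1]

theorem Hx.not_tw (h : Hx w) (h' : Tw w') : ¬ Cu (w + e8 none) w' := fun e => by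
  have h1 := h'.1
  have := ShA_norm h e (by omega)
  omega

theorem Hx.not_zero (h : Hx w) : ¬ Cu 0 (w + e8 none) := fun e => by
  have h1 := sqNorm_zero'
  have := ShA_norm h e.symm (by omega)
  omega

theorem Hx.odd (h : Hx w) :
    ∃ γ ∈ MM, ¬ (16 : ℤ) ∣ dotInt (((γ : Co0) • vX : leechLattice) : GolayPt → ℤ) w := by
  have h2 := h.2
  have c := OrbB_coord h.1
  have : ∃ k, (w : GolayPt → ℤ) k = 0 := by
    by_contra n
    have n' : ∀ k, (2 : ℤ) ^ 2 ≤ (w : GolayPt → ℤ) k ^ 2 := fun k => by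
      have a := two_dvd_sub_of_mem w.2 k none
      have b : (w : GolayPt → ℤ) k ≠ 0 := fun e => n ⟨k, e⟩
      have : (w : GolayPt → ℤ) k ≤ -2 ∨ 2 ≤ (w : GolayPt → ℤ) k := by omega
      rcases this with a | a <;> nlinarith
    have := Finset.sum_le_sum (s := Finset.univ) fun k _ => n' k
    rw [← sqNorm_def (w : GolayPt → ℤ), h.1.1] at this
    simp at this
  obtain ⟨k, hk⟩ := this
  obtain ⟨γ, hγ, e⟩ := ShA_ex (k := k) (t := 1) (by rintro rfl; omega) (by rintro rfl; omega) (Or.inl rfl)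
  refine ⟨γ, hγ, ?_⟩
  rw [e, dotInt_v44, hk, h2]
  norm_num

theorem ShA_eps {c : Finset GolayPt} (hc : c ∈ code) (h1 : none ∉ c) (h2 : some 1 ∈ c) :
    Cu (eps c hc • vX) (vX + e8 none) := by
  have : eps c hc • vX = vX + -e8 (some 1) := Subtype.ext (by
    rw [coe_eps_smul, AddSubgroup.coe_add, AddSubgroup.coe_neg, coe_X, coe_e8]
    funext x
    simp only [sgn_apply, Pi.add_apply, Pi.neg_apply, v44_apply, Pi.single_apply]
    by_cases a : x = none
    · subst a; simp [h1]
    · by_cases b : x = some 1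
      · subst b; simp [h2]
      · simp [a, b])
  rw [this]
  exact Or.inl ((Cg.refl vX).add ((cg_neg _).symm.trans (e8_sub_e8_mem _ _)))

theorem EE_X {e : Stab vU} (he : e ∈ EE) : (e : Co0) • vX = vX ∨ Cu ((e : Co0) • vX) (vX + e8 none) := by
  obtain ⟨c, hc, k⟩ := mem_epsGroup.1 he
  have u : (e : Co0) • vU = vU := e.2
  rw [show (e : Co0) = eps c hc from k] at u ⊢
  have h1 : none ∉ c := fun n => by
    have := eps_smul_apply hc vU none
    rw [u, if_pos n, OrbB_U_none] at this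
    omega
  by_cases h2 : some 1 ∈ c
  · exact Or.inr (ShA_eps hc h1 h2)
  · refine Or.inl (Subtype.ext ?_)
    rw [coe_eps_smul, coe_X]
    funext x
    simp only [sgn_apply, v44_apply]
    by_cases a : x = none
    · subst a; simp [h1]
    · by_cases b : x = some 1
      · subst b; simp [h2]
      · simp [a, b]

theorem exists_EE_X : ∃ e ∈ EE, Cu ((e : Co0) • vX) (vX + e8 none) := by
  obtain ⟨d, hd, e⟩ := exists_code_inter_eq_of_card_lt {none, some 0, some 1} {some 1}
    (by simp) (lt_of_le_of_lt Finset.card_le_three (by norm_num))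
  have m : ∀ x, x = none ∨ x = some 0 ∨ x = some 1 → (x ∈ d ↔ x ∈ ({some 1} : Finset GolayPt)) :=
    fun x hx => by rw [← e]; simp [hx]
  have m1 : none ∉ d := by rw [m _ (Or.inl rfl)]; simp
  have m2 : some 0 ∉ d := by rw [m _ (Or.inr (Or.inl rfl))]; decide
  have m3 : some 1 ∈ d := by rw [m _ (Or.inr (Or.inr rfl))]; simp
  exact ⟨⟨eps d hd, (smul_U_of_e8 (by rw [eps_smul_e8, if_neg m1]) (by rw [eps_smul_e8, if_neg m2])).1⟩,
    mem_epsGroup.2 ⟨d, hd, rfl⟩, ShA_eps hd m1 m3⟩

end H95.B4
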