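import Cfsg.Agent.Lib.B43.Es
import Cfsg.Agent.Lib.B43.OrbA
import Cfsg.Agent.Lib.B43.Cl

/-! The dimensions of the weight spaces. -/

set_option autoImplicit false
set_option linter.unusedSectionVars false

namespace H95.B4

open Cfsg Subgroup H15 H16 H48.BR H7.ML Module

variable {F : Type*} [Field F] {G : Type*} [Group G] {V V' : Type*} [AddCommGroup V] [Module F V]
  [AddCommGroup V'] [Module F V'] {ρ : Representation F G V} {ρ' : Representation F G V'}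
  [Finite G] [FiniteDimensional F V]

variable {z s σ x : G} {Q Q' : Subgroup G} {φ : centralizer ({z} : Set G) →* Stab vU}
  {cls : leechLattice → G → Prop}

theorem wd_le (M : Bab z Q φ cls) {c : G} (cz : c * z = z * c) (y : G) :
    finrank F (W ρ Q y) ≤ finrank F (W ρ Q (c * y * c⁻¹)) :=
  finrank_le_of_rep c fun _ hv => W.conj hv fun _ hb => conj_mem_of_normalizer' (M.h.norm c cz) hb

theorem wd_tw (M : Bab z Q φ cls) {y y' : G} (h : TwG cls y) (h' : TwG cls y') :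
    finrank F (W ρ Q y) = finrank F (W ρ Q y') := by
  obtain ⟨c, cz, e⟩ := h.trans M h'
  obtain ⟨d, dz, e'⟩ := h'.trans M h
  exact le_antisymm (e ▸ wd_le M cz y) (e' ▸ wd_le M dz y')

theorem wd_ne (h2 : (2 : F) ≠ 0) (M : Bab z Q φ cls) {v w : leechLattice} {a b : G} (ha : cls v a)
    (hb : cls w b) (n : ¬ Cu v w) : ∃ q ∈ (Q : Set G), ee F a q ≠ ee F b q := by
  rw [M.eq_iff ha hb, not_or] at n
  exact W_ne h2 M.h.toES (M.mem ha) (M.mem hb) n.1 n.2

theorem wd_eq (M : Bab z Q φ cls) {v w : leechLattice} {a b : G} (ha : cls v a)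
    (hb : cls w b) (e : Cu v w) : W ρ Q b = W ρ Q a := by
  rcases (M.eq_iff ha hb).1 e with rfl | rfl
  · rfl
  · exact W_mul M.h.central

theorem wd_supp (h2 : (2 : F) ≠ 0) (M : Bab z Q φ cls) (hd : finrank F V ≤ 4371) {y : G} (hy : y ∈ Q)
    (n : W ρ Q y ≠ ⊥) : y = 1 ∨ y = z ∨ TwG cls y := by
  obtain ⟨v, hv⟩ := M.ex_cls y hy
  rcases classify (M.perp hv) with h | ⟨w, hw, h⟩ | ⟨S, hS, h, h'⟩
  · exact ((M.cu_zero_iff hv).1 h).imp_right Or.inl
  · exact Or.inr (Or.inr ⟨w, hw, M.congr hv h⟩)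
  · exfalso
    have : ∀ u ∈ S, ∃ c : centralizer ({z} : Set G), (φ c : Co0) • v = u := fun u hu => by
      obtain ⟨γ, e⟩ := h u hu
      obtain ⟨c, rfl⟩ := M.surj γ
      exact ⟨c, e⟩
    choose! c hc using this
    have hk : ∀ u ∈ S, cls u (c u * y * (c u : G)⁻¹) := fun u hu => by
      have := M.smul (c u) hv
      rwa [hc u hu] at this
    have h1 := sum_finrank_le (ρ := ρ) S Q (fun u => ee F (c u * y * (c u : G)⁻¹))
      (fun i hi j hj ne => wd_ne h2 M (hk i hi) (hk j hj) fun e => ne (h' i hi j hj e))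
      (U := ⊤) fun _ _ => le_top
    have h3 : 1 ≤ finrank F (W ρ Q y) := Submodule.one_le_finrank_iff.2 n
    have h4 := Finset.card_nsmul_le_sum S (fun u => finrank F (W ρ Q (c u * y * (c u : G)⁻¹))) 1
      fun u _ => h3.trans (wd_le M (mem_cent_iff.1 (c u).2) y)
    rw [finrank_top] at h1
    simp only [smul_eq_mul, mul_one] at h4
    exact absurd (h4.trans (h1.trans hd)) (not_le.2 hS)

theorem wd_sum (h2 : (2 : F) ≠ 0) (M : Bab z Q φ cls) {J T : Finset leechLattice}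
    {y : leechLattice → G} (hy : ∀ w ∈ J, cls w (y w)) (hJ : ∀ w ∈ J, ∀ w' ∈ J, Cu w w' → w = w')
    (cov : ∀ a ∈ Q, W ρ Q a ≠ ⊥ → ∃ w ∈ J, W ρ Q (y w) = W ρ Q a) (hT : T ⊆ J) {U : Submodule F V}
    (hz : U ≤ Fx ρ {z}) (inv : ∀ q ∈ Q, ∀ v ∈ U, ρ q v ∈ U) (h1 : ∀ w ∈ T, W ρ Q (y w) ≤ U)
    (h0 : ∀ w ∈ J, w ∉ T → ∀ v ∈ U, v ∈ W ρ Q (y w) → v = 0) :
    finrank F U = ∑ w ∈ T, finrank F (W ρ Q (y w)) := by
  have k1 := sum_finrank_le (ρ := ρ) T Q (fun w => ee F (y w)) (fun i hi j hj ne =>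
      wd_ne h2 M (hy i (hT hi)) (hy j (hT hj)) fun e => ne (hJ i (hT hi) j (hT hj) e)) h1
  refine le_antisymm (finrank_le_sum T (fun w => W ρ Q (y w)) ?_) k1
  refine le_of_W h2 M.h.toES hz inv fun a ha v hv k => ?_
  by_cases v0 : v = 0
  · rw [v0]; exact zero_mem _
  obtain ⟨w, hw, e⟩ := cov a ha fun e => v0 (by rwa [e] at k)
  rw [← e] at k
  by_cases m : w ∈ T
  · exact le_biSup (f := fun w => W ρ Q (y w)) m k
  · exact absurd (h0 w hw m v hv k) v0

theorem Bs.dm (h2 : (2 : F) ≠ 0) (B : Bs z s σ x Q Q' φ cls) (hd : finrank F V ≤ 4371) (n : ρ z ≠ 1) :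
    Dm ρ z Q cls := by
  classical
  have M := B.M
  obtain ⟨I, cI, tI, uI, eI, fI⟩ := exists_I
  have z0 : (0 : leechLattice) ∉ I := fun h => (tI 0 h).not_zero (Cu.refl _)
  have : ∀ w ∈ insert 0 I, ∃ a, cls w a := fun w hw => M.ex_elt w (by
    rcases Finset.mem_insert.1 hw with rfl | h
    exacts [pp_zero, (tI w h).pp])
  choose! y hy using this
  have y0 := hy 0 (Finset.mem_insert_self _ _)
  have hJ : ∀ w ∈ insert 0 I, ∀ w' ∈ insert 0 I, Cu w w' → w = w' := by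
    intro w hw w' hw' e
    rcases Finset.mem_insert.1 hw with rfl | h <;> rcases Finset.mem_insert.1 hw' with rfl | h'
    · rfl
    · exact absurd e (tI _ h').not_zero
    · exact absurd e.symm (tI _ h).not_zero
    · exact uI _ h _ h' e
  have cov : ∀ a ∈ Q, W ρ Q a ≠ ⊥ → ∃ w ∈ insert 0 I, W ρ Q (y w) = W ρ Q a := by
    intro a ha k
    rcases wd_supp h2 M hd ha k with rfl | rfl | ⟨w, hw, e⟩
    · exact ⟨0, Finset.mem_insert_self _ _, wd_eq M M.cls_zero y0 (Cu.refl _)⟩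
    · have := M.mul_z M.cls_zero
      rw [one_mul] at this
      exact ⟨0, Finset.mem_insert_self _ _, wd_eq M this y0 (Cu.refl _)⟩
    · obtain ⟨w', hw', e'⟩ := eI w hw
      exact ⟨w', Finset.mem_insert_of_mem hw', wd_eq M e (hy _ (Finset.mem_insert_of_mem hw')) e'⟩
  have hN : ∀ w ∈ I, finrank F (W ρ Q (y w)) = finrank F (W ρ Q x) := fun w hw =>
    wd_tw M ⟨w, tI w hw, hy w (Finset.mem_insert_of_mem hw)⟩ B.twx
  have invz : ∀ q ∈ Q, ∀ v ∈ Fx ρ {z}, ρ q v ∈ Fx ρ {z} := fun q hq v hv => by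
    rw [mem_Fx1, ← rep_mul, ← M.h.central q hq, rep_mul, mem_Fx1.1 hv]
  have d1 : finrank F (Fx ρ {z}) = finrank F (Fx ρ Q) + 2300 * finrank F (W ρ Q x) := by
    rw [wd_sum h2 M hy hJ cov (Finset.Subset.refl _) le_rfl invz
      (fun w hw => W_le M.h.toES (M.mem (hy w hw))) (fun w hw n => absurd hw n),
      Finset.sum_insert z0, wd_eq M M.cls_zero y0 (Cu.refl _), W_one, Finset.sum_congr rfl hN,
      Finset.sum_const, cI, smul_eq_mul]
  have d2 : finrank F ↥(Fx ρ {z} ⊓ Ng ρ s) = 1024 * finrank F (W ρ Q x) := by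
    rw [wd_sum h2 M hy hJ cov (T := I.filter fun w : leechLattice =>
      ¬ (16 : ℤ) ∣ dotInt (w : GolayPt → ℤ) (e8 none : leechLattice))
      ((Finset.filter_subset _ _).trans (Finset.subset_insert _ _)) inf_le_left ?_ ?_ ?_,
      Finset.sum_congr rfl fun w hw => hN w (Finset.mem_filter.1 hw).1, Finset.sum_const, fI,
      smul_eq_mul]
    · intro q hq v hv
      refine ⟨invz q hq v hv.1, mem_Ng.2 ?_⟩
      rw [← rep_mul]
      rcases M.h.comm s B.p.sQ q hq with e | e <;> rw [e]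
      · rw [rep_mul, mem_Ng.1 hv.2, map_neg]
      · rw [rep_mul, mem_Fx1.1 hv.1, rep_mul, mem_Ng.1 hv.2, map_neg]
    · intro w hw v hv
      obtain ⟨hw, k⟩ := Finset.mem_filter.1 hw
      have m := hy w (Finset.mem_insert_of_mem hw)
      refine ⟨W_le M.h.toES (M.mem m) hv, mem_Ng.2 ?_⟩
      rw [hv s B.p.sQ, ee, sg_neg fun e => k ((M.commute_iff m B.hs).1 e.symm), neg_one_smul]
    · intro w hw k v hv hv'
      have c : y w * s = s * y w := by
        rw [M.commute_iff (hy w hw) B.hs]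
        rcases Finset.mem_insert.1 hw with rfl | h
        · simp [dotInt]
        · by_contra c
          exact k (Finset.mem_filter.2 ⟨h, c⟩)
      refine Wt.eq_zero (Wt.mono hv' (B := {s}) (by simpa using B.p.sQ)) hv.2 (Set.mem_singleton s) ?_
      rw [ee, sg_pos c.symm]
      exact fun e => h2 (by linear_combination e)
  have e1 : z * σ = σ * s := by rw [← B.tau.sz]; group
  have e2 : s * σ = σ * z := by rw [← B.tau.zs]; group
  have d3 : finrank F ↥(Ng ρ z ⊓ Fx ρ {s}) = finrank F ↥(Fx ρ {z} ⊓ Ng ρ s) := by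
    refine le_antisymm (finrank_le_of_rep (ρ := ρ) σ fun v hv => ⟨mem_Fx1.2 ?_, mem_Ng.2 ?_⟩)
      (finrank_le_of_rep (ρ := ρ) σ fun v hv => ⟨mem_Ng.2 ?_, mem_Fx1.2 ?_⟩)
    · rw [← rep_mul, e1, rep_mul, mem_Fx1.1 hv.2]
    · rw [← rep_mul, e2, rep_mul, mem_Ng.1 hv.1, map_neg]
    · rw [← rep_mul, e1, rep_mul, mem_Ng.1 hv.2, map_neg]
    · rw [← rep_mul, e2, rep_mul, mem_Fx1.1 hv.1]
  obtain ⟨τ, hτ, eτ⟩ := B.p.h.exists_conj B.p.sQ B.p.h'.ne_one B.p.ne
  have e3 : z * τ = τ * z := (M.h.central τ hτ).symm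
  have e4 : s * τ = τ * s * z := by
    rw [mul_inv_eq_iff_eq_mul.1 eτ, mul_assoc s, e3, mul_assoc, mul_assoc, M.h.sq, mul_one]
  have d4 : finrank F ↥(Ng ρ z ⊓ Ng ρ s) = finrank F ↥(Ng ρ z ⊓ Fx ρ {s}) := by
    refine le_antisymm (finrank_le_of_rep (ρ := ρ) τ fun v hv => ⟨mem_Ng.2 ?_, mem_Fx1.2 ?_⟩)
      (finrank_le_of_rep (ρ := ρ) τ fun v hv => ⟨mem_Ng.2 ?_, mem_Ng.2 ?_⟩)
    · rw [← rep_mul, e3, rep_mul, mem_Ng.1 hv.1, map_neg]
    · rw [← rep_mul, e4, rep_mul, rep_mul, mem_Ng.1 hv.1, map_neg, mem_Ng.1 hv.2, neg_neg]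
    · rw [← rep_mul, e3, rep_mul, mem_Ng.1 hv.1, map_neg]
    · rw [← rep_mul, e4, rep_mul, rep_mul, mem_Ng.1 hv.1, map_neg, mem_Fx1.1 hv.2, map_neg]
  have d5 := finrank_split (ρ := ρ) h2 B.p.h'.sq (U := Ng ρ z) fun v hv => mem_Ng.2 (by
    rw [← rep_mul, B.p.zs, rep_mul, mem_Ng.1 hv, map_neg])
  have d6 := finrank_split (ρ := ρ) h2 M.h.sq (U := ⊤) fun _ _ => Submodule.mem_top
  rw [finrank_top, top_inf_eq, top_inf_eq] at d6
  have h1 : finrank F (W ρ Q x) = 1 := by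
    have : finrank F (W ρ Q x) ≠ 0 := fun e => n (LinearMap.ext fun v => by
      have e0 : Ng ρ z = ⊥ := Submodule.finrank_eq_zero.1 (by omega)
      have := split_mem (ρ := ρ) h2 M.h.sq (U := ⊤) (fun _ _ => Submodule.mem_top)
        (Submodule.mem_top (x := v))
      rw [e0, inf_bot_eq, sup_bot_eq] at this
      exact mem_Fx1.1 this.2)
    omega
  exact ⟨fun y hy => wd_supp h2 M hd hy, fun y hy => (wd_tw M hy B.twx).trans h1, by omega, by omega⟩

end H95.B4
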